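import Cfsg.Agent.U11.Bas

/-!
# No fixed point free action of the torus
-/

set_option autoImplicit false
set_option linter.unusedSectionVars false

namespace Cfsg.Agent.U11

open Cfsg.Agent.Class.U Cfsg.Agent.Char
open scoped ComplexConjugate

variable {F : Type*} [Field F] [Fintype F] {q : ℕ} [UF F q]

theorem b2_cent {K V G : Type*} [Field K] [IsAlgClosed K] [AddCommGroup V] [Module K V]
    [FiniteDimensional K V] [Group G] (ρ : G →* Module.End K V) (hρ : Function.Injective ρ) {t : G}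
    {l : ℕ} (hl : l.Prime) (h7 : Module.finrank K V < l) (ht : t ^ l = 1) {B : Subgroup G}
    (hB : ∀ a ∈ B, ∀ b ∈ B, a * b = b * a) (hc : (Nat.card B : K) ≠ 0)
    (hn : ∀ x ∈ B, t * x * t⁻¹ ∈ B) : ∀ x ∈ B, t * x = x * t := by
  have hcm : ∀ a b : B, Commute (ρ a) (ρ b) := fun a b => Commute.map (hB a a.2 b b.2) ρ
  have hss : ∀ (b : B) (μ : K), (ρ b).maxGenEigenspace μ = (ρ b).eigenspace μ := fun b μ =>
    (Module.End.isSemisimple_of_squarefree_aeval_eq_zero
      (Polynomial.X_pow_sub_one_separable_iff.2 hc).squarefree (by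
        rw [map_sub, map_pow, Polynomial.aeval_X, map_one, ← map_pow, ← Subgroup.coe_pow,
          pow_card_eq_one', Subgroup.coe_one, map_one, sub_self])).isFinitelySemisimple
      |>.maxGenEigenspace_eq_eigenspace μ
  have h1 := Module.End.independent_iInf_maxGenEigenspace_of_forall_mapsTo (fun b : B => ρ b)
    fun i j => Module.End.mapsTo_maxGenEigenspace_of_comm (hcm j i)
  have h2 := Module.End.iSup_iInf_maxGenEigenspace_eq_top_of_forall_mapsTo (fun b : B => ρ b)
    (fun i j => Module.End.mapsTo_maxGenEigenspace_of_comm (hcm j i))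
    fun i => Module.End.iSup_maxGenEigenspace_eq_top _
  simp only [hss] at h1 h2
  obtain ⟨E, hE⟩ : ∃ E : (B → K) → Submodule K V, E = fun χ => ⨅ b : B, (ρ b).eigenspace (χ b) :=
    ⟨_, rfl⟩
  have hm : ∀ χ v, v ∈ E χ ↔ ∀ b : B, ρ b v = χ b • v := fun χ v => by
    simp only [hE, Submodule.mem_iInf, Module.End.mem_eigenspace_iff]
  rw [← hE] at h1 h2
  let c : B → B := fun b => ⟨t * b * t⁻¹, hn b b.2⟩
  have hcn : ∀ (n : ℕ) (b : B), (c^[n] b : G) = t ^ n * b * (t ^ n)⁻¹ := fun n b => by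
    induction n with
    | zero => simp
    | succ n ih =>
      rw [Function.iterate_succ_apply']
      change t * (c^[n] b : G) * t⁻¹ = _
      rw [ih, pow_succ']; group
  let f : {χ // E χ ≠ ⊥} → {χ // E χ ≠ ⊥} := fun χ => ⟨χ.1 ∘ c, by
    obtain ⟨v, hv, v0⟩ := (Submodule.ne_bot_iff _).1 χ.2
    refine (Submodule.ne_bot_iff _).2 ⟨ρ t⁻¹ v, (hm _ _).2 fun b => ?_, fun e => v0 ?_⟩
    · rw [Function.comp_apply, ← map_smul, ← (hm _ _).1 hv, ← Module.End.mul_apply,
        ← Module.End.mul_apply, ← map_mul, ← map_mul]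
      congr 2
      change _ = t⁻¹ * (t * b * t⁻¹)
      group
    · have := congrArg (ρ t) e
      rwa [← Module.End.mul_apply, ← map_mul, mul_inv_cancel, map_one, map_zero] at this⟩
  have hfn : ∀ (n : ℕ) χ, (f^[n] χ).1 = χ.1 ∘ c^[n] := fun n => by
    induction n with
    | zero => intro χ; rfl
    | succ n ih => intro χ; rw [Function.iterate_succ_apply, ih, Function.iterate_succ']; rfl
  haveI := h1.fintypeNeBotOfFiniteDimensional
  have hf : ∀ χ, f χ = χ := fun χ => by
    have hp : Function.IsPeriodicPt f l χ := Subtype.ext (by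
      rw [hfn]
      funext b
      exact congrArg χ.1 (Subtype.ext (by rw [hcn, ht]; simp)))
    rcases (Nat.dvd_prime hl).1 hp.minimalPeriod_dvd with e | e
    · exact Function.minimalPeriod_eq_one_iff_isFixedPt.1 e
    · have := (Function.minimalPeriod_le_card (f := f) (x := χ)).trans h1.subtype_ne_bot_le_finrank
      omega
  intro x hx
  refine mul_inv_eq_iff_eq_mul.1 (hρ (LinearMap.eqLocus_eq_top.1 (top_le_iff.1 ?_)))
  rw [← h2]
  refine iSup_le fun χ v hv => ?_
  by_cases e : E χ = ⊥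
  · rw [e, Submodule.mem_bot] at hv
    rw [hv]; exact zero_mem _
  · have := congrFun (congrArg Subtype.val (hf ⟨χ, e⟩)) ⟨x, hx⟩
    exact ((hm χ v).1 hv (c ⟨x, hx⟩)).trans
      ((congrArg (· • v) this).trans ((hm χ v).1 hv ⟨x, hx⟩).symm)

/-- the matrix of an element -/
def b2M : GU 11 F q →* Matrix (Fin 11) (Fin 11) F := (Units.coeHom _).comp (GU 11 F q).subtype

theorem b2M_inj : Function.Injective (b2M : GU 11 F q → _) :=
  Units.val_injective.comp Subtype.val_injective

theorem b2M_sc {z : GU 11 F q} {c : F} (h : ∀ v : Fin 11 → F, z • v = c • v) : b2M z = c • 1 :=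
  Matrix.toLin'.injective (LinearMap.ext fun v => by
    rw [Matrix.toLin'_apply, Matrix.toLin'_apply, Matrix.smul_mulVec, Matrix.one_mulVec]
    exact h v)

/-- an abelian subgroup `B` of order prime to `p` normalised by `t` of prime order `l > 11` is
centralised by `t`: over `K = AlgebraicClosure F` the space `K^11` is the direct sum of the common
eigenspaces `V_λ ≠ 0` of `B` (at most `11` of them, being independent); `t` permutes them, orbits
have size `1` or `l`, so `t V_λ = V_λ` and `t b t⁻¹ = b` on each.  (Search for a landed lemma, e.g.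
in `NPQ/GL`, `FH`, "abelian normal subgroup, degree < l".  Alternative by characters: for `b ∈ B`
the commuting matrices `b_i = t^i b t^{-i}`.) -/
theorem cent_of_abelian {t : GU 11 F q} {l : ℕ} (hl : l.Prime) (h7 : 11 < l) (ht : orderOf t = l)
    {B : Subgroup (GU 11 F q)} (hB : ∀ a ∈ B, ∀ b ∈ B, a * b = b * a) (hc : (Nat.card B : F) ≠ 0)
    (hn : ∀ x ∈ B, t * x * t⁻¹ ∈ B) : ∀ x ∈ B, t * x = x * t := by
  let K := AlgebraicClosure F
  refine b2_cent (K := K) (V := Fin 11 → K)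
    ((Matrix.toLinAlgEquiv' : Matrix (Fin 11) (Fin 11) K ≃ₐ[K] _).toRingEquiv.toRingHom.toMonoidHom.comp
      (((algebraMap F K).mapMatrix : Matrix (Fin 11) (Fin 11) F →+* _).toMonoidHom.comp b2M))
    (Matrix.toLinAlgEquiv'.injective.comp
      ((Matrix.map_injective (algebraMap F K).injective).comp b2M_inj)) hl (by simpa using h7)
    (ht ▸ pow_orderOf_eq_one t) hB ?_ hn
  rwa [← map_natCast (algebraMap F K), map_ne_zero]

/-- Let `A = {a ∈ P | ∀ x ∈ P, ⁅a, x⁆ ∈ ZZ}` (preimage of the centre of the non-trivial `r`-group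
`P ZZ / ZZ`): `t`-invariant, `A ≰ ZZ`.  If `r = p`: the `p`-group `P` fixes a vector `≠ 0`, its
fixed space is `t`-invariant, so everything (`hi`), `P = 1`.  Let `r ≠ p`, `B = Z(A)`.  If
`B ≰ ZZ`, `cent_of_abelian` and `hf` give a contradiction.  So each `a ∈ A \ ZZ` has `b ∈ A` with
`b a b⁻¹ = ζ a`, `ζ ≠ 1` scalar, hence `tr a = 0` and `ζ^11 = 1` (determinants), so `11 ≠ 0` in `F`,
and `r = 11` (`ζ` has `r`-power order).  Representatives of `Ā = A ZZ / ZZ` are linearly
independent matrices (multiply by `a_j⁻¹`, take traces), so `|Ā| ≤ 121`, `|Ā| ∈ {11, 121}`; `t` acts on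
`Ā` fixing only `1` (`hf`), so `l ∣ |Ā| - 1 ∈ {10, 120}`, contradiction with `l > 11` prime. -/
theorem no_inv {t : GU 11 F q} {l : ℕ} (hl : l.Prime) (h7 : 11 < l) (ht : orderOf t = l)
    (hi : ∀ W : Submodule F (Fin 11 → F), (∀ v ∈ W, t • v ∈ W) → W = ⊥ ∨ W = ⊤)
    {r : ℕ} (hr : r.Prime) {P : Subgroup (GU 11 F q)} (hP : IsPGroup r P) (hZ : ¬ P ≤ ZZ F q)
    (hn : ∀ x ∈ P, t * x * t⁻¹ ∈ P) (hf : ∀ x ∈ P, t * x * t⁻¹ * x⁻¹ ∈ ZZ F q → x ∈ ZZ F q) :
    False := by
  classical
  haveI := Fact.mk hr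
  haveI := Fact.mk hl
  haveI : (ZZ F q).Normal := ZZ_normal
  have hN : t ∈ Subgroup.normalizer (P : Set (GU 11 F q)) := Subgroup.mem_normalizer_fintype hn
  have hn' : ∀ x ∈ P, t⁻¹ * x * t ∈ P := fun x hx => (Subgroup.mem_normalizer_iff''.1 hN x).1 hx
  by_cases hp : (r : F) = 0
  · have hd : r ∣ Nat.card (Fin 11 → F) := by
      rw [Nat.card_fun, Nat.card_eq_fintype_card]
      refine Dvd.dvd.pow ((prime_dvd_char_iff_dvd_card r).1 ?_) (by simp)
      rw [(Nat.prime_dvd_prime_iff_eq (CharP.char_is_prime F _) hr).1 ((ringChar.spec F r).1 hp)]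
    obtain ⟨b, hb, b0⟩ := hP.exists_fixed_point_of_prime_dvd_card_of_fixed_point (Fin 11 → F) hd
      (a := 0) fun g => smul_zero (g : GU 11 F q)
    rcases hi (⨅ x : P, fx (x : GU 11 F q)) (fun v hv => (Submodule.mem_iInf _).2 fun x => by
      have := (Submodule.mem_iInf _).1 hv ⟨_, hn' x x.2⟩
      rw [mem_fx] at this ⊢
      conv_rhs => rw [← this]
      rw [← mul_smul, ← mul_smul]
      congr 1
      group) with e | e
    · exact b0 ((Submodule.mem_bot F).1 (e ▸ (Submodule.mem_iInf _).2 fun x => hb x)).symm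
    · exact hZ fun x hx => ⟨1, fun v => by
        rw [one_smul]
        exact (Submodule.mem_iInf _).1 (e.ge (Submodule.mem_top (x := v))) ⟨x, hx⟩⟩
  let π := QuotientGroup.mk' (ZZ F q)
  have hπ : ∀ x, π x = 1 ↔ x ∈ ZZ F q := QuotientGroup.eq_one_iff
  obtain ⟨A, hA⟩ : ∃ A : Subgroup (GU 11 F q), ∀ a, a ∈ A ↔ a ∈ P ∧ ∀ x ∈ P, π x * π a = π a * π x :=
    ⟨P ⊓ (Subgroup.centralizer (P.map π : Set (GU 11 F q ⧸ ZZ F q))).comap π,
      fun a => and_congr_right fun _ => ⟨fun h x hx => h _ (Subgroup.mem_map_of_mem π hx),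
        fun h => by rintro _ ⟨x, hx, rfl⟩; exact h x hx⟩⟩
  have hAP : A ≤ P := fun a ha => ((hA a).1 ha).1
  have hAn : ∀ a ∈ A, t * a * t⁻¹ ∈ A := fun a ha => (hA _).2 ⟨hn a (hAP ha), fun x hx => by
    have := ((hA a).1 ha).2 _ (hn' x hx)
    simp only [map_mul, map_inv] at this ⊢
    calc _ = π t * ((π t)⁻¹ * π x * π t * π a) * (π t)⁻¹ := by group
      _ = _ := by rw [this]; group⟩
  have hAn' : ∀ a ∈ A, t⁻¹ * a * t ∈ A := fun a ha =>
    (Subgroup.mem_normalizer_iff''.1 (Subgroup.mem_normalizer_fintype hAn) a).1 ha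
  obtain ⟨a₀, ha₀, na₀⟩ : ∃ a ∈ A, a ∉ ZZ F q := by
    haveI : Nontrivial (P.map π) := (Subgroup.nontrivial_iff_ne_bot _).2 fun e =>
      hZ (by rwa [Subgroup.map_eq_bot_iff, QuotientGroup.ker_mk'] at e)
    haveI := (hP.map π).center_nontrivial
    obtain ⟨⟨⟨_, a, ha, rfl⟩, hc⟩, h1⟩ := exists_ne (1 : Subgroup.center (P.map π))
    exact ⟨a, (hA a).2 ⟨ha, fun x hx => congrArg Subtype.val
      (Subgroup.mem_center_iff.1 hc ⟨_, x, hx, rfl⟩)⟩,
      fun e => h1 (Subtype.ext (Subtype.ext ((hπ a).2 e)))⟩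
  have hB : A ⊓ Subgroup.centralizer A ≤ ZZ F q := fun x hx => hf x (hAP hx.1) (by
    obtain ⟨k, hk⟩ := IsPGroup.iff_card.1 (hP.to_le (inf_le_left.trans hAP :
      A ⊓ Subgroup.centralizer A ≤ P))
    rw [cent_of_abelian hl h7 ht (B := A ⊓ Subgroup.centralizer A) (fun a ha b hb => hb.2 a ha.1)
      (by rw [hk, Nat.cast_pow]; exact pow_ne_zero _ hp) (fun y hy => ⟨hAn y hy.1, fun a ha => by
        have := hy.2 _ (hAn' a ha)
        calc _ = t * (t⁻¹ * a * t * y) * t⁻¹ := by group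
          _ = _ := by rw [this]; group⟩) x hx, mul_inv_cancel_right, mul_inv_cancel]
    exact one_mem _)
  have key : ∀ a ∈ A, a ∉ ZZ F q → (b2M a).trace = 0 ∧ r = 11 := fun a ha na => by
    obtain ⟨b, hb, e⟩ : ∃ b ∈ A, b * a ≠ a * b := by
      by_contra c
      push Not at c
      exact na (hB ⟨ha, c⟩)
    have hz : b * a * b⁻¹ * a⁻¹ ∈ ZZ F q := (hπ _).1 (by
      rw [map_mul, map_mul, map_mul, ((hA a).1 ha).2 b (hAP hb), map_inv, map_inv]; group)
    have z1 : b * a * b⁻¹ * a⁻¹ ≠ 1 := fun c => e (by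
      rwa [mul_inv_eq_one, mul_inv_eq_iff_eq_mul] at c)
    constructor
    · obtain ⟨c, hc⟩ := hz
      have c1 : c ≠ 1 := fun e => z1 (GU_ext fun v => by rw [hc, e, one_smul, one_smul])
      have e1 : b2M (b * a * b⁻¹) = c • b2M a := by
        rw [← inv_mul_cancel_right (b * a * b⁻¹) a, map_mul, b2M_sc hc, smul_mul_assoc, one_mul]
      have e2 := congrArg Matrix.trace e1
      rw [map_mul, Matrix.trace_mul_comm, ← map_mul, inv_mul_cancel_left, Matrix.trace_smul,
        smul_eq_mul] at e2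
      exact (mul_left_eq_self₀.1 e2.symm).resolve_left c1
    · haveI : Fact (Nat.Prime 11) := ⟨by norm_num⟩
      have h7 := orderOf_eq_prime (ZZ_SS_pow hz (by
        rw [MonoidHom.mem_ker, map_mul, map_mul, map_mul, map_inv, map_inv, mul_inv_cancel_comm,
          mul_inv_cancel])) z1
      obtain ⟨k, hk⟩ := hP ⟨_, mul_mem (mul_mem (mul_mem (hAP hb) (hAP ha)) (inv_mem (hAP hb)))
        (inv_mem (hAP ha))⟩
      have := orderOf_dvd_of_pow_eq_one (congrArg Subtype.val hk : (b * a * b⁻¹ * a⁻¹) ^ r ^ k = 1)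
      rw [h7] at this
      exact ((Nat.prime_dvd_prime_iff_eq (by norm_num) hr).1
        (Nat.Prime.dvd_of_dvd_pow (by norm_num) this)).symm
  obtain rfl := (key a₀ ha₀ na₀).2
  haveI := Fintype.ofFinite (A.map π)
  choose s hs hs' using fun u : A.map π => u.2
  have hli : LinearIndependent F fun u => b2M (s u) := Fintype.linearIndependent_iff.2 fun g hg j => by
    have e := congrArg (fun M => (M * b2M (s j)⁻¹).trace) hg
    simp only [Finset.sum_mul, Matrix.trace_sum, smul_mul_assoc, Matrix.trace_smul, zero_mul,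
      Matrix.trace_zero, ← map_mul] at e
    rw [Finset.sum_eq_single j (fun i _ hi => by
      rw [(key _ (mul_mem (hs i) (inv_mem (hs j))) fun c => hi (Subtype.ext ?_)).1, smul_zero]
      rwa [← hπ, map_mul, map_inv, hs', hs', mul_inv_eq_one] at c) (by simp),
      mul_inv_cancel, map_one, Matrix.trace_one, smul_eq_mul, Fintype.card_fin] at e
    exact (mul_eq_zero.1 e).resolve_right hp
  have h49 := hli.fintype_card_le_finrank
  rw [Module.finrank_matrix, Fintype.card_fin, Module.finrank_self] at h49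
  obtain ⟨k, hk⟩ := IsPGroup.iff_card.1 ((hP.to_le hAP).map π)
  let f : Function.End (A.map π) := fun u => ⟨π t * u * (π t)⁻¹, by
    obtain ⟨_, a, ha, rfl⟩ := u
    exact ⟨_, hAn a ha, by rw [map_mul, map_mul, map_inv]⟩⟩
  have hfn : ∀ (n : ℕ) (u : A.map π), ((f ^ n) u : GU 11 F q ⧸ ZZ F q) = π t ^ n * u * (π t ^ n)⁻¹ :=
    fun n u => by
      induction n with
      | zero => simp; rfl
      | succ n ih =>
        rw [pow_succ']
        change π t * ((f ^ n) u : GU 11 F q ⧸ ZZ F q) * (π t)⁻¹ = _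
        rw [ih, pow_succ']; group
  have hfl : f ^ l ^ 1 = 1 := funext fun u => Subtype.ext (by
    rw [hfn, pow_one, ← map_pow, ← ht, pow_orderOf_eq_one, map_one, one_mul, inv_one, mul_one]; rfl)
  have hm := Equiv.Perm.card_fixedPoints_modEq hfl
  have h1 : Fintype.card f.fixedPoints = 1 := Fintype.card_eq_one_iff.2
    ⟨⟨1, Subtype.ext (by simp [f])⟩, by
      rintro ⟨⟨_, a, ha, rfl⟩, e⟩
      have e' : π t * π a * (π t)⁻¹ = π a := congrArg Subtype.val e
      exact Subtype.ext (Subtype.ext ((hπ a).2 (hf a (hAP ha) ((hπ _).1 (by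
        rw [map_mul, map_mul, map_mul, map_inv, map_inv, e', mul_inv_cancel])))))⟩
  have h2 : 1 < Fintype.card (A.map π) := Fintype.one_lt_card_iff_nontrivial.2
    ⟨⟨π a₀, a₀, ha₀, rfl⟩, 1, fun e => na₀ ((hπ _).1 (congrArg Subtype.val e))⟩
  rw [Nat.card_eq_fintype_card] at hk
  rw [h1, hk] at hm
  rw [hk] at h49 h2
  have hk2 : k ≤ 2 := (Nat.pow_le_pow_iff_right (by norm_num)).1 (h49 : 11 ^ k ≤ 11 ^ 2)
  have hd : l ∣ 120 := by
    have := (Nat.modEq_iff_dvd' h2.le).1 hm.symm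
    interval_cases k
    · omega
    · exact this.trans (by norm_num)
    · exact this
  have := Nat.le_of_dvd (by norm_num) hd
  have h24 : l ∣ 2 ^ 3 * (3 * 5) := hd
  rcases (Nat.Prime.dvd_mul hl).1 h24 with e | e
  · have := Nat.le_of_dvd (by norm_num) (hl.dvd_of_dvd_pow e)
    omega
  · rcases (Nat.Prime.dvd_mul hl).1 e with e | e <;>
    · have := Nat.le_of_dvd (by norm_num) e
      omega

end Cfsg.Agent.U11
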