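import Cfsg.Agent.U11.Defs
import Cfsg.Agent.Char.Quot

/-!
# Basic API (scalars, fixed spaces, values of the Weil character)
-/

set_option autoImplicit false
set_option linter.unusedSectionVars false

namespace Cfsg.Agent.U11

open Cfsg.Agent.Class.U Cfsg.Agent.Char
open scoped ComplexConjugate

variable {F : Type*} [Field F] [Fintype F] {q : ℕ} [UF F q]

/-- `(q+1) hh = q^11+1` (write `q = r + 1`). -/
theorem hh_mul (h : 1 ≤ q) : (q + 1) * hh q = q ^ 11 + 1 := by
  obtain ⟨r, rfl⟩ := Nat.exists_eq_add_of_le' h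
  rw [hh, Nat.add_sub_cancel]
  ring

/-- `hh q ≡ 11 (mod q + 1)`, so `gcd 11 (q+1) ∣ hh q`. -/
theorem hp_mul (h : 1 ≤ q) : Nat.gcd 11 (q + 1) * hp q = hh q := by
  refine Nat.mul_div_cancel' ?_
  have e : hh q + (q + 1) * (2 * q ^ 8 + 4 * q ^ 6 + 6 * q ^ 4 + 8 * q ^ 2 + 10) =
      11 + (q + 1) * (q ^ 9 + 3 * q ^ 7 + 5 * q ^ 5 + 7 * q ^ 3 + 9 * q) := by
    obtain ⟨r, rfl⟩ := Nat.exists_eq_add_of_le' h
    rw [hh, Nat.add_sub_cancel]
    ring
  have h1 := Nat.gcd_dvd_left 11 (q + 1)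
  have h2 := Nat.gcd_dvd_right 11 (q + 1)
  refine (Nat.dvd_add_iff_left (h2.mul_right (2 * q ^ 8 + 4 * q ^ 6 + 6 * q ^ 4 + 8 * q ^ 2 + 10))).2 ?_
  rw [e]
  exact dvd_add h1 (h2.mul_right _)

theorem hp_of_not (h : ¬ 11 ∣ q + 1) : hp q = hh q := by
  rw [hp, ((Nat.Prime.coprime_iff_not_dvd (by norm_num)).2 h : Nat.gcd 11 (q + 1) = 1), Nat.div_one]

theorem hp_of_dvd (h : 11 ∣ q + 1) : 11 * hp q = hh q := by
  have := hp_mul (q := q) (by omega)
  rwa [Nat.gcd_eq_left h] at this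

theorem hp_two : hp 2 = 683 := by
  decide

theorem hh_mono {a b : ℕ} (h : a ≤ b) : hh a ≤ hh b := by
  unfold hh
  gcongr

/-- `hh 3 = 44287`, `hh` is monotone, `hh 10 / 11 > 44287`. -/
theorem hp_big (h : 3 ≤ q) : 44287 ≤ hp q := by
  by_cases h7 : 11 ∣ q + 1
  · have h1 := hp_of_dvd h7
    have h2 := hh_mono (show 10 ≤ q by omega)
    have h3 : hh 10 = 9090909091 := by decide
    omega
  · rw [hp_of_not h7]
    exact hh_mono h

theorem hp_ge (h : 2 ≤ q) : 683 ≤ hp q := by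
  rcases h.eq_or_lt with rfl | h
  · exact hp_two.ge
  · exact le_trans (by norm_num) (hp_big h)

/-- `card_SU_mul`, `card_GU`, `range_toGU`, `toGU_injective`. -/
theorem card_SS : Nat.card (SS F q) = so q := by
  have h1 := card_SU_mul (n := 11) (F := F) (q := q) (by norm_num)
  rw [Nat.card_congr (MonoidHom.ofInjective toGU_injective).toEquiv, range_toGU, card_GU] at h1
  refine Nat.eq_of_mul_eq_mul_left (Nat.succ_pos q) (h1.trans ?_)
  simp +decide only [Finset.prod_range_succ, Finset.prod_range_zero, so, if_true, if_false]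
  norm_num
  ring

/-- the scalar of an element of `ZZ` has norm one (`GU_herm` on a unit vector) -/
theorem ZZ_norm {z : GU 11 F q} {c : F} (h : ∀ v : Fin 11 → F, z • v = c • v) : c * c ^ q = 1 := by
  have := GU_herm z (Pi.single 0 1) (Pi.single 0 1)
  rwa [h, herm_smul_left, herm_smul_right, herm_single_single, if_pos rfl, mul_one] at this

/-- `mkGU (c • 1) (pres_scalar ..)` -/
theorem exists_ZZ {c : F} (h : c * c ^ q = 1) : ∃ z ∈ ZZ F q, ∀ v : Fin 11 → F, z • v = c • v := by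
  have k : ∀ v : Fin 11 → F, mkGU (c • 1) (pres_scalar (n := 11) (q := q) h) • v = c • v := fun v => by
    rw [mkGU_smul, Matrix.smul_mulVec, Matrix.one_mulVec]
  exact ⟨_, ⟨c, k⟩, k⟩

theorem sc_uniq {z : GU 11 F q} {c d : F} (h : ∀ v : Fin 11 → F, z • v = c • v)
    (h' : ∀ v : Fin 11 → F, z • v = d • v) : c = d := by
  simpa using congrFun ((h (Pi.single 0 1)).symm.trans (h' _)) 0

/-- bijection with `{c | c * conj c = 1}`, `card_norm_fiber` -/
theorem card_ZZ : Nat.card (ZZ F q) = q + 1 := by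
  rw [← card_norm_fiber (F := F) (q := q) one_ne_zero (map_one _)]
  refine Nat.card_congr (Equiv.ofBijective
    (fun z => ⟨Exists.choose z.2, ZZ_norm (Exists.choose_spec z.2)⟩) ⟨fun z w e => ?_, fun c => ?_⟩)
  · refine Subtype.ext (GU_ext fun v => ?_)
    rw [Exists.choose_spec z.2, Exists.choose_spec w.2, Subtype.mk.inj e]
  · obtain ⟨z, hz, e⟩ := exists_ZZ c.2
    exact ⟨⟨z, hz⟩, Subtype.ext (sc_uniq (Exists.choose_spec hz) e)⟩

theorem ZZ_comm {z : GU 11 F q} (hz : z ∈ ZZ F q) (g : GU 11 F q) : z * g = g * z := by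
  obtain ⟨c, hc⟩ := hz
  refine GU_ext fun v => ?_
  rw [mul_smul, mul_smul, hc, hc, GU_smul_comm]

theorem ZZ_normal : (ZZ F q).Normal := by
  exact ⟨fun z hz g => by rwa [← ZZ_comm hz, mul_inv_cancel_right]⟩

theorem ZZ_pow {z : GU 11 F q} (hz : z ∈ ZZ F q) : z ^ (q + 1) = 1 := by
  rw [← card_ZZ (F := F)]
  exact congrArg Subtype.val (pow_card_eq_one' (x := (⟨z, hz⟩ : ZZ F q)))

/-- determinant of a scalar matrix -/
theorem ZZ_SS_pow {z : GU 11 F q} (hz : z ∈ ZZ F q) (hs : z ∈ SS F q) : z ^ 11 = 1 := by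
  obtain ⟨c, hc⟩ := hz
  have e : z = mkGU (c • 1) (pres_scalar (ZZ_norm hc)) := GU_ext fun v => by
    rw [mkGU_smul, Matrix.smul_mulVec, Matrix.one_mulVec, hc]
  have h1 : (detGU z : F) = 1 := congrArg Units.val hs
  rw [e, detGU_mkGU, Matrix.det_smul, Matrix.det_one, mul_one, Fintype.card_fin] at h1
  have k : ∀ (n : ℕ) (v : Fin 11 → F), z ^ n • v = c ^ n • v := fun n => by
    induction n with
    | zero => simp
    | succ n ih => intro v; rw [pow_succ, mul_smul, ih, hc, smul_smul, pow_succ]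
  exact GU_ext fun v => by rw [k, h1, one_smul, one_smul]

theorem ZZ_cm (a b : ZZ F q) : a * b = b * a := Subtype.ext (ZZ_comm a.2 b)

/-- `ZZ` is abelian: all irreducible characters are linear (`one_eq_one_of_comm`,
`sum_irr_one_sq`; see `Sing.TId.cI`) -/
theorem card_irr_ZZ : Fintype.card (IrrCharacter (ZZ F q)) = q + 1 := by
  have := sum_irr_one_sq (G := ZZ F q)
  simp only [fun θ : IrrCharacter (ZZ F q) => θ.2.one_eq_one_of_comm ZZ_cm, one_pow, Finset.sum_const,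
    Finset.card_univ, nsmul_eq_mul, mul_one, card_ZZ] at this
  exact_mod_cast this

theorem irr_ZZ_one (θ : IrrCharacter (ZZ F q)) : (θ : ZZ F q → ℂ) 1 = 1 := by
  exact θ.2.one_eq_one_of_comm ZZ_cm

theorem irr_ZZ_mul (θ : IrrCharacter (ZZ F q)) (a b : ZZ F q) :
    (θ : ZZ F q → ℂ) (a * b) = (θ : ZZ F q → ℂ) a * (θ : ZZ F q → ℂ) b := by
  obtain ⟨l, hl⟩ := θ.2.exists_linear_of_comm ZZ_cm
  simp only [hl, map_mul, Units.val_mul]

theorem irr_ZZ_norm (θ : IrrCharacter (ZZ F q)) (a : ZZ F q) : ‖(θ : ZZ F q → ℂ) a‖ = 1 := by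
  rw [norm_eq_of_mem_center θ.2 (Subgroup.mem_center_iff.2 fun g => ZZ_cm g a), irr_ZZ_one, norm_one]

theorem dd_one : dd (1 : GU 11 F q) = 11 := by
  have : fx (1 : GU 11 F q) = ⊤ := eq_top_iff.2 fun v _ => one_smul _ v
  rw [dd, this, finrank_top, Module.finrank_fin_fun]

theorem dd_le (g : GU 11 F q) : dd g ≤ 11 := by
  exact (Submodule.finrank_le _).trans_eq (Module.finrank_fin_fun F)

theorem dd_eq_zero {g : GU 11 F q} : dd g = 0 ↔ ∀ v : Fin 11 → F, g • v = v → v = 0 := by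
  rw [dd, Submodule.finrank_eq_zero, Submodule.eq_bot_iff]
  rfl

theorem dd_inv (g : GU 11 F q) : dd g⁻¹ = dd g := by
  have : fx g⁻¹ = fx g := Submodule.ext fun v => by rw [mem_fx, mem_fx, inv_smul_eq_iff, eq_comm]
  rw [dd, this, dd]

theorem dd_conj (g k : GU 11 F q) : dd (k * g * k⁻¹) = dd g := by
  have : fx (k * g * k⁻¹) =
      (fx g).map (DistribMulAction.toLinearEquiv F (Fin 11 → F) k : (Fin 11 → F) →ₗ[F] Fin 11 → F) := by
    ext v
    rw [Submodule.mem_map_equiv, mem_fx, mem_fx, mul_smul, mul_smul, ← eq_inv_smul_iff]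
    rfl
  rw [dd, this, LinearEquiv.finrank_map_eq, dd]

theorem card_fx (g : GU 11 F q) : Nat.card {v : Fin 11 → F // g • v = v} = q ^ (2 * dd g) := by
  rw [pow_mul, ← UF.card_eq (F := F), dd, ← Module.natCard_eq_pow_finrank]
  rfl

theorem dd_ZZ {z : GU 11 F q} (hz : z ∈ ZZ F q) (h1 : z ≠ 1) : dd z = 0 := by
  obtain ⟨c, hc⟩ := hz
  refine dd_eq_zero.2 fun v hv => by_contra fun h0 => h1 (GU_ext fun w => ?_)
  have : c = 1 := smul_left_injective F h0 (by simpa only [← hc, one_smul] using hv)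
  rw [hc, this, one_smul, one_smul]

/-- the fixed space of `z s` is `s`-invariant; if it is everything then `s ∈ ZZ` and `fpf 1`
gives `s = 1` -/
theorem Sg.dd_zs {T : Subgroup (GU 11 F q)} {σ : GU 11 F q} (D : Sg T σ) {z s : GU 11 F q}
    (hz : z ∈ ZZ F q) (hs : s ∈ T) (h1 : s ≠ 1) : dd (z * s) = 0 := by
  rcases D.irr s hs h1 (fx (z * s)) (fun v hv => by
    rw [mem_fx] at hv ⊢
    rw [← mul_smul, mul_assoc, ZZ_comm hz, mul_assoc, ← ZZ_comm hz, mul_smul, hv]) with h | h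
  · rw [dd, h, finrank_bot]
  · have e : z * s = 1 := GU_ext fun v => by
      rw [one_smul]
      exact mem_fx.1 (h ▸ Submodule.mem_top)
    have hs' : s ∈ ZZ F q := by
      rw [eq_inv_of_mul_eq_one_right e]
      exact inv_mem hz
    exact absurd (D.fpf 1 one_pos (by norm_num) s hs
      (mul_mem (ZZ_normal.conj_mem s hs' _) (inv_mem hs'))) h1

theorem om_sq (g : GU 11 F q) : om g ^ 2 = Nat.card {v : Fin 11 → F // g • v = v} := by
  rw [card_fx, om, neg_sq, ← pow_mul, mul_comm, pow_mul, neg_sq, ← pow_mul]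
  push_cast
  rfl

theorem conj_om (g : GU 11 F q) : conj (om g) = om g := by
  simp [om]

/-- substitute `z ↦ z⁻¹ z'`… in the defining sum -/
theorem omt_mul (θ : IrrCharacter (ZZ F q)) (z : ZZ F q) (g : GU 11 F q) :
    omt θ (z * g) = (θ : ZZ F q → ℂ) z * omt θ g := by
  have h1 : (θ : ZZ F q → ℂ) z * conj ((θ : ZZ F q → ℂ) z) = 1 := by
    rw [Complex.mul_conj', irr_ZZ_norm]
    simp
  rw [omt, omt, mul_left_comm,
    ← Equiv.sum_comp (Equiv.mulRight z) (fun w => conj ((θ : ZZ F q → ℂ) w) * om ((w : GU 11 F q) * g)),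
    Finset.mul_sum (a := (θ : ZZ F q → ℂ) z)]
  congr 1
  refine Finset.sum_congr rfl fun w _ => ?_
  rw [Equiv.coe_mulRight, irr_ZZ_mul, map_mul, Subgroup.coe_mul, mul_assoc (w : GU 11 F q)]
  linear_combination (-(conj ((θ : ZZ F q → ℂ) w) * om ((w : GU 11 F q) * ((z : GU 11 F q) * g)))) * h1

theorem q1_ne : (q : ℂ) + 1 ≠ 0 := Nat.cast_add_one_ne_zero q

open Classical in
theorem sum_conj_irr (θ : IrrCharacter (ZZ F q)) : ((q : ℂ) + 1)⁻¹ * ∑ z : ZZ F q, conj ((θ : ZZ F q → ℂ) z) =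
    if θ = irrOne _ then 1 else 0 := by
  have := irr_inner (irrOne (ZZ F q)) θ
  simp only [classInner, card_ZZ, irrOne_apply, one_mul, Nat.cast_add, Nat.cast_one, eq_comm (b := θ)] at this
  exact this

/-- Fourier inversion on `ZZ` (`sum_irr_mul_conj`: column orthogonality in an abelian group) -/
theorem sum_omt (g : GU 11 F q) : ∑ θ : IrrCharacter (ZZ F q), omt θ g = om g := by
  simp only [omt]
  rw [← Finset.mul_sum, Finset.sum_comm, Finset.sum_eq_single (1 : ZZ F q)]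
  · simp only [irr_ZZ_one, map_one, one_mul, Finset.sum_const, Finset.card_univ, card_irr_ZZ, nsmul_eq_mul,
      OneMemClass.coe_one, Nat.cast_add, Nat.cast_one]
    rw [inv_mul_cancel_left₀ q1_ne]
  · intro z _ hz
    have := sum_irr_mul_conj_of_not_isConj (g := (1 : ZZ F q)) (h := z) fun h => hz (isConj_one_right.1 h)
    simp only [irr_ZZ_one, one_mul] at this
    rw [← Finset.sum_mul, this, zero_mul]
  · intro h
    exact absurd (Finset.mem_univ _) h

open Classical in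
/-- `om 1 = q^11`, `om z = -1` for `z ≠ 1`; `∑_z conj θ z = (q+1)[θ = 1]` -/
theorem omt_one (θ : IrrCharacter (ZZ F q)) :
    omt θ 1 = (hh q : ℂ) - if θ = irrOne _ then 1 else 0 := by
  have h1 : ∀ z : ZZ F q, om ((z : GU 11 F q) * 1) = -1 + if z = 1 then (q : ℂ) ^ 11 + 1 else 0 := fun z => by
    rw [mul_one, om]
    split_ifs with h
    · rw [h, OneMemClass.coe_one, dd_one]
      ring
    · rw [dd_ZZ z.2 fun e => h (Subtype.ext e)]
      ring
  have h2 : ((q : ℂ) + 1) * hh q = q ^ 11 + 1 := by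
    exact_mod_cast hh_mul (q := q) (one_le_two.trans (two_le_q F q))
  rw [← sum_conj_irr θ, omt]
  simp only [h1]
  simp only [mul_add, Finset.sum_add_distrib, mul_ite, mul_zero, Finset.sum_ite_eq', Finset.mem_univ,
    if_true, irr_ZZ_one, map_one, one_mul, mul_neg, mul_one, Finset.sum_neg_distrib]
  rw [← mul_add_one, ← h2, inv_mul_cancel_left₀ q1_ne]
  ring

open Classical in
theorem Sg.omt_T {T : Subgroup (GU 11 F q)} {σ : GU 11 F q} (D : Sg T σ) (θ : IrrCharacter (ZZ F q))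
    {s : GU 11 F q} (hs : s ∈ T) (h1 : s ≠ 1) : omt θ s = -if θ = irrOne _ then 1 else 0 := by
  rw [← sum_conj_irr θ, omt]
  simp only [om, fun z : ZZ F q => D.dd_zs z.2 hs h1, pow_zero, mul_neg, mul_one, Finset.sum_neg_distrib]

open Classical in
theorem cen_res (H : Subgroup (GU 11 F q)) (θ : IrrCharacter (ZZ F q)) :
    Cen ((ZZ F q).subgroupOf H)
      (fun g => if h : (g : GU 11 F q) ∈ ZZ F q then (θ : ZZ F q → ℂ) ⟨g, h⟩ else 1) (res H θ) := by
  intro z hz
  have hz' : (z : GU 11 F q) ∈ ZZ F q := hz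
  simp only [dif_pos hz']
  exact ⟨irr_ZZ_norm θ _, fun g => omt_mul θ ⟨z, hz'⟩ g⟩

theorem mem_VV {a : F} {v : Fin 11 → F} : v ∈ VV q a ↔ v ≠ 0 ∧ hermForm 11 F q v v = a := by
  simp [VV]

theorem mem_VN {v : Fin 11 → F} : v ∈ VN F q ↔ hermForm 11 F q v v ≠ 0 := by
  simp [VN]

/-- `card_isotropic` -/
theorem card_VV_zero : (VV q (0 : F)).card = (q ^ 11 + 1) * (q ^ 10 - 1) := by
  classical
  have h := card_isotropic (n := 11) (F := F) (q := q)
  rw [if_neg (by decide), Nat.subtype_card (insert 0 (VV q (0 : F))) fun v => by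
    rw [Finset.mem_insert, mem_VV]
    by_cases h0 : v = 0
    · simp [h0, herm_zero_left]
    · simp [h0], Finset.card_insert_of_notMem fun k => (mem_VV.1 k).1 rfl] at h
  exact Nat.add_right_cancel h

/-- `card_norm_ne` -/
theorem card_VV_ne {a : F} (h0 : a ≠ 0) (ha : a ^ q = a) : (VV q a).card = q ^ 10 * (q ^ 11 + 1) := by
  have h := card_norm_ne (n := 11) (F := F) (q := q) ha h0
  rwa [if_neg (by decide), Nat.subtype_card (VV q a) fun v => by
    rw [mem_VV]
    exact ⟨fun k => k.2, fun k => ⟨by rintro rfl; exact h0 (k.symm.trans (herm_zero_left _)), k⟩⟩] at h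

theorem VV_eq_empty {a : F} (ha : a ^ q ≠ a) : VV q a = ∅ := by
  refine Finset.eq_empty_of_forall_notMem fun v hv => ha ?_
  rw [← (mem_VV.1 hv).2]
  exact herm_conj v v

end Cfsg.Agent.U11
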