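import Cfsg.Agent.U11.Gs

/-!
# The Heisenberg operators exist
-/

set_option autoImplicit false
set_option linter.unusedSectionVars false

namespace Cfsg.Agent.U11

open Cfsg.Agent.Class.U Cfsg.Agent.Char
open scoped ComplexConjugate

variable {F : Type*} [Field F] [Fintype F] {q : ℕ} [UF F q]

local notation "𝐡" => hermForm 11 F q

open Classical in
theorem w1_sum {R : Type*} [Semiring R] [Algebra ℂ R] {ψ : AddChar F ℂ}
    (hψ : ∃ c : F, c + c ^ q = 0 ∧ ψ c ≠ 1) {e : (Fin 11 → F) → R}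
    (h : ∀ v w, e v * e w = ψ (𝐡 v w) • e (v + w)) (t : Fin 11 → F) :
    ∑ w, ψ (𝐡 w w) • (e w * e t * e (-w)) = (if t = 0 then (q : ℂ) ^ 22 else 0) • e t := by
  rw [← sum_pair hψ t, Finset.sum_smul]
  refine Finset.sum_congr rfl fun w _ => ?_
  rw [h, smul_mul_assoc, h, smul_smul, smul_smul, ← AddChar.map_add_eq_mul, ← AddChar.map_add_eq_mul,
    herm_neg_right, herm_add_left, add_neg_cancel_comm]
  congr 2
  ring

/-- the left regular operators -/
def w1L (q : ℕ) (ψ : AddChar F ℂ) (v : Fin 11 → F) : Module.End ℂ ((Fin 11 → F) → ℂ) where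
  toFun f x := ψ (hermForm 11 F q v (x - v)) * f (x - v)
  map_add' f g := by ext x; simp [mul_add]
  map_smul' c f := by ext x; simp [mul_left_comm]

theorem w1L_mul (ψ : AddChar F ℂ) (v w : Fin 11 → F) :
    w1L q ψ v * w1L q ψ w = ψ (𝐡 v w) • w1L q ψ (v + w) := by
  refine LinearMap.ext fun f => funext fun x => ?_
  change ψ (𝐡 v (x - v)) * (ψ (𝐡 w (x - v - w)) * f (x - v - w)) =
    ψ (𝐡 v w) * (ψ (𝐡 (v + w) (x - (v + w))) * f (x - (v + w)))
  rw [← sub_sub, ← mul_assoc, ← mul_assoc, ← AddChar.map_add_eq_mul, ← AddChar.map_add_eq_mul,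
    herm_add_left, herm_sub_right v (x - v)]
  congr 2
  ring

theorem w1L_zero (ψ : AddChar F ℂ) : w1L q ψ 0 = 1 := by
  refine LinearMap.ext fun f => funext fun x => ?_
  change ψ (𝐡 0 (x - 0)) * f (x - 0) = f x
  rw [herm_zero_left, sub_zero, AddChar.map_zero_eq_one, one_mul]

theorem w1L_li (ψ : AddChar F ℂ) : LinearIndependent ℂ (w1L q ψ) := by
  classical
  refine LinearIndependent.of_comp (LinearMap.applyₗ (Pi.single 0 1)) ?_
  convert (Pi.basisFun ℂ (Fin 11 → F)).linearIndependent using 1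
  refine funext fun v => funext fun x => ?_
  change ψ (𝐡 v (x - v)) * (Pi.single 0 1 : (Fin 11 → F) → ℂ) (x - v) = _
  by_cases k : x = v
  · simp [k, herm_zero_right]
  · simp [k, sub_eq_zero]

/-- Existence of the Heisenberg operators.  (1) `ψ`: take `c₀ ≠ 0` of trace zero
(`exists_trace_zero`) and an additive character of the finite group `F` with `ψ c₀ ≠ 1`
(`AddChar.exists_apply_ne_zero`-type lemma, or a primitive character composed with a
multiplication).  (2) Let `L v : Matrix V V ℂ` (or an endomorphism of `V → ℂ`) be the left regular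
operator `δ_w ↦ ψ (𝐡 v w) δ_{v+w}`; `L v * L w = ψ (𝐡 v w) • L (v+w)`, `L 0 = 1`, the `L v` are
linearly independent (apply to `δ_0`).  `A` = their span, a subalgebra of dimension `q^22`.
(3) `A` is a simple ring: if `0 ≠ x = ∑ a_v L v` lies in a two-sided ideal, multiply by
`(L v)⁻¹` to get `a_0 ≠ 0`, and `∑_w L w * x * (L w)⁻¹ = q^22 a_0 • 1` because
`L w * L v * (L w)⁻¹ = ψ (𝐡 w v - 𝐡 v w) • L v` (`sum_pair`).
(4) `IsSimpleRing.exists_algEquiv_matrix_of_isAlgClosed` gives `A ≃ₐ Matrix (Fin n) (Fin n) ℂ`,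
`n² = q^22` by dimension.  (5) trace: `tr (e v) = tr (e w e v (e w)⁻¹) = ψ(..) tr (e v)` with
`ψ(..) ≠ 1` for a suitable `w`. -/
theorem exists_he : ∃ (ψ : AddChar F ℂ) (e : (Fin 11 → F) → MM q), He ψ e := by
  classical
  obtain ⟨c, c0, hc⟩ := exists_trace_zero (F := F) (q := q)
  obtain ⟨ψ, hψ'⟩ := (AddChar.exists_apply_ne_zero (α := F)).2 c0
  have hψ : ∃ c : F, c + c ^ q = 0 ∧ ψ c ≠ 1 := ⟨c, hc, hψ'⟩
  have q0 : (q : ℂ) ^ 22 ≠ 0 := pow_ne_zero _ (Nat.cast_ne_zero.2 (by have := two_le_q F q; omega))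
  let A : Subalgebra ℂ (Module.End ℂ ((Fin 11 → F) → ℂ)) :=
    (Submodule.span ℂ (Set.range (w1L q ψ))).toSubalgebra
      (Submodule.subset_span ⟨0, w1L_zero ψ⟩) fun x y hx hy => by
        have := Submodule.mul_mem_mul hx hy
        rw [Submodule.span_mul_span] at this
        refine Submodule.span_le.2 ?_ this
        rintro _ ⟨_, ⟨v, rfl⟩, _, ⟨w, rfl⟩, rfl⟩
        beta_reduce
        rw [w1L_mul]
        exact Submodule.smul_mem _ _ (Submodule.subset_span ⟨_, rfl⟩)
  let l : (Fin 11 → F) → A := fun v => ⟨w1L q ψ v, Submodule.subset_span ⟨v, rfl⟩⟩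
  have lm : ∀ v w, l v * l w = ψ (𝐡 v w) • l (v + w) := fun v w => Subtype.ext (w1L_mul ψ v w)
  have l0 : l 0 = 1 := Subtype.ext (w1L_zero ψ)
  have hd : Module.finrank ℂ A = q ^ 11 * q ^ 11 := by
    refine (finrank_span_eq_card (w1L_li (q := q) ψ)).trans ?_
    rw [Fintype.card_fun, Fintype.card_fin, ← Nat.card_eq_fintype_card, UF.card_eq (q := q)]
    ring
  haveI : IsSimpleRing A := IsSimpleRing.of_eq_bot_or_eq_top fun I => by
    refine or_iff_not_imp_left.2 fun hI => ?_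
    obtain ⟨x, hx, x0⟩ := SetLike.exists_of_lt (bot_lt_iff_ne_bot.2 hI)
    obtain ⟨a, ha⟩ := (Submodule.mem_span_range_iff_exists_fun ℂ).1 x.2
    have e : x = ∑ v, a v • l v := Subtype.ext (by rw [← ha]; simp [l])
    obtain ⟨u, hu⟩ : ∃ u, a u ≠ 0 := by
      by_contra k
      push Not at k
      exact x0 (by simp [e, k])
    have m : ∑ w, ψ (𝐡 w w) • (l w * (l (-u) * x) * l (-w)) ∈ I := sum_mem fun w _ => by
      rw [Algebra.smul_def]
      exact I.mul_mem_left _ _ (I.mul_mem_right _ _ (I.mul_mem_left _ _ (I.mul_mem_left _ _ hx)))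
    have e2 : ∑ w, ψ (𝐡 w w) • (l w * (l (-u) * x) * l (-w)) =
        (a u * ψ (𝐡 (-u) u) * (q : ℂ) ^ 22) • (1 : A) := by
      have e3 : ∀ w, ψ (𝐡 w w) • (l w * (l (-u) * x) * l (-w)) =
          ∑ v, (a v * ψ (𝐡 (-u) v)) • ψ (𝐡 w w) • (l w * l (-u + v) * l (-w)) := fun w => by
        rw [e, Finset.mul_sum, Finset.mul_sum, Finset.sum_mul, Finset.smul_sum]
        refine Finset.sum_congr rfl fun v _ => ?_
        rw [mul_smul_comm, lm, smul_smul (a v), mul_smul_comm, smul_mul_assoc, smul_comm]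
      simp only [e3]
      rw [Finset.sum_comm]
      simp only [← Finset.smul_sum, w1_sum hψ lm]
      rw [Finset.sum_eq_single u (fun v _ k => by
        rw [if_neg fun k' => k (neg_add_eq_zero.1 k').symm, zero_smul, smul_zero]) (by simp),
        neg_add_cancel, if_pos rfl, l0, smul_smul]
    rw [e2] at m
    have := I.mul_mem_left (algebraMap ℂ A (a u * ψ (𝐡 (-u) u) * (q : ℂ) ^ 22)⁻¹) _ m
    rw [← Algebra.smul_def, smul_smul, inv_mul_cancel₀ (mul_ne_zero (mul_ne_zero hu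
      (ψ.val_isUnit _).ne_zero) q0), one_smul] at this
    exact I.one_mem_iff.1 this
  obtain ⟨n, _, ⟨φ⟩⟩ := IsSimpleRing.exists_algEquiv_matrix_of_isAlgClosed ℂ A
  obtain rfl : n = q ^ 11 := by
    have := φ.toLinearEquiv.finrank_eq
    rw [hd, Module.finrank_matrix, Fintype.card_fin, Module.finrank_self, mul_one] at this
    exact (Nat.mul_self_inj.1 this).symm
  have em : ∀ v w, φ (l v) * φ (l w) = ψ (𝐡 v w) • φ (l (v + w)) := fun v w => by
    rw [← map_mul, lm, map_smul]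
  refine ⟨ψ, fun v => φ (l v), hψ, by rw [l0, map_one], em, fun v hv => ?_⟩
  have := congrArg Matrix.trace (w1_sum hψ em v)
  rw [if_neg hv, zero_smul, Matrix.trace_zero, Matrix.trace_sum] at this
  have k : ∀ w, (ψ (𝐡 w w) • (φ (l w) * φ (l v) * φ (l (-w)))).trace = (φ (l v)).trace := fun w => by
    rw [Matrix.trace_smul, Matrix.trace_mul_cycle, em, neg_add_cancel, l0, map_one, smul_mul_assoc, one_mul,
      Matrix.trace_smul, smul_smul, ← AddChar.map_add_eq_mul, herm_neg_left, add_neg_cancel,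
      AddChar.map_zero_eq_one, one_smul]
  simpa [k] using this

end Cfsg.Agent.U11
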