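import Cfsg.Agent.U11.TC
import Cfsg.Agent.U11.W2

/-!
# The Weil characters when `11 ∤ q + 1`
-/

set_option autoImplicit false
set_option linter.unusedSectionVars false

namespace Cfsg.Agent.U11

open Cfsg.Agent.Class.U Cfsg.Agent.Char
open scoped ComplexConjugate

section Abs

variable {H : Type*} [Group H] [Fintype H] {Z S : Subgroup H} {σ : H} {h : ℕ}

open Classical in
theorem TZ.d1_mu [Fintype S] (D : TZ Z S σ h) {π : H → ℂ} {δ : ℕ} (h1 : π 1 = (h - δ : ℤ))
    (h2 : ∀ s ∈ S, s ≠ 1 → π s = -(δ : ℂ)) (l : IrrCharacter S) :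
    classInner (fun s : S => π s) l + (if l = irrOne S then δ else 0 : ℕ) = 1 := by
  have e : (fun s : S => π s) = regChar S - (δ : ℂ) • (irrOne S : S → ℂ) := by
    ext s
    by_cases hs : s = 1
    · subst hs
      simp [regChar_one, ← D.card, h1]
    · simp [regChar_of_ne_one hs, h2 s s.2 fun e => hs (Subtype.ext e)]
  rw [e, classInner_sub_left, classInner_smul_left, classInner_regChar_left, D.l1, irr_inner, map_one]
  by_cases hl : l = irrOne S
  · simp [hl]
  · simp [hl, Ne.symm hl]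

theorem d1_num {ι : Type*} [Fintype ι] {o : ι} {c d : ι → ℕ} {h δ : ℕ} (e : ∑ i, c i * d i + δ = h)
    (h1 : d o = 1) (h2 : c o + δ ≤ 1) (h3 : 2 ≤ h) (hd : ∀ i, i ≠ o → c i ≠ 0 → h < 2 * d i) :
    ∃ i, i ≠ o ∧ c i = 1 ∧ ∀ j, j ≠ o ∧ j ≠ i → c j = 0 := by
  classical
  obtain ⟨i, hi, ci⟩ : ∃ i, i ≠ o ∧ c i ≠ 0 := by
    by_contra! k
    rw [Finset.sum_eq_single o (fun j _ hj => by rw [k j hj, zero_mul]) (by simp), h1] at e
    omega
  have k1 := hd i hi ci
  have k2 : c i * d i ≤ ∑ i, c i * d i :=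
    Finset.single_le_sum (f := fun i => c i * d i) (fun _ _ => Nat.zero_le _) (Finset.mem_univ i)
  refine ⟨i, hi, ?_, fun j hj => ?_⟩
  · by_contra k
    have := Nat.mul_le_mul_right (d i) (show 2 ≤ c i by omega)
    omega
  · by_contra k
    have k3 := hd j hj.1 k
    have k4 : c j * d j + c i * d i ≤ ∑ i, c i * d i :=
      Finset.add_le_sum (f := fun i => c i * d i) (fun _ _ => Nat.zero_le _) (Finset.mem_univ j)
        (Finset.mem_univ i) hj.2
    have := Nat.mul_le_mul_right (d i) (show 1 ≤ c i by omega)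
    have := Nat.mul_le_mul_right (d j) (show 1 ≤ c j by omega)
    omega

theorem TZ.d1_fin (D : TZ Z S σ h) {π : H → ℂ} (hπ : IsCharacter H π) {δ : ℕ}
    (h1 : π 1 = (h - δ : ℤ)) (h2 : ∀ s ∈ S, s ≠ 1 → π s = -(δ : ℂ)) (h3 : 2 ≤ h)
    (hd : ∀ χ, IsIrrCharacter H χ → χ ≠ 1 → classInner π χ ≠ 0 → ∀ d : ℕ, χ 1 = d → h < 2 * d) :
    IsIrrCharacter H π ∨ (δ = 0 ∧ IsIrrCharacter H (π - 1)) := by
  classical
  let _ : Fintype S := Fintype.ofFinite _
  obtain ⟨c, d, hc, hd', e, e1⟩ := Sing.exists_deg hπ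
  choose k hk using fun χ : IrrCharacter H =>
    (χ.2.isCharacter.restrict S).exists_nat_inner (irrOne S).2.isCharacter
  have k1 : k (irrOne H) = 1 := by
    exact_mod_cast (hk (irrOne H)).symm.trans (irrOne S).2.inner_self
  have s1 : ∑ χ, c χ * k χ + δ = 1 := by
    have := D.d1_mu h1 h2 (irrOne S)
    have e2 : (fun s : S => π s) = ∑ χ, (c χ : ℂ) • fun s : S => (χ : H → ℂ) s := by
      ext s
      simpa using congrFun e s
    rw [e2, classInner_sum_left, if_pos rfl] at this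
    simp only [classInner_smul_left, hk] at this
    exact_mod_cast this
  have s2 : c (irrOne H) * k (irrOne H) ≤ ∑ χ, c χ * k χ :=
    Finset.single_le_sum (f := fun i => c i * k i) (fun _ _ => Nat.zero_le _) (Finset.mem_univ _)
  rw [k1, mul_one] at s2
  obtain ⟨i, hi, ci, hj⟩ := d1_num (o := irrOne H) (c := c) (d := d) (h := h) (δ := δ)
    (by
      rw [h1] at e1
      have : (h - δ : ℤ) = (∑ χ, c χ * d χ : ℕ) := by exact_mod_cast e1
      omega)
    (by exact_mod_cast (hd' (irrOne H)).symm.trans (irrOne_apply 1)) (by omega) h3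
    fun i hi ci => hd i i.2 (fun e => hi (Subtype.ext e)) (by rw [hc]; exact_mod_cast ci) _ (hd' i)
  rw [Fintype.sum_eq_add (irrOne H) i hi.symm (fun j h => by rw [hj j h, Nat.cast_zero, zero_smul]), ci,
    Nat.cast_one, one_smul] at e
  obtain h0 | h0 : c (irrOne H) = 0 ∨ c (irrOne H) = 1 := by omega
  · rw [h0, Nat.cast_zero, zero_smul, zero_add] at e
    exact Or.inl (e ▸ i.2)
  · rw [h0, Nat.cast_one, one_smul] at e
    exact Or.inr ⟨by omega, (sub_eq_of_eq_add' e : π - 1 = i) ▸ i.2⟩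

/-- `constit` with `m = 1`: exactly one constituent `χ` has `a = 1`, `n = 1`; the others have
`a = 0` and are trivial (`TZ.ne_zero`); the multiplicity of `1_H` is at most that of `1_S` in
`π|_S`, which is `1 - δ`. -/
theorem TZ.one_big (D : TZ Z S σ h) (hb : 484 < h) (hS : Subgroup.normalClosure (S : Set H) = ⊤)
    {π c : H → ℂ} (hπ : IsCharacter H π) (hc : Cen Z c π) {δ : ℕ} (hδ : δ ≤ 1)
    (h1 : π 1 = (h - δ : ℤ)) (h2 : ∀ s ∈ S, s ≠ 1 → π s = -(δ : ℂ)) :
    IsIrrCharacter H π ∨ (δ = 0 ∧ IsIrrCharacter H (π - 1)) := by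
  let _ : Fintype S := Fintype.ofFinite _
  refine D.d1_fin hπ h1 h2 (by omega) fun χ hχ hne _ d hd => ?_
  have := D.deg_ge hb hS hχ hne hd
  omega

end Abs

variable {F : Type*} [Field F] [Fintype F] {q : ℕ} [UF F q]

/-- `hp q = hh q`; apply `one_big` to `res H θ` -/
theorem Hy.dsh_of_not {H T : Subgroup (GU 11 F q)} {σ : GU 11 F q} (D : Hy H T σ)
    (h7 : ¬ 11 ∣ q + 1) : Dsh H := by
  classical
  have key : ∀ θ : IrrCharacter (ZZ F q), IsIrrCharacter H (res H θ) ∨
      ((if θ = irrOne _ then 1 else 0 : ℕ) = 0 ∧ IsIrrCharacter H (res H θ - 1)) := fun θ => by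
    have h1 : res H θ 1 = (hp q - (if θ = irrOne _ then 1 else 0 : ℕ) : ℤ) := by
      rw [hp_of_not h7]
      simpa [res] using omt_one θ
    have h2 : ∀ s ∈ T.subgroupOf H, s ≠ 1 → res H θ s = -((if θ = irrOne _ then 1 else 0 : ℕ) : ℂ) :=
      fun s hs s1 => by simpa [res] using D.toSg.omt_T θ hs fun e => s1 (Subtype.ext e)
    have hδ : (if θ = irrOne _ then 1 else 0 : ℕ) ≤ 1 := by split_ifs <;> simp
    exact D.tz'.one_big (by have := hp_ge (two_le_q F q); omega) D.ncl (isCharacter_res H θ) (cen_res H θ)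
      hδ h1 h2
  exact ⟨(key _).resolve_right (by simp), fun θ _ => (key θ).imp_right And.right⟩

end Cfsg.Agent.U11
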