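import Cfsg.Agent.U11.G0

/-!
# The second torus
-/

set_option autoImplicit false
set_option linter.unusedSectionVars false

namespace Cfsg.Agent.U11

open Cfsg.Agent.Class.U Cfsg.Agent.Char
open scoped ComplexConjugate

variable {F : Type*} [Field F] [Fintype F] {q : ℕ} [UF F q] {r : ℕ}

open Matrix Polynomial in
/-- diagonalisation of a matrix with separable characteristic polynomial -/
theorem g1_diag {k K : Type*} [Field k] [Field K] [Algebra k K] [IsAlgClosed K] {n : Type*}
    [Fintype n] [DecidableEq n] (M : Matrix n n k) (hs : M.charpoly.Separable) :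
    ∃ (Φ : Matrix n n k →* Matrix n n K) (μ : n → K), Function.Injective Φ ∧
      Φ M = diagonal μ ∧ ∀ A, (Φ A).charpoly = A.charpoly.map (algebraMap k K) := by
  classical
  have hc := card_rootSet_eq_natDegree (K := K) hs (IsAlgClosed.splits _)
  rw [charpoly_natDegree_eq_dim] at hc
  let e := (Fintype.equivOfCardEq hc).symm
  have hw : ∀ i, ∃ w : n → K, w ≠ 0 ∧ M.map (algebraMap k K) *ᵥ w = (e i : K) • w := fun i => by
    have h1 : (M.map (algebraMap k K)).charpoly.eval (e i : K) = 0 := by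
      rw [charpoly_map, eval_map_algebraMap]; exact aeval_eq_zero_of_mem_rootSet (e i).2
    rw [Matrix.eval_charpoly, ← Matrix.exists_mulVec_eq_zero_iff] at h1
    obtain ⟨w, w0, h2⟩ := h1
    refine ⟨w, w0, ?_⟩
    rw [sub_mulVec, sub_eq_zero] at h2
    rw [← h2]; ext j; simp [mulVec_diagonal]
  choose w w0 hw using hw
  have li := Module.End.eigenvectors_linearIndependent' (toLin' (M.map (algebraMap k K)))
    (fun i => (e i : K)) (Subtype.val_injective.comp e.injective) w fun i =>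
      ⟨Module.End.mem_eigenspace_iff.2 (hw i), w0 i⟩
  obtain ⟨P, hP⟩ : IsUnit (of w)ᵀ := Matrix.linearIndependent_cols_iff_isUnit.1 li
  have h1 : M.map (algebraMap k K) * P = P * diagonal fun i => (e i : K) := by
    rw [hP]
    ext i j
    have := congrFun (hw j) i
    rw [mul_diagonal, mul_comm]
    exact this
  refine ⟨⟨⟨fun A : Matrix n n k => ((P⁻¹ : (Matrix n n K)ˣ) : Matrix n n K) *
    A.map (algebraMap k K) * P, by simp⟩, fun A B => by
      simp only [Matrix.map_mul, Matrix.mul_assoc, Units.mul_inv_cancel_left]⟩,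
    fun i => e i, fun A B h => ?_, ?_, fun A => ?_⟩
  · have h2 : ((P⁻¹ : (Matrix n n K)ˣ) : Matrix n n K) * A.map (algebraMap k K) * P =
      (P⁻¹ : (Matrix n n K)ˣ) * B.map (algebraMap k K) * P := h
    rw [Units.mul_left_inj, Units.mul_right_inj] at h2
    exact Matrix.map_injective (algebraMap k K).injective h2
  · change ((P⁻¹ : (Matrix n n K)ˣ) : Matrix n n K) * M.map (algebraMap k K) * P = _
    rw [Matrix.mul_assoc, h1, Units.inv_mul_cancel_left]
  · change (((P⁻¹ : (Matrix n n K)ˣ) : Matrix n n K) * A.map (algebraMap k K) * P).charpoly = _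
    rw [charpoly_mul_comm, Units.mul_inv_cancel_left, charpoly_map]

open Matrix Polynomial in
/-- the centraliser of `x` is diagonalised -/
theorem g1_tor (hr : r.Prime) (h3 : r ≠ 5) (hd : r ∣ q ^ 4 + q ^ 3 + q ^ 2 + q + 1) {x : GU 11 F q}
    (hx : orderOf x = r) : ∃ Φ : GU 11 F q →* Matrix (Fin 11) (Fin 11) (AlgebraicClosure F),
      Function.Injective Φ ∧ (∀ a, a * x = x * a → Φ a = diagonal fun i => Φ a i i) ∧
      ∀ a, a * x = x * a → orderOf a = r →
        (Function.Injective fun i => Φ a i i) ∧ ∃ i, Φ a i i = 1 := by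
  obtain ⟨Φ, μ, h1, h2, h4⟩ := g1_diag (K := AlgebraicClosure F) _ (charpoly_sep hr h3 hd hx).1
  let Ψ := Φ.comp ((Units.coeHom _).comp (GU 11 F q).subtype)
  have k : ∀ (a : GU 11 F q) (ν : Fin 11 → AlgebraicClosure F), Ψ a = diagonal ν → orderOf a = r →
      Function.Injective ν ∧ ∃ i, ν i = 1 := fun a ν e ha => by
    obtain ⟨s1, s2⟩ := charpoly_sep hr h3 hd ha
    have c : (Ψ a).charpoly = _ := h4 _
    rw [e, charpoly_diagonal] at c
    have s3 := s1.map (f := algebraMap F (AlgebraicClosure F))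
    have s4 := s2.map (f := algebraMap F (AlgebraicClosure F))
    erw [← c] at s3 s4
    rw [IsRoot.def, eval_prod, Finset.prod_eq_zero_iff] at s4
    obtain ⟨i, -, s4⟩ := s4
    exact ⟨separable_prod_X_sub_C_iff.1 s3, i, Eq.symm (by simpa [sub_eq_zero] using s4)⟩
  have d : ∀ a, a * x = x * a → Ψ a = diagonal fun i => Ψ a i i := fun a ha => by
    have e := congrArg Ψ ha
    rw [map_mul, map_mul, show Ψ x = diagonal μ from h2] at e
    ext i j
    by_cases c : i = j
    · rw [c, diagonal_apply_eq]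
    · have := congrFun (congrFun e i) j
      rw [mul_diagonal, diagonal_mul, mul_comm, ← sub_eq_zero, ← sub_mul, mul_eq_zero] at this
      rw [diagonal_apply_ne _ c]
      exact this.resolve_left fun h => c ((k x μ h2 hx).1 (sub_eq_zero.1 h)).symm
  exact ⟨Ψ, h1.comp (Units.val_injective.comp Subtype.val_injective), d,
    fun a ha ho => k a _ (d a ha) ho⟩

theorem g1_pow {G K : Type*} [Monoid G] [CommRing K] {Φ : G →* Matrix (Fin 11) (Fin 11) K} {a : G}
    (h : Φ a = Matrix.diagonal fun i => Φ a i i) (k : ℕ) (i : Fin 11) :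
    Φ (a ^ k) i i = Φ a i i ^ k := by
  rw [map_pow, h, Matrix.diagonal_pow]; simp

/-- over `K = AlgebraicClosure F` a matrix with separable characteristic polynomial has a basis of
eigenvectors `w_μ` with pairwise distinct eigenvalues, each spanning its eigenspace; a matrix
commuting with it has all `w_μ` as eigenvectors; so two such matrices commute.  (Search for a landed
lemma first: `ca find "Separable.*charpoly|charpoly.*Separable|minpoly.*commute"`.) -/
theorem cent_comm (hr : r.Prime) (h3 : r ≠ 5) (hd : r ∣ q ^ 4 + q ^ 3 + q ^ 2 + q + 1) {x : GU 11 F q}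
    (hx : orderOf x = r) (a b : GU 11 F q) (ha : a * x = x * a) (hb : b * x = x * b) :
    a * b = b * a := by
  obtain ⟨Φ, h1, h2, -⟩ := g1_tor hr h3 hd hx
  apply h1
  rw [map_mul, map_mul, h2 a ha, h2 b hb, Matrix.diagonal_mul_diagonal,
    Matrix.diagonal_mul_diagonal]
  simp only [mul_comm]

/-- `y` acts on the eigenvector `w_μ` (`μ ≠ 1`, of order `r`) by `ν` with `ν^r = 1`, so
`ν = μ^k`; it acts on the `F`-rational fixed vector of `x` by a scalar `c ∈ F`, `c^r = 1`, so
`c = 1` (`r ∤ q² - 1`).  `u = x^k y⁻¹` has `u^r = 1` and two independent fixed vectors over `K`,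
so `(X - 1)²` divides its characteristic polynomial; by `charpoly_sep`, `orderOf u ≠ r`, so
`u = 1`. -/
theorem mem_zpowers (hr : r.Prime) (h3 : r ≠ 5) (hd : r ∣ q ^ 4 + q ^ 3 + q ^ 2 + q + 1) {x y : GU 11 F q}
    (hx : orderOf x = r) (hy : orderOf y = r) (h : x * y = y * x) : y ∈ Subgroup.zpowers x := by
  obtain ⟨Φ, -, h2, h4⟩ := g1_tor hr h3 hd hx
  have := Fact.mk hr
  have : NeZero r := ⟨hr.ne_zero⟩
  have p : ∀ a, a * x = x * a → orderOf a = r → ∀ i, Φ a i i ^ r = 1 := fun a ha ho i => by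
    rw [← g1_pow (h2 a ha), ← ho, pow_orderOf_eq_one, map_one, Matrix.one_apply_eq]
  have n : ∀ a, a * x = x * a → orderOf a = r → ∀ i, Φ a i i ≠ 0 := fun a ha ho i e => by
    have := p a ha ho i
    rw [e, zero_pow hr.ne_zero] at this
    exact zero_ne_one this
  have o : orderOf (Φ x 0 0 / Φ x 1 1) = r := orderOf_eq_prime
    (by rw [div_pow, p x rfl hx, p x rfl hx, div_one]) fun e =>
      absurd ((h4 x rfl hx).1 (eq_of_div_eq_one e)) (by decide)
  obtain ⟨k, -, e⟩ := (o ▸ IsPrimitiveRoot.orderOf _ : IsPrimitiveRoot _ r).eq_pow_of_pow_eq_one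
    (ξ := Φ y 0 0 / Φ y 1 1) (by rw [div_pow, p y h.symm hy, p y h.symm hy, div_one])
  have c : Commute x y := h
  have c1 : x ^ k * y⁻¹ * x = x * (x ^ k * y⁻¹) :=
    (((Commute.refl x).pow_right k).mul_right c.inv_right).symm
  by_contra hn
  have o1 : orderOf (x ^ k * y⁻¹) = r := orderOf_eq_prime (by
    rw [(c.pow_left k).inv_right.mul_pow, ← pow_mul, mul_comm k, pow_mul, inv_pow, ← hx,
      pow_orderOf_eq_one, hx, ← hy, pow_orderOf_eq_one, one_pow, inv_one, mul_one]) fun e =>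
      hn (mul_inv_eq_one.1 e ▸ Subgroup.npow_mem_zpowers x k)
  have m : ∀ i, Φ (x ^ k * y⁻¹) i i = Φ x i i ^ k / Φ y i i := fun i => by
    rw [eq_div_iff (n y h.symm hy i), ← g1_pow (h2 x rfl)]
    conv_rhs => rw [← inv_mul_cancel_right (x ^ k) y, map_mul, h2 y h.symm, Matrix.mul_diagonal]
  refine absurd ((h4 _ c1 o1).1 (a₁ := 0) (a₂ := 1) ?_) (by decide)
  simp only [m]
  rw [div_pow, div_eq_div_iff (pow_ne_zero _ (n x rfl hx 1)) (n y h.symm hy 1)] at e
  rw [div_eq_div_iff (n y h.symm hy 0) (n y h.symm hy 1), e, mul_comm]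

/-- `y = x^k` conjugate to `x` has the same characteristic polynomial `f`, and `μ^k ≠ 1` is a root;
`y ↦ μ^k` is injective on `⟨x⟩` and `f` has at most `10` roots `≠ 1`. -/
theorem conj_le_six (hr : r.Prime) (h3 : r ≠ 5) (hd : r ∣ q ^ 4 + q ^ 3 + q ^ 2 + q + 1) {x : GU 11 F q}
    (hx : orderOf x = r) : {y | y ∈ Subgroup.zpowers x ∧ IsConj x y}.ncard ≤ 10 := by
  classical
  obtain ⟨Φ, -, h2, h4⟩ := g1_tor hr h3 hd hx
  have := Fact.mk hr
  obtain ⟨inj, j, hj⟩ := h4 x rfl hx
  obtain ⟨i, hi⟩ := exists_ne j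
  have o : orderOf (Φ x i i) = r := orderOf_eq_prime (by
    rw [← g1_pow (h2 x rfl), ← hx, pow_orderOf_eq_one, map_one, Matrix.one_apply_eq])
    fun e => hi (inj (e.trans hj.symm))
  have pr : IsPrimitiveRoot (Φ x i i) r := o ▸ IsPrimitiveRoot.orderOf _
  have ex : ∀ y ∈ Subgroup.zpowers x, ∃ k < r, x ^ k = y := fun y hy => by
    obtain ⟨k, rfl⟩ := mem_powers_iff_mem_zpowers.2 hy
    exact ⟨k % r, Nat.mod_lt _ hr.pos, by rw [← hx, pow_mod_orderOf]⟩
  have c : ((fun l => Φ x l l) '' ({j}ᶜ : Set (Fin 11))).ncard = 10 := by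
    rw [Set.ncard_image_of_injective _ inj, Set.ncard_compl]; simp
  rw [← c]
  refine Set.ncard_le_ncard_of_injOn (fun y => Φ y i i) ?_ ?_
  · rintro y ⟨hy, hc⟩
    obtain ⟨k, hk, rfl⟩ := ex y hy
    obtain ⟨g, e⟩ := isConj_iff.1 hc
    have e1 : (Φ (x ^ k)).charpoly = (Φ x).charpoly := by
      rw [← e, map_mul, Matrix.charpoly_mul_comm, ← map_mul, inv_mul_cancel_left]
    rw [h2 x rfl, h2 _ ((Commute.refl x).pow_left k), Matrix.charpoly_diagonal,
      Matrix.charpoly_diagonal] at e1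
    have e2 := congrArg (Polynomial.eval (Φ (x ^ k) i i)) e1
    rw [Polynomial.eval_prod, Polynomial.eval_prod, Finset.prod_eq_zero (Finset.mem_univ i) (by simp),
      eq_comm, Finset.prod_eq_zero_iff] at e2
    obtain ⟨l, -, e2⟩ := e2
    replace e2 : Φ x l l = Φ (x ^ k) i i := Eq.symm (by simpa [sub_eq_zero] using e2)
    refine ⟨l, ?_, e2⟩
    rintro rfl
    rw [hj, g1_pow (h2 x rfl), eq_comm, pr.pow_eq_one_iff_dvd] at e2
    rw [Nat.eq_zero_of_dvd_of_lt e2 hk, pow_zero, isConj_one_left] at hc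
    exact hr.ne_one (by rw [← hx, hc, orderOf_one])
  · rintro y ⟨hy, -⟩ z ⟨hz, -⟩ e
    obtain ⟨k, hk, rfl⟩ := ex y hy
    obtain ⟨l, hl, rfl⟩ := ex z hz
    simp only [g1_pow (h2 x rfl)] at e
    rw [pr.pow_inj hk hl e]

end Cfsg.Agent.U11
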