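import Cfsg.Agent.U11.Bas
import Cfsg.Agent.U11.NumA0

/-!
# Numerics: degrees not dividing `|SU_11(q)|`
-/

set_option autoImplicit false
set_option linter.unusedSectionVars false

namespace Cfsg.Agent.U11

open Cfsg.Agent.Class.U Cfsg.Agent.Char
open scoped ComplexConjugate

theorem numA_eq {d x y : ℤ} (h : d ∣ x) (e : y = x) : d ∣ y := e ▸ h

theorem numA_st {d X c : ℤ} (v : ℤ) (e : d ∣ c - v * X) (k : ℕ) {K Y : ℤ} (h : d ∣ K * (X ^ k * Y)) :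
    d ∣ K * c ^ k * Y := by
  induction k generalizing K with
  | zero => simpa using h
  | succ k ih =>
    exact numA_eq ((e.mul_right (K * c ^ k * Y)).add ((ih (K := K * X) (numA_eq h (by ring))).mul_left v)) (by ring)

theorem numA_s2 {d X c : ℤ} (u V W r : ℤ) (e : d ∣ r + W * X) (e' : u * r = c + V * X) (k : ℕ) {K Y : ℤ}
    (h : d ∣ K * (X ^ k * Y)) : d ∣ K * c ^ k * Y :=
  numA_st (-(V + u * W)) (numA_eq (e.mul_left u) (by linear_combination -e')) k h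

theorem numA_core {p k : ℕ} (hp' : p.Prime) {q d a b w v : ℤ} (hq : q = (p : ℤ) ^ k) (h0 : 0 < b - a)
    (h1 : b - a < q) (hd : d ∣ a * (q * (q - 1) * (q ^ 8 + q ^ 6 + q ^ 4 + q ^ 2 + 1) + 1) - b)
    (hw : d ∣ w - v * (q + 1))
    (h : d ∣ q ^ 55 * (q ^ 2 - 1) * (q ^ 3 + 1) * (q ^ 4 - 1) * (q ^ 5 + 1) * (q ^ 6 - 1) * (q ^ 7 + 1) *
      (q ^ 8 - 1) * (q ^ 9 + 1) * (q ^ 10 - 1) * (q ^ 11 + 1)) : d ∣ nC a b w := by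
  obtain ⟨d₁, d₂, e1, e2, e⟩ := exists_dvd_and_dvd_of_dvd_mul (b := q ^ 55)
    (c := (q - 1) ^ 5 * ((q + 1) ^ 10 * ((q ^ 4 + q ^ 3 + q ^ 2 + q + 1) ^ 1 * ((q ^ 4 - q ^ 3 + q ^ 2 - q + 1) ^ 2 * ((q ^ 2 + q + 1) ^ 1 * ((q ^ 2 + 1) ^ 2 * ((q ^ 2 - q + 1) ^ 3 * ((q ^ 4 + 1) ^ 1 * ((q ^ 6 - q ^ 5 + q ^ 4 - q ^ 3 + q ^ 2 - q + 1) ^ 1 * ((q ^ 6 - q ^ 3 + 1) ^ 1 * ((q * (q - 1) * (q ^ 8 + q ^ 6 + q ^ 4 + q ^ 2 + 1) + 1) ^ 1 * 1))))))))))) (a := d) (numA_eq h (by ring))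
  have k0 : ∀ x, x ∣ q → x ∣ d → x ∣ b - a := fun x x1 x2 =>
    numA_eq ((x1.mul_right (a * (q - 1) * (q ^ 8 + q ^ 6 + q ^ 4 + q ^ 2 + 1))).sub (x2.trans hd)) (by ring)
  have k1 : d₁ ∣ b - a := by
    rw [hq, ← pow_mul] at e1
    obtain ⟨i, -, hi⟩ := (dvd_prime_pow (Nat.prime_iff_prime_int.1 hp') _).1 e1
    rcases le_total i k with c | c
    · exact k0 _ (hi.dvd.trans (hq ▸ pow_dvd_pow _ c)) ⟨d₂, e⟩
    · exact absurd (Int.le_of_dvd h0 (k0 _ dvd_rfl ((hq ▸ (pow_dvd_pow _ c).trans hi.symm.dvd).trans ⟨d₂, e⟩))) h1.not_ge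
  have t := e ▸ mul_dvd_mul k1 e2
  replace t := numA_st (c := b - a) (a * (q ^ 9 + q ^ 7 + q ^ 5 + q ^ 3 + q)) (numA_eq hd.neg_right (by ring)) _ t
  replace t := numA_st v hw _ t
  replace t := numA_st (c := b - a) (a * (q ^ 6 - 2 * q ^ 5 + 2 * q ^ 4 - 2 * q ^ 3 + 2 * q ^ 2 - q)) (numA_eq hd.neg_right (by ring)) _ t
  replace t := numA_st (c := b - a) (a * (q ^ 6 - q)) (numA_eq hd.neg_right (by ring)) _ t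
  replace t := numA_s2 (c := a ^ 2 + a * b + b ^ 2)
    (a * q - b)
    (-a ^ 2)
    (a * (q ^ 8 - 2 * q ^ 7 + 2 * q ^ 6 - q ^ 5 + q ^ 2 - 2 * q + 2)) (a * (-q - 1) - b) (numA_eq hd (by ring)) (by ring) _ t
  replace t := numA_s2 (c := a ^ 2 + b ^ 2)
    (a * q - b)
    (-a ^ 2)
    (a * (q ^ 8 - q ^ 7 + q ^ 4 - q ^ 3 + 1)) (a * (-q) - b) (numA_eq hd (by ring)) (by ring) _ t
  replace t := numA_s2 (c := a ^ 2 - a * b + b ^ 2)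
    (a * q - b)
    (-a ^ 2)
    (a * (q ^ 8 - q ^ 5 + q ^ 2)) (a * (-q + 1) - b) (numA_eq hd (by ring)) (by ring) _ t
  replace t := numA_s2 (c := a ^ 4 - 4 * a ^ 3 * b + 8 * a ^ 2 * b ^ 2 - 4 * a * b ^ 3 + b ^ 4)
    (-a ^ 3 * q ^ 3 + 2 * a ^ 2 * b * q ^ 3 - a ^ 3 * q ^ 2 + a ^ 2 * b * q ^ 2 - a * b ^ 2 * q ^ 2 - 2 * a ^ 2 * b * q + a * b ^ 2 * q + a ^ 3 - 4 * a ^ 2 * b + 3 * a * b ^ 2 - b ^ 3)
    (-a ^ 4 * q + 2 * a ^ 3 * b * q - a ^ 3 * b - a ^ 2 * b ^ 2)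
    (a * (q ^ 6 - q ^ 5 + q ^ 4 - q ^ 3)) (a * (q ^ 2 - q + 1) - b) (numA_eq hd (by ring)) (by ring) _ t
  replace t := numA_s2 (c := a ^ 6 - 5 * a ^ 5 * b + 11 * a ^ 4 * b ^ 2 - 13 * a ^ 3 * b ^ 3 + 9 * a ^ 2 * b ^ 4 - 3 * a * b ^ 5 + b ^ 6)
    (-a ^ 3 * b ^ 2 * q ^ 5 + a ^ 2 * b ^ 3 * q ^ 5 + a ^ 5 * q ^ 4 - 3 * a ^ 4 * b * q ^ 4 + 4 * a ^ 3 * b ^ 2 * q ^ 4 - 2 * a ^ 2 * b ^ 3 * q ^ 4 + a * b ^ 4 * q ^ 3 + a ^ 2 * b ^ 3 * q ^ 2 - a * b ^ 4 * q ^ 2 - a ^ 4 * b * q + 2 * a ^ 3 * b ^ 2 * q - 2 * a ^ 2 * b ^ 3 * q + a * b ^ 4 * q + a ^ 5 - 4 * a ^ 4 * b + 7 * a ^ 3 * b ^ 2 - 6 * a ^ 2 * b ^ 3 + 2 * a * b ^ 4 - b ^ 5)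
    (a ^ 4 * b ^ 2 * q ^ 2 - a ^ 3 * b ^ 3 * q ^ 2 - a ^ 6 * q + 3 * a ^ 5 * b * q - 4 * a ^ 4 * b ^ 2 * q + 2 * a ^ 3 * b ^ 3 * q - a ^ 2 * b ^ 4)
    (a * (q ^ 4)) (a * (-q ^ 3 + q ^ 2 - q + 1) - b) (numA_eq hd (by ring)) (by ring) _ t
  replace t := numA_s2 (c := a ^ 6 - 3 * a ^ 5 * b + 12 * a ^ 4 * b ^ 2 - 19 * a ^ 3 * b ^ 3 + 15 * a ^ 2 * b ^ 4 - 6 * a * b ^ 5 + b ^ 6)
    (a ^ 5 * q ^ 5 + a ^ 5 * q ^ 4 - a ^ 4 * b * q ^ 4 + a ^ 5 * q ^ 3 - 2 * a ^ 4 * b * q ^ 3 + a ^ 3 * b ^ 2 * q ^ 3 - 3 * a ^ 4 * b * q ^ 2 + 3 * a ^ 3 * b ^ 2 * q ^ 2 - a ^ 2 * b ^ 3 * q ^ 2 - 3 * a ^ 4 * b * q + 6 * a ^ 3 * b ^ 2 * q - 4 * a ^ 2 * b ^ 3 * q + a * b ^ 4 * q - 3 * a ^ 4 * b + 9 * a ^ 3 * b ^ 2 - 10 * a ^ 2 * b ^ 3 + 5 * a * b ^ 4 - b ^ 5)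
    (-a ^ 6)
    (a * (q ^ 4 - q ^ 3 + q ^ 2)) (a * (-q + 1) - b) (numA_eq hd (by ring)) (by ring) _ t
  replace t := numA_st (c := b) a (numA_eq hd.neg_right (by ring)) _ t
  rw [nC]
  exact numA_eq t (by ring)

set_option synthInstance.maxSize 1000 in
theorem numA_small : ∀ j < 3, ∀ a < 12, ∀ β < 4, 1 ≤ a → 1 ≤ β →
    a * hp (11 * j + 10) - β ∣ so (11 * j + 10) → a = 11 ∧ β = 1 := by
  decide +kernel

theorem hp_nG (j : ℕ) : hp (11 * j + 10) = (11 * j + 11) * nG j + 1 := by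
  have h := hp_of_dvd (q := 11 * j + 10) (by omega)
  refine Nat.eq_of_mul_eq_mul_left (by norm_num : 0 < 11) (h.trans ?_)
  rw [hh, nG, show 11 * j + 10 - 1 = 11 * j + 9 by omega]
  ring

/-- Port of `U7/NumA` (read it).  `Φ = hh q = Φ₂₂(q) = 11 hp q`, `m = a hp - β ∣ so q`,
`so q = q^55 Φ₁⁵ Φ₂¹⁰ Φ₃ Φ₄² Φ₅ Φ₆³ Φ₈ Φ₁₀² Φ₁₄ Φ₁₈ Φ₂₂`.  For a common divisor `d` of `m` (so of
`n = 11 m = a Φ - 11 β`) and a factor: `c = 11 β - a`, `|c| ≤ 32`, `c ≠ 0`; the `q`-part contributes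
one `c` when `q > 32` (as in `numA_core`); `Φ ≡ 1` mod `Φ₁, Φ₅, Φ₁₀` (bound `c` each);
`Φ ≡ q²` mod `Φ₃`, `-q` mod `Φ₄`, `1 - q` mod `Φ₆`, `q² - q + 1` mod `Φ₈`, `(1-q)(1+q²)` mod `Φ₁₄`,
`1 - q` mod `Φ₁₈` (bounds: the norms `N_d = Res(a R_d - 11 β, Φ_d)`, Bezout cofactors by computer);
`11 β` for `Φ₂₂`; for `t = q + 1 = 11 t'`: `m = (a - β) - 5 a t + 15 a t² - … + a t⁹ t'`, so the bound is
`a - β` (use `m`, NOT `11 m`).  So `m ∣ C(a,β) = c⁹ (a-β)¹⁰ N₃ N₄² N₆³ N₈ N₁₄ N₁₈ · 11β` for `q > 32`;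
`C < 1.6 · 10^63`, `m ≥ a q^10 / 11 (1 - 1/q)`, so `q < 2.1 · 10^6`; per pair the bounds on `q` are much
smaller (sum over the pairs of the number of `q ≡ 10 (mod 11)` to test: about `10^6`; only the
pairs `(1,3),(2,3),(4,3),(5,3),(7,3),(8,3),(10,3)` exceed `4 · 10^5`).  Check `C % m ≠ 0` by an
efficient Boolean function (`Nat.rec`, nested blocks, `(q^11+1)/(q+1)`, `decide +kernel`, several
theorems / files of < 60 s each); you may skip even `q` that are not powers of two etc.  If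
`a = β` use `g = (Φ - 11)/(11 t) ∣ m`, `g = -5 + 15 t - 30 t² + … + t⁸ t'`, `gcd(g, t) ∣ 5`, other bounds
as for `(1,1)`: `g ∣ C' = 10⁹ 5¹⁰ N… · 11 ≈ 4.2 · 10^45`, `q < 153100`.  `q ∈ {10, 21, 32}` directly.
(Statement checked in python for all `q ≡ 10 (mod 11)` below the bounds.) -/
theorem numA {p k q : ℕ} (hp' : p.Prime) (hq : q = p ^ k) (h7 : 11 ∣ q + 1) {a β : ℕ} (ha : 1 ≤ a)
    (ha' : a ≤ 11) (hβ : 1 ≤ β) (hβ' : β ≤ 3) (h : a * hp q - β ∣ so q) : a = 11 ∧ β = 1 := by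
  obtain ⟨j, hj⟩ : ∃ j, q = 11 * j + 10 := ⟨q / 11, by omega⟩
  by_cases c : j < 3
  · exact numA_small j c a (by omega) β (by omega) ha hβ (hj ▸ h)
  by_contra n
  have h1 : hp q = (11 * j + 11) * nG j + 1 := hj ▸ hp_nG j
  have h2 : 160 ≤ nG j := (by decide : 160 ≤ nG 0).trans (nG_mono (Nat.zero_le j))
  have h3 : β ≤ a * ((11 * j + 11) * nG j + 1) := by
    have := Nat.mul_le_mul ha (Nat.add_le_add_right (Nat.mul_le_mul (by omega : 1 ≤ 11 * j + 11) h2) 1)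
    omega
  have p : ∀ n, 1 ≤ q ^ n := fun n => Nat.one_le_pow _ _ (by omega)
  have h4 := nM_eq a β j
  have h5 : (nG j : ℤ) = (11 * j + 11) ^ 8 * j + (11 * j + 11) ^ 6 * (55 * j + 40) +
      (11 * j + 11) ^ 4 * (330 * j + 288) + (11 * j + 11) ^ 2 * (462 * j + 432) + (165 * j + 160) := by
    rw [nG]
    push_cast
    rfl
  rw [h1, ← h4, so] at h
  zify [h3, p] at h h4 hq hj
  have h6 : (q : ℤ) * (q - 1) * (q ^ 8 + q ^ 6 + q ^ 4 + q ^ 2 + 1) + 1 = 11 * ((q + 1) * nG j + 1) := by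
    rw [h5, hj]
    ring
  by_cases e : a = β
  · subst e
    refine nG_not j (numA_core (v := (q + 1) ^ 7 * j + (q + 1) ^ 5 * (55 * j + 40) + (q + 1) ^ 3 * (330 * j + 288) +
      (q + 1) * (462 * j + 432) + 15) hp' hq (by norm_num) (by omega) ⟨11 * (q + 1), by rw [h6]; ring⟩
      ⟨-1, by rw [h5, hj]; ring⟩ (Dvd.dvd.trans ⟨a * (11 * j + 11), by rw [h4]; ring⟩ h))
  · exact nM_not ha ha' hβ hβ' e n j (numA_core (v := -(a * nG j)) hp' hq (by omega) (by omega)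
      ⟨11, by rw [h6, h4, hj]; ring⟩ ⟨1, by rw [h4, hj]; ring⟩ h)

end Cfsg.Agent.U11
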