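import Cfsg.Agent.U11.Bas

/-!
# Numerics: a large prime power dividing `Φ₅(q)`
-/

set_option autoImplicit false
set_option linter.unusedSectionVars false

namespace Cfsg.Agent.U11

open Cfsg.Agent.Class.U Cfsg.Agent.Char
open scoped ComplexConjugate

theorem numB_small {q m : ℕ} (h7 : 11 ∣ q + 1) (h0 : 0 < m) (h1 : m < 122)
    (h : m ∣ q ^ 4 + q ^ 3 + q ^ 2 + q + 1) : m ∣ 2779874005 := by
  have k : ∀ m < 122, ∀ y < m, (y ^ 4 + y ^ 3 + y ^ 2 + y + 1) % m = 0 → 11 ∣ m ∨ m ∣ 2779874005 := by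
    decide +kernel
  refine (k m h1 _ (Nat.mod_lt q h0) ?_).resolve_left fun e => ?_
  · rw [← Nat.mod_eq_zero_of_dvd h]
    exact (((((Nat.mod_modEq q m).pow 4).add ((Nat.mod_modEq q m).pow 3)).add
      ((Nat.mod_modEq q m).pow 2)).add (Nat.mod_modEq q m)).add_right 1
  · have := (Nat.dvd_add_right (Dvd.dvd.mul_left h7 (q ^ 3 + q))).1 (show 11 ∣ (q ^ 3 + q) * (q + 1) + 1 by
      rw [show (q ^ 3 + q) * (q + 1) + 1 = q ^ 4 + q ^ 3 + q ^ 2 + q + 1 by ring]; exact e.trans h)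
    omega

theorem numB_cop {q r : ℕ} (hq : 1 ≤ q) (hr : r.Prime) (h3 : r ≠ 5) (h : r ∣ q ^ 4 + q ^ 3 + q ^ 2 + q + 1) :
    ∃ W, so q = W * (q ^ 4 + q ^ 3 + q ^ 2 + q + 1) ∧ ¬ r ∣ W := by
  have p : ∀ n, 1 ≤ q ^ n := fun n => Nat.one_le_pow n q hq
  refine ⟨q ^ 55 * (q ^ 2 - 1) * (q ^ 3 + 1) * (q ^ 4 - 1) * (q ^ 5 + 1) * (q ^ 6 - 1) * (q ^ 7 + 1) *
    (q ^ 8 - 1) * (q ^ 9 + 1) * ((q ^ 1 - 1) * (q ^ 5 + 1)) * (q ^ 11 + 1), ?_, fun hW => ?_⟩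
  · rw [so]
    zify [p 1, p 2, p 4, p 6, p 8, p 10]
    ring
  have := Fact.mk hr
  have := Fact.mk Nat.prime_five
  rw [← ZMod.natCast_eq_zero_iff] at hW
  have h' := (ZMod.natCast_eq_zero_iff _ _).2 h
  rw [Nat.cast_mul, Nat.cast_mul, Nat.cast_mul, Nat.cast_mul, Nat.cast_mul, Nat.cast_mul, Nat.cast_mul,
    Nat.cast_mul, Nat.cast_mul, Nat.cast_mul, Nat.cast_mul, Nat.cast_sub (p 1), Nat.cast_sub (p 2),
    Nat.cast_sub (p 4), Nat.cast_sub (p 6), Nat.cast_sub (p 8)] at hW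
  simp only [Nat.cast_add, Nat.cast_pow, Nat.cast_one] at hW h'
  have r2 : ¬ r ∣ 2 := fun e => by
    obtain rfl := (Nat.prime_dvd_prime_iff_eq hr Nat.prime_two).1 e
    have := (Nat.dvd_add_right ((Nat.even_mul_succ_self q).two_dvd.mul_right (q ^ 2 + 1))).1
      (show 2 ∣ q * (q + 1) * (q ^ 2 + 1) + 1 by convert h using 1; ring)
    omega
  generalize (q : ZMod r) = x at hW h'
  have e5 : x ^ 5 = 1 := by linear_combination (x - 1) * h'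
  have o : orderOf x = 5 := orderOf_eq_prime e5 fun e => h3 ((Nat.prime_dvd_prime_iff_eq hr Nat.prime_five).1
    ((ZMod.natCast_eq_zero_iff 5 r).1 (by rw [e] at h'; push_cast; linear_combination h')))
  have a : ∀ i, ¬ 5 ∣ i → x ^ i - 1 ≠ 0 := fun i hi e => hi (o ▸ orderOf_dvd_of_pow_eq_one (sub_eq_zero.1 e))
  have b : ∀ i, x ^ i + 1 ≠ 0 := fun i e => r2 ((ZMod.natCast_eq_zero_iff 2 r).1 (by
    have : (x ^ i) ^ 5 = 1 := by rw [← pow_mul, mul_comm, pow_mul, e5, one_pow]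
    rw [eq_neg_of_add_eq_zero_left e] at this
    push_cast
    linear_combination -this))
  have c : x ^ 55 ≠ 0 := pow_ne_zero _ fun e => by
    rw [e] at e5
    simp at e5
  simp only [mul_eq_zero, a 1 (by decide), a 2 (by decide), a 4 (by decide), a 6 (by decide), a 8 (by decide),
    b, c, or_self] at hW

/-- Port of `U7/NumB`.  `Φ = q⁴ + q³ + q² + q + 1`; `25 ∤ Φ`; a prime `r ≠ 5` dividing `Φ` has
`r ≡ 1 (mod 10)` (order of `q` mod `r` is `5`), `r ≠ 11` as `q ≡ -1`.  If all prime powers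
`r^b ∥ Φ`, `r ≠ 5`, were `≤ 121` then `r^b ∈ {31, 41, 61, 71, 101}` and `Φ ∣ 5·31·41·61·71·101`, so
`q < 230`, excluded by `decide` for `q = 11 j + 10`.  `r` divides no other factor of
`so q = q^55 Φ₁⁵ Φ₂¹⁰ Φ₃ Φ₄² Φ₅ Φ₆³ Φ₈ Φ₁₀² Φ₁₄ Φ₁₈ Φ₂₂`: in `ZMod r`, `x = q` has order `5`, so
`x^i - 1 ≠ 0` for `i = 1, 2, 4, 6, 8`, `x^i + 1 ≠ 0` for all `i` (`-1` is not a power of `x`: odd
order, `r ≠ 2`), and `q^10 - 1 = (q - 1) Φ (q^5 + 1)`. -/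
theorem numB {q : ℕ} (h7 : 11 ∣ q + 1) : ∃ r b : ℕ, r.Prime ∧ r ≠ 5 ∧
    r ∣ q ^ 4 + q ^ 3 + q ^ 2 + q + 1 ∧ r ^ b ∣ q ^ 4 + q ^ 3 + q ^ 2 + q + 1 ∧ 122 ≤ r ^ b ∧
    ¬ r ^ (b + 1) ∣ so q := by
  have h0 : q ^ 4 + q ^ 3 + q ^ 2 + q + 1 ≠ 0 := Nat.succ_ne_zero _
  obtain ⟨r, hr, h3, hd, hb⟩ : ∃ r : ℕ, r.Prime ∧ r ≠ 5 ∧ r ∣ q ^ 4 + q ^ 3 + q ^ 2 + q + 1 ∧
      122 ≤ r ^ (q ^ 4 + q ^ 3 + q ^ 2 + q + 1).factorization r := by
    by_contra! k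
    have hN : q ^ 4 + q ^ 3 + q ^ 2 + q + 1 ∣ 2779874005 :=
      (Nat.factorization_prime_le_iff_dvd h0 (by decide)).1 fun r hr => by
      rw [← hr.pow_dvd_iff_le_factorization (by decide)]
      by_cases hd : r ∣ q ^ 4 + q ^ 3 + q ^ 2 + q + 1
      · by_cases h3 : r = 5
        · subst h3
          refine (pow_dvd_pow 5 (n := 1) (by_contra fun c => ?_)).trans (by decide)
          exact absurd (numB_small h7 (by decide) (by decide)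
            ((hr.pow_dvd_iff_le_factorization (k := 2) h0).2 (by omega))) (by decide)
        · exact numB_small h7 (pow_pos hr.pos _) (k r hr h3 hd) (Nat.ordProj_dvd _ _)
      · rw [Nat.factorization_eq_zero_of_not_dvd hd]
        exact one_dvd _
    have h1 : q < 230 := lt_of_not_ge fun c => by
      have := Nat.pow_le_pow_left c 4
      have := Nat.le_of_dvd (by decide) hN
      omega
    exact (show ∀ q < 230, 11 ∣ q + 1 → ¬ q ^ 4 + q ^ 3 + q ^ 2 + q + 1 ∣ 2779874005 by decide +kernel) q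
      h1 h7 hN
  obtain ⟨W, e, hW⟩ := numB_cop (by omega) hr h3 hd
  exact ⟨r, _, hr, h3, hd, Nat.ordProj_dvd _ _, hb, fun c => Nat.pow_succ_factorization_not_dvd h0 hr
    ((Nat.Coprime.pow_left _ (hr.coprime_iff_not_dvd.2 hW)).dvd_of_dvd_mul_left (e ▸ c))⟩

end Cfsg.Agent.U11
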