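import Cfsg.Agent.U11.TC
import Cfsg.Agent.U11.W2
import Cfsg.Agent.U11.NumA
import Cfsg.Agent.U11.NumB
import Cfsg.Agent.U11.D2A
import Cfsg.Agent.U11.G1
import Cfsg.Agent.Char.Ito

/-!
# The Weil characters when `11 ∣ q + 1`
-/

set_option autoImplicit false
set_option linter.unusedSectionVars false

namespace Cfsg.Agent.U11

open Cfsg.Agent.Class.U Cfsg.Agent.Char
open scoped ComplexConjugate

variable {F : Type*} [Field F] [Fintype F] {q : ℕ} [UF F q]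

theorem d7_deg {H : Type*} [Group H] [Fintype H] {S : Subgroup H} {h a : ℕ} {b : ℤ} {χ : H → ℂ}
    (hχ : IsIrrCharacter H χ) (k : NE S h χ a b) :
    -3 ≤ b ∧ b ≤ 3 ∧ ∃ d : ℕ, 0 < d ∧ χ 1 = d ∧ (d : ℤ) = a * h + b ∧ d ∣ Nat.card H := by
  obtain ⟨d, h0, hd⟩ := hχ.exists_nat_one
  have := k.1
  refine ⟨by nlinarith, by nlinarith, d, h0, hd, ?_, hχ.deg_dvd_card hd⟩
  have e := hd.symm.trans k.2.1
  exact_mod_cast e

theorem d7_neg {H S : Subgroup (GU 11 F q)} (hH : H ≤ SS F q) (h7 : 11 ∣ q + 1) {a : ℕ} {b : ℤ} {χ : H → ℂ}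
    (hχ : IsIrrCharacter H χ) (k : NE (S.subgroupOf H) (hp q) χ a b) (ha : a ≤ 11) (hb : b < 0) :
    a = 11 ∧ b = -1 := by
  obtain ⟨h1, -, d, h0, -, e, hd⟩ := d7_deg hχ k
  obtain ⟨p, j, hp', -, hq, -⟩ := exists_prime_pow F q
  have h2 := hd.trans (card_SS (F := F) (q := q) ▸ Subgroup.card_dvd_of_le hH)
  obtain ⟨β, rfl⟩ : ∃ β : ℕ, b = -β := ⟨b.natAbs, by omega⟩
  have a1 : 1 ≤ a := by
    rcases a with _ | a
    · simp at e; omega
    · omega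
  have e2 : d = a * hp q - β := by
    have : ((a * hp q : ℕ) : ℤ) = a * hp q := by push_cast; rfl
    omega
  obtain ⟨c1, c2⟩ := numA hp' hq h7 a1 ha (β := β) (by omega) (by omega) (e2 ▸ h2)
  exact ⟨c1, by omega⟩

theorem d7_arith {N a : ℕ} {h β : ℤ} (hN : 122 ≤ N) (h1 : (N : ℤ) ∣ 11 * h - 1)
    (h2 : (N : ℤ) ∣ a * h + 0 - β) (ha : a ≤ 11) (hβ : |β| ≤ 10) : a = 0 ∨ a = 11 := by
  have h3 : (N : ℤ) ∣ a - 11 * β := by
    rw [show (a : ℤ) - 11 * β = 11 * (a * h + 0 - β) - a * (11 * h - 1) by ring]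
    exact dvd_sub (h2.mul_left 11) (h1.mul_left a)
  obtain ⟨c1, c2⟩ := abs_le.1 hβ
  have := Int.eq_zero_of_abs_lt_dvd h3 (abs_lt.2 ⟨by omega, by omega⟩)
  omega

theorem d7_mod {H : Subgroup (GU 11 F q)} {r : ℕ} [hr : Fact r.Prime] (h3 : r ≠ 5) (hd : r ∣ q ^ 4 + q ^ 3 + q ^ 2 + q + 1)
    (R : Sylow r H) (h50 : 122 ≤ Nat.card R) {χ : H → ℂ} (hχ : IsIrrCharacter H χ) {d : ℕ} (e : χ 1 = d) :
    ∃ β : ℤ, |β| ≤ 10 ∧ (Nat.card R : ℤ) ∣ d - β := by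
  refine deg_mod R h50 (fun x hx a b ha hb => ?_) (fun x y hx hy h => ?_) (fun x hx => ?_) hχ e
  · exact Subtype.ext (cent_comm hr.1 h3 hd ((Subgroup.orderOf_coe x).trans hx) _ _
      (congrArg Subtype.val ha) (congrArg Subtype.val hb))
  · obtain ⟨k, hk⟩ := mem_zpowers hr.1 h3 hd ((Subgroup.orderOf_coe x).trans hx)
      ((Subgroup.orderOf_coe y).trans hy) (congrArg Subtype.val h)
    exact ⟨k, Subtype.ext hk⟩
  · refine le_trans ?_ (conj_le_six hr.1 h3 hd ((Subgroup.orderOf_coe x).trans hx))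
    refine Set.ncard_le_ncard_of_injOn Subtype.val ?_ Subtype.val_injective.injOn (Set.toFinite _)
    rintro y ⟨⟨k, rfl⟩, hy⟩
    exact ⟨⟨k, rfl⟩, H.subtype.map_isConj hy⟩

/-- port of `U7.Hy.dsh_of_dvd`: a constituent with `b < 0` has `(a, b) = (11, -1)` (`numA`); if
all `b = 0` then `deg_mod` gives `a ∈ {0, 11}` -/
theorem Hy.dsh_of_dvd {H T : Subgroup (GU 11 F q)} {σ : GU 11 F q} (D : Hy H T σ)
    (h7 : 11 ∣ q + 1) : Dsh H := by
  classical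
  have q2 := two_le_q F q
  have hb := hp_big (q := q) (by omega)
  have e7 := hp_of_dvd h7
  have e7' : (hh q : ℂ) = 11 * (hp q : ℂ) := by rw [← e7]; push_cast; rfl
  have le7 : ∀ {n a : IrrCharacter H → ℕ}, ∑ χ, n χ * a χ = 11 → ∀ χ, n χ * a χ ≤ 11 := fun h χ =>
    h ▸ Finset.single_le_sum (f := fun χ => _ * _) (fun _ _ => Nat.zero_le _) (Finset.mem_univ χ)
  have le7' : ∀ {n a : ℕ}, n ≠ 0 → n * a ≤ 11 → a ≤ 11 := fun h h' =>
    (Nat.le_mul_of_pos_left _ (Nat.pos_of_ne_zero h)).trans h'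
  have z : IsIrrCharacter H (res H (irrOne _)) ∧ ∃ d : ℕ, (d : ℤ) = 11 * hp q - 1 ∧ d ∣ Nat.card H := by
    have h1 : res H (irrOne (ZZ F q)) 1 = (((11 : ℕ) * hp q - (1 : ℕ) : ℤ) : ℂ) := by
      rw [res, Subgroup.coe_one, omt_one, if_pos rfl, e7']; push_cast; rfl
    obtain ⟨n, a, b, e, k, s1, s2⟩ := D.tz'.constit (by omega) D.ncl (isCharacter_res H _) (cen_res H _)
      le_rfl h1 fun s hs s1 => by
        rw [res, D.toSg.omt_T (s := s) _ hs fun h => s1 (Subtype.ext h), if_pos rfl, Nat.cast_one]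
    obtain ⟨χ, h2, h3⟩ : ∃ χ, n χ ≠ 0 ∧ b χ < 0 := by
      by_contra hc
      push Not at hc
      have : 0 ≤ ∑ χ, (n χ : ℤ) * b χ := Finset.sum_nonneg fun χ _ => by
        by_cases h : n χ = 0
        · simp [h]
        · exact mul_nonneg (by positivity) (hc χ h)
      omega
    obtain ⟨a7, b1⟩ := d7_neg D.HS h7 χ.2 (k χ h2) (le7' h2 (le7 s1 χ)) h3
    obtain ⟨-, -, d, -, -, e2, hd⟩ := d7_deg χ.2 (k χ h2)
    refine ⟨?_, d, by rw [e2, a7, b1]; push_cast; ring, hd⟩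
    rw [(isCharacter_res H _).eq_of_inner_ne_zero_of_one_eq χ.2
      (by rw [e, classInner_sum_smul_irr]; exact_mod_cast h2)
      (by rw [h1, (k χ h2).2.1, a7, b1]; push_cast; ring)]
    exact χ.2
  refine ⟨z.1, fun θ hθ => ?_⟩
  obtain ⟨d₀, e0, hd0⟩ := z.2
  obtain ⟨r, j, hr, r3, hd, hN, h61, hn⟩ := numB h7
  have := Fact.mk hr
  have n1 : q ^ 4 + q ^ 3 + q ^ 2 + q + 1 ∣ d₀ := by
    have : d₀ = q * (q - 1) * (q ^ 8 + q ^ 6 + q ^ 4 + q ^ 2 + 1) := by rw [hh] at e7; omega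
    rw [this]
    obtain ⟨u, rfl⟩ : ∃ u, q = u + 1 := ⟨q - 1, by omega⟩
    exact Dvd.dvd.mul_left ⟨u ^ 4 + 3 * u ^ 3 + 4 * u ^ 2 + 2 * u + 1, by ring⟩ _
  obtain ⟨R⟩ : Nonempty (Sylow r H) := inferInstance
  have cR : Nat.card R = r ^ j := by
    have c0 : Nat.card H ≠ 0 := Nat.card_pos.ne'
    have c1 := (hr.pow_dvd_iff_le_factorization c0).1 ((hN.trans n1).trans hd0)
    have c2 := mt (fun h => ((hr.pow_dvd_iff_le_factorization (k := j + 1) c0).2 h).trans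
      (card_SS (F := F) (q := q) ▸ Subgroup.card_dvd_of_le D.HS)) hn
    rw [R.card_eq_multiplicity]
    congr 1
    omega
  have h1 : res H θ 1 = (((11 : ℕ) * hp q - (0 : ℕ) : ℤ) : ℂ) := by
    rw [res, Subgroup.coe_one, omt_one, if_neg hθ, e7']; push_cast; rfl
  obtain ⟨n, a, b, e, k, s1, s2⟩ := D.tz'.constit (by omega) D.ncl (isCharacter_res H _) (cen_res H _)
    le_rfl h1 fun s hs s1 => by
      rw [res, D.toSg.omt_T (s := s) _ hs fun h => s1 (Subtype.ext h), if_neg hθ, Nat.cast_zero]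
  have ha : ∀ χ, n χ ≠ 0 → a χ = 0 ∨ a χ = 11 := fun χ h2 => by
    by_cases hx : ∃ ψ, n ψ ≠ 0 ∧ b ψ < 0
    · obtain ⟨ψ, c1, c2⟩ := hx
      have a0 := (d7_neg D.HS h7 ψ.2 (k ψ c1) (le7' c1 (le7 s1 ψ)) c2).1
      by_cases e : χ = ψ
      · exact Or.inr (e ▸ a0)
      have c3 : n χ * a χ + n ψ * a ψ ≤ ∑ χ, n χ * a χ :=
        Finset.add_le_sum (f := fun χ => n χ * a χ) (fun _ _ => Nat.zero_le _) (Finset.mem_univ χ)
          (Finset.mem_univ ψ) e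
      rw [s1, a0] at c3
      exact Or.inl ((mul_eq_zero.1 (by omega : n χ * a χ = 0)).resolve_left h2)
    push Not at hx
    have b0 : b χ = 0 := by
      have := (Finset.sum_eq_zero_iff_of_nonneg fun ψ _ => by
        by_cases h : n ψ = 0
        · simp [h]
        · exact mul_nonneg (by positivity) (hx ψ h)).1 (s2.trans (by simp)) χ (Finset.mem_univ _)
      exact (mul_eq_zero.1 this).resolve_left (by exact_mod_cast h2)
    obtain ⟨-, -, d, -, e1, e2, -⟩ := d7_deg χ.2 (k χ h2)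
    obtain ⟨β, hβ, c⟩ := d7_mod r3 hd R (by omega) χ.2 e1
    rw [cR, e2, b0] at c
    exact d7_arith h61 (e0 ▸ Int.natCast_dvd_natCast.2 (hN.trans n1)) c (le7' h2 (le7 s1 χ)) hβ
  have h5 : ∀ χ, n χ * a χ ≠ 0 → 11 ≤ n χ * a χ := fun χ h => by
    obtain ⟨c1, c2⟩ := mul_ne_zero_iff.1 h
    have := Nat.le_mul_of_pos_left (a χ) (Nat.pos_of_ne_zero c1)
    rcases ha χ c1 with c | c <;> omega
  obtain ⟨χ, -, h0⟩ := Finset.exists_ne_zero_of_sum_ne_zero (s := Finset.univ) (f := fun χ => n χ * a χ)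
    (by rw [s1]; norm_num)
  have s3 := Finset.add_sum_erase Finset.univ (fun χ => n χ * a χ) (Finset.mem_univ χ)
  have o0 : ∀ ψ, ψ ≠ χ → n ψ * a ψ = 0 := fun ψ h => by
    by_contra hc
    have c1 := h5 ψ hc
    have c2 := h5 χ h0
    have c3 := Finset.single_le_sum (f := fun χ => n χ * a χ) (fun _ _ => Nat.zero_le _)
      (Finset.mem_erase.2 ⟨h, Finset.mem_univ ψ⟩)
    omega
  rw [Finset.sum_eq_zero fun ψ h => o0 ψ (Finset.ne_of_mem_erase h), s1, add_zero] at s3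
  obtain ⟨c1, c2⟩ := mul_ne_zero_iff.1 h0
  have a7 : a χ = 11 ∧ n χ = 1 := by
    rcases ha χ c1 with c | c <;> rw [c] at s3 <;> omega
  have o1 : ∀ ψ, ψ ≠ χ → n ψ ≠ 0 → ψ = irrOne H ∧ b ψ = 1 := fun ψ h h' => by
    have := k ψ h'
    rw [(mul_eq_zero.1 (o0 ψ h)).resolve_left h'] at this
    obtain ⟨c3, c4⟩ := TZ.ne_zero D.ncl ψ.2 this
    exact ⟨Subtype.ext c3, c4⟩
  have ne : χ ≠ irrOne H := by
    rintro rfl
    obtain ⟨b1, b2, d, -, e1, e2, -⟩ := d7_deg (irrOne H).2 (k _ c1)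
    have : d = 1 := by exact_mod_cast (show (d : ℂ) = 1 from e1.symm)
    rw [a7.1] at e2
    omega
  have o2 : ∀ ψ, ψ ≠ χ ∧ ψ ≠ irrOne H → n ψ = 0 := fun ψ h => by
    by_contra hc
    exact h.2 (o1 ψ h.1 hc).1
  rw [Fintype.sum_eq_add χ (irrOne H) ne fun ψ h => by simp [o2 ψ h], a7.2, Nat.cast_one, one_smul] at e
  rw [Fintype.sum_eq_add χ (irrOne H) ne fun ψ h => by simp [o2 ψ h], a7.2] at s2
  by_cases c : n (irrOne H) = 0
  · left
    rw [e, c, Nat.cast_zero, zero_smul, add_zero]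
    exact χ.2
  · right
    rw [(o1 _ ne.symm c).2] at s2
    have c3 := (d7_neg D.HS h7 χ.2 (k χ c1) a7.1.le (by omega)).2
    have c4 : n (irrOne H) = 1 := by omega
    rw [e, c4, Nat.cast_one, one_smul]
    exact (add_sub_cancel_right (χ : H → ℂ) 1).symm ▸ χ.2

end Cfsg.Agent.U11
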