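import Cfsg.Agent.U11.DcB

/-!
# The fixed space
-/

set_option autoImplicit false
set_option linter.unusedSectionVars false

namespace Cfsg.Agent.U11

open Cfsg.Agent.Class.U Cfsg.Agent.Char

variable {F G E : Type*} [Field F] [Fintype F] {q : ℕ} [UF F q] [Group G] [Finite G]
  [AddCommGroup E] [Module F E] [DistribMulAction G E] [SMulCommClass G F E]
  {p : ℕ} [Fact p.Prime] [CharP F p] {δ : G → E} {W : Submodule F E} {ψ : E → E → F} {x : E}

/-- `C = fixS ≠ ⊥` (`exists_fix_ne`), `dim C ≤ 2` (`rk_fix`); `dim C = 1` is the first case.  Let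
`dim C = 2`, `z` from `exists_TC`, `e = δ z ∉ C` (`eq_one_of_central`), `φ = z - 1 ≠ 0`,
`k e - e = φ (δ k)` (`Af.comm`), `C₂ = {y | ∀ k, k y - y ∈ C} ∋ e`.  `C₂ = ⊤` contradicts `lemF` (take
`0 ≠ δ g ∈ C`); `dim C₂ = 4` is `DcB2`; so `C₂ = C + F e`.  If `im φ` lies in a line `F c`, `c = φ y₀ ≠ 0`,
we are in the second case (`k (m e + c₀) - (m e + c₀) = m φ (δ k)`, `y = e`, `δ k = y₀`).  Otherwise
`φ u, φ u'` are independent, `ker φ` has dimension `3`, is invariant, contains `C` and all `k y - y`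
(`z k = k z`, `φ y ∈ C`); `G` is trivial on `ker φ / C` (`triv_of_codim_one`), so `ker φ = C₂`; `DcB1`. -/
theorem Af.Dc (q : ℕ) [UF F q] (h : Af F p δ) : (∃ x : E, Fx F G x) ∨
    ∃ c c' : E, c ≠ 0 ∧ (∀ m : F, c' ≠ m • c) ∧ (∀ k : G, k • c = c) ∧ (∀ k : G, k • c' = c') ∧
      (∀ y : E, (∀ k k' : G, k' • (k • y - y) = k • y - y) → ∀ k : G, ∃ m : F, k • y - y = m • c) ∧
      ∃ (y : E) (k : G), (∀ k k' : G, k' • (k • y - y) = k • y - y) ∧ k • y - y = c := by
  have := h.fin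
  have hrk := h.rk
  obtain ⟨u, -, u0, uf⟩ := exists_fix_ne h.pg (U := (⊤ : Submodule F E)) (fun _ _ _ => trivial) (fun e => by
    have := congrArg (fun U : Submodule F E => Module.finrank F U) e
    simp only [finrank_top, finrank_bot] at this
    omega)
  have one : ∀ c : E, c ≠ 0 → c ∈ fixS F G E →
      (Module.finrank F (fixS F G E) = 1 ↔ ∀ y ∈ fixS F G E, ∃ k : F, y = k • c) := fun c c0 hc => by
    rw [finrank_eq_one_iff_of_nonzero' (⟨c, hc⟩ : fixS F G E) fun e => c0 (congrArg Subtype.val e)]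
    exact ⟨fun k y hy => (k ⟨y, hy⟩).imp fun _ e => (congrArg Subtype.val e).symm,
      fun k y => (k y y.2).imp fun _ e => Subtype.ext e.symm⟩
  by_cases h1 : Module.finrank F (fixS F G E) = 1
  · exact .inl ⟨u, u0, uf, (one u u0 uf).1 h1⟩
  have h0 : 0 < Module.finrank F (fixS F G E) :=
    Module.finrank_pos_iff_exists_ne_zero.2 ⟨⟨u, uf⟩, fun e => u0 (congrArg Subtype.val e)⟩
  have h2 : Module.finrank F (fixS F G E) = 2 := by have := h.rk_fix q; omega
  obtain ⟨z, hz, z1, zc⟩ := h.exists_TC q h2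
  have eC : δ z ∉ fixS F G E := fun e => z1 (h.eq_one_of_central zc e)
  let C₂ : Submodule F E :=
    { carrier := {y | ∀ k : G, k • y - y ∈ fixS F G E}
      add_mem' := fun {a b} ha hb k => by
        rw [smul_add, add_sub_add_comm]; exact add_mem (ha k) (hb k)
      zero_mem' := fun k => by simp
      smul_mem' := fun c a ha k => by
        rw [smul_comm, ← smul_sub]; exact Submodule.smul_mem _ c (ha k) }
  have e2 : δ z ∈ C₂ := fun k => h.comm (zc k) ▸ hz _
  have CC : fixS F G E ≤ C₂ := fun y hy k => by rw [hy k, sub_self]; exact zero_mem _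
  have nt : C₂ ≠ ⊤ := fun e => by
    obtain ⟨g, rfl⟩ := h.sur u
    exact u0 (by rw [h.lemF (fun y => (e.ge (Submodule.mem_top (x := y))) g) uf, h.one])
  have r5 := Submodule.finrank_lt nt
  have r4 : Module.finrank F C₂ ≠ 4 := h.DcB2 q h2 hz z1 zc fun _ => Iff.rfl
  have l1 : fixS F G E ⊔ Submodule.span F {δ z} ≤ C₂ :=
    sup_le CC ((Submodule.span_singleton_le_iff_mem _ _).2 e2)
  have l2 := Submodule.finrank_lt_finrank_of_lt (lt_of_le_of_ne
    (le_sup_left : fixS F G E ≤ fixS F G E ⊔ Submodule.span F {δ z}) fun e =>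
      eC (e.ge (Submodule.mem_sup_right (Submodule.mem_span_singleton_self _))))
  have l3 := Submodule.finrank_mono l1
  have dec : ∀ y ∈ C₂, ∃ m : F, y - m • δ z ∈ fixS F G E := fun y hy => by
    rw [← Submodule.eq_of_le_of_finrank_le l1 (by omega)] at hy
    obtain ⟨a, ha, b, hb, rfl⟩ := Submodule.mem_sup.1 hy
    obtain ⟨m, rfl⟩ := Submodule.mem_span_singleton.1 hb
    exact ⟨m, by rwa [add_sub_cancel_right]⟩
  obtain ⟨y₀, c0⟩ : ∃ y : E, z • y - y ≠ 0 := by
    by_contra! k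
    exact z1 (h.fai z fun y => sub_eq_zero.1 (k y))
  by_cases hl : ∀ y : E, ∃ m : F, z • y - y = m • (z • y₀ - y₀)
  · obtain ⟨c', hc', n⟩ : ∃ c' ∈ fixS F G E, ∀ m : F, c' ≠ m • (z • y₀ - y₀) := by
      by_contra! k
      exact h1 ((one _ c0 (hz y₀)).2 k)
    refine .inr ⟨_, c', c0, n, hz y₀, hc', fun y hy k => ?_, δ z, ?_⟩
    · obtain ⟨m, hm⟩ := dec y hy
      obtain ⟨m', hm'⟩ := hl (δ k)
      refine ⟨m * m', ?_⟩
      have := hm k
      rw [smul_sub, smul_comm, sub_eq_sub_iff_sub_eq_sub, ← smul_sub, ← h.comm (zc k), hm'] at this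
      rw [this, mul_smul]
    · obtain ⟨k, rfl⟩ := h.sur y₀
      exact ⟨k, e2, (h.comm (zc k)).symm⟩
  exfalso
  push Not at hl
  obtain ⟨y₁, n⟩ := hl
  let φ : E →ₗ[F] E :=
    { toFun := fun y => z • y - y
      map_add' := fun a b => by rw [smul_add, add_sub_add_comm]
      map_smul' := fun c a => by rw [smul_comm, smul_sub]; rfl }
  have k1 := φ.finrank_range_add_finrank_ker
  have k2 := Submodule.finrank_mono (show LinearMap.range φ ≤ fixS F G E by rintro _ ⟨y, rfl⟩; exact hz y)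
  have k3 := Submodule.finrank_lt_finrank_of_lt (lt_of_le_of_ne
    ((Submodule.span_singleton_le_iff_mem _ _).2 ⟨y₀, rfl⟩ :
      Submodule.span F {z • y₀ - y₀} ≤ LinearMap.range φ) fun e => by
      obtain ⟨m, hm⟩ := Submodule.mem_span_singleton.1 (e.ge ⟨y₁, rfl⟩)
      exact n m hm.symm)
  rw [finrank_span_singleton c0] at k3
  have k4 : ∀ (k : G) (y : E), φ (k • y) = φ y := fun k y => by
    change z • k • y - k • y = z • y - y
    rw [← mul_smul, zc, mul_smul, ← smul_sub, hz y k]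
  have k5 : LinearMap.ker φ ≤ C₂ := fun y hy k => triv_of_codim_one h.pg (W₁ := fixS F G E)
    (W₂ := LinearMap.ker φ) (fun g y hy => by rwa [hy g]) (fun g y hy => (k4 g y).trans hy)
    (fun y hy => sub_eq_zero.2 (hy z)) (by omega) k y hy
  refine h.DcB1 q h2 hz z1 zc (sub_eq_zero.1 ((Submodule.eq_of_le_of_finrank_le k5 (by omega)).ge e2))
    (u := y₀) (u' := y₁) (fun m m' e => ?_) fun k y => dec _ (k5 (by
      rw [LinearMap.mem_ker, map_sub, k4, sub_self]))
  have m0 : m' = 0 := by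
    by_contra m0
    refine n (-(m'⁻¹ * m)) ?_
    rw [neg_smul, mul_smul, eq_neg_of_add_eq_zero_left e, smul_neg, neg_neg, inv_smul_smul₀ m0]
  rw [m0, zero_smul, add_zero] at e
  exact ⟨(smul_eq_zero.1 e).resolve_right c0, m0⟩

end Cfsg.Agent.U11
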