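import Cfsg.Agent.U11.LA2

/-!
# The fixed space has dimension at most two
-/

set_option autoImplicit false
set_option linter.unusedSectionVars false

namespace Cfsg.Agent.U11

open Cfsg.Agent.Class.U Cfsg.Agent.Char

variable {F G E : Type*} [Field F] [Fintype F] {q : ℕ} [UF F q] [Group G] [Finite G]
  [AddCommGroup E] [Module F E] [DistribMulAction G E] [SMulCommClass G F E]
  {p : ℕ} [Fact p.Prime] [CharP F p] {δ : G → E} {W : Submodule F E} {ψ : E → E → F} {x : E}

/-- `Af.comm`: `z` fixes every `δ k` -/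
theorem Af.eq_one_of_central (h : Af F p δ) {z : G} (hz : ∀ k, z * k = k * z)
    (h1 : δ z ∈ fixS F G E) : z = 1 := by
  refine h.fai z fun x => ?_
  obtain ⟨k, rfl⟩ := h.sur x
  have := h.comm (hz k)
  rwa [h1 k, sub_self, sub_eq_zero] at this

/-- the elements acting trivially on `E / C` -/
def TCs (F G E : Type*) [Field F] [Group G] [AddCommGroup E] [Module F E] [DistribMulAction G E]
    [SMulCommClass G F E] : Subgroup G where
  carrier := {g | ∀ y : E, g • y - y ∈ fixS F G E}
  one_mem' y := by simp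
  mul_mem' {a b} ha hb y := by
    have e : (a * b) • y - y = (a • (b • y) - b • y) + (b • y - y) := by rw [mul_smul]; abel
    exact e ▸ add_mem (ha _) (hb y)
  inv_mem' {a} ha y := by
    have := neg_mem (ha (a⁻¹ • y))
    rwa [smul_inv_smul, neg_sub] at this

instance dca_normal : (TCs F G E).Normal := ⟨fun g hg k y => by
  have := hg (k⁻¹ • y)
  rw [← this k, smul_sub, smul_inv_smul, ← mul_smul, ← mul_smul] at this
  exact this⟩

/-- the elements with `δ g` fixed -/
def Af.dcaS (h : Af F p δ) : Subgroup G where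
  carrier := {g | δ g ∈ fixS F G E}
  one_mem' := by simp [h.one]
  mul_mem' {a b} ha hb := by
    change δ (a * b) ∈ fixS F G E
    rw [h.coc, hb a]
    exact add_mem ha hb
  inv_mem' {a} ha := by
    change δ a⁻¹ ∈ fixS F G E
    rw [eq_inv_smul_iff.2 (h.inv a), smul_neg, ha a⁻¹]
    exact neg_mem ha

/-- the vectors fixed by `g` modulo the fixed space -/
def dcaM (F : Type*) {G : Type*} (E : Type*) [Field F] [Group G] [AddCommGroup E] [Module F E] [DistribMulAction G E]
    [SMulCommClass G F E] (g : G) : Submodule F E where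
  carrier := {y | g • y - y ∈ fixS F G E}
  add_mem' {a b} ha hb := by
    change g • (a + b) - (a + b) ∈ fixS F G E
    rw [smul_add, add_sub_add_comm]
    exact add_mem ha hb
  zero_mem' := by simp
  smul_mem' c a ha := by
    change g • c • a - c • a ∈ fixS F G E
    rw [smul_comm, ← smul_sub]
    exact Submodule.smul_mem _ c ha

theorem dcaM_fix (g : G) : fixS F G E ≤ dcaM F E g := fun y hy => by
  change g • y - y ∈ fixS F G E
  rw [hy g, sub_self]
  exact zero_mem _

theorem dcaM_of {a b : G} {y : E} (h : (fixS F G E).mkQ (a • y - y) = (fixS F G E).mkQ (b • y - y)) :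
    y ∈ dcaM F E (a⁻¹ * b) := by
  have h1 := (Submodule.Quotient.eq _).1 h.symm
  rw [sub_sub_sub_cancel_right, ← h1 a⁻¹, smul_sub, inv_smul_smul, ← mul_smul] at h1
  exact h1

theorem dca_step [Module.Finite F E] (hG : IsPGroup p G) {W : Submodule F E} (hW : ∀ g : G, ∀ y ∈ W, g • y ∈ W)
    (h : Module.finrank F W < Module.finrank F E) : ∃ u, (∀ g : G, g • u - u ∈ W) ∧
      (∀ g : G, ∀ y ∈ W ⊔ Submodule.span F {u}, g • y ∈ W ⊔ Submodule.span F {u}) ∧
      Module.finrank F ↥(W ⊔ Submodule.span F {u}) = Module.finrank F W + 1 := by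
  obtain ⟨u, -, h1, h2⟩ := exists_fix_mod hG hW (W₂ := ⊤) (fun _ _ _ => trivial) (by
    by_contra! k
    rw [show W = ⊤ from eq_top_iff.2 k, finrank_top] at h
    exact h.false) le_top
  refine ⟨u, h2, fun g y hy => ?_, Submodule.finrank_sup_span_singleton h1⟩
  obtain ⟨a, ha, b, hb, rfl⟩ := Submodule.mem_sup.1 hy
  obtain ⟨k, rfl⟩ := Submodule.mem_span_singleton.1 hb
  rw [smul_add, smul_comm, ← sub_add_cancel (g • u) u]
  exact add_mem (Submodule.mem_sup_left (hW g a ha)) (Submodule.smul_mem _ _ (add_mem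
    (Submodule.mem_sup_left (h2 g)) (Submodule.mem_sup_right (Submodule.mem_span_singleton_self u))))

theorem dca_mk {C : Submodule F E} {u y : E} (h : y ∈ C ⊔ Submodule.span F {u}) :
    ∃ k : F, C.mkQ (k • u) = C.mkQ y := by
  obtain ⟨a, ha, b, hb, rfl⟩ := Submodule.mem_sup.1 h
  obtain ⟨k, rfl⟩ := Submodule.mem_span_singleton.1 hb
  exact ⟨k, by rw [map_add, (Submodule.Quotient.mk_eq_zero C).2 ha |>.trans rfl |> (Submodule.mkQ_apply C a).trans,
    zero_add]⟩

theorem dca_range {A B : Type*} [Finite A] (φ : A → B) : (Set.range φ).ncard ≤ Nat.card A := by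
  rw [← Set.image_univ, ← Set.ncard_univ]
  exact Set.ncard_image_le Set.finite_univ

theorem dca_fixinv (g : G) (y : E) (hy : y ∈ fixS F G E) : g • y ∈ fixS F G E := (hy g).symm ▸ hy

theorem dca_F (q : ℕ) [UF F q] : Nat.card F = q ^ 2 ∧ 1 < q := by
  have h : Nat.card F = q ^ 2 := by
    simpa using card_sub (E := F) q (⊤ : Submodule F F)
  refine ⟨h, ?_⟩
  have := Finite.one_lt_card (α := F)
  rw [h] at this
  exact (Nat.one_lt_pow_iff two_ne_zero).1 this

/-- `N = {g | (g - 1) E ⊆ C, δ g ∈ C}`, `C = fixS`, is a normal subgroup (`Af.conj`);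
`exists_central`, `eq_one_of_central` -/
theorem Af.lemF (h : Af F p δ) {g : G} (h1 : ∀ y, g • y - y ∈ fixS F G E) (h2 : δ g ∈ fixS F G E) :
    g = 1 := by
  have : (TCs F G E ⊓ h.dcaS).Normal := ⟨fun g hg k => ⟨dca_normal.conj_mem g hg.1 k, by
    change δ (k * g * k⁻¹) ∈ fixS F G E
    rw [h.conj]
    exact add_mem (dca_fixinv _ _ hg.2) (dca_fixinv _ _ (hg.1 _))⟩⟩
  by_contra k
  obtain ⟨z, hz, z1, zc⟩ := exists_central h.pg (TCs F G E ⊓ h.dcaS) ⟨g, ⟨h1, h2⟩, k⟩
  exact z1 (h.eq_one_of_central zc hz.2)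

/-- `SC = {g | δ g ∈ C}` is a subgroup mapped onto `C` by `δ`, so `|SC| ≥ q^(2 dim C)`.  If
`dim C ≥ 4` then `G` is trivial on `E / C` (`triv_of_codim_one`) and `lemF` gives `SC = 1`.  If
`dim C = 3`: `u ∉ C` fixed mod `C` (`exists_fix_mod`), `j ∉ C + F u`, `g j - j ∈ C + F u`;
`g ↦ g j mod C` takes `≤ q²` values and is injective on `SC` (`lemF`, `card_le_mul'` with `K = ⊥`),
so `q^6 ≤ q²`. -/
theorem Af.rk_fix (q : ℕ) [UF F q] (h : Af F p δ) : Module.finrank F (fixS F G E) ≤ 2 := by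
  have := h.fin
  obtain ⟨cF, q1⟩ := dca_F (F := F) q
  have h1 : q ^ (2 * Module.finrank F (fixS F G E)) ≤ Nat.card h.dcaS := by
    rw [← card_sub q]
    refine Nat.card_le_card_of_surjective (fun g => ⟨δ g, g.2⟩) fun c => ?_
    obtain ⟨g, e⟩ := h.sur c
    exact ⟨⟨g, show δ g ∈ _ from e ▸ c.2⟩, Subtype.ext e⟩
  suffices k : 2 < Module.finrank F (fixS F G E) → Nat.card h.dcaS ≤ q ^ 2 by
    by_contra k'
    have := (Nat.pow_le_pow_iff_right q1).1 (h1.trans (k (by omega)))
    omega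
  intro k
  by_cases h4 : 4 ≤ Module.finrank F (fixS F G E)
  · have t := triv_of_codim_one h.pg (W₁ := fixS F G E) dca_fixinv (W₂ := ⊤) (fun _ _ _ => trivial) le_top
      (by rw [finrank_top, h.rk]; omega)
    rw [show h.dcaS = ⊥ from eq_bot_iff.2 fun g hg => h.lemF (fun y => t g y trivial) hg, Subgroup.card_bot]
    exact Nat.one_le_pow _ _ (by omega)
  obtain ⟨u, u1, u2, u3⟩ := dca_step h.pg (W := fixS F G E) dca_fixinv (by rw [h.rk]; omega)
  obtain ⟨j, j1, -, j3⟩ := dca_step h.pg u2 (by rw [h.rk]; omega)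
  have top := Submodule.eq_top_of_finrank_eq (j3.trans (show _ = Module.finrank F E by rw [h.rk]; omega))
  have := card_le_mul' h.dcaS ⊥ (fun g => (fixS F G E).mkQ (g • j - j))
    (Set.range fun k : F => (fixS F G E).mkQ (k • u)) (Set.finite_range _) (fun a _ => dca_mk (j1 a))
    fun a ha b hb e => h.lemF (fun y => (top.ge.trans (sup_le (sup_le (dcaM_fix _)
      ((Submodule.span_singleton_le_iff_mem _ _).2 (u1 _)))
      ((Submodule.span_singleton_le_iff_mem _ _).2 (dcaM_of e)))) (Submodule.mem_top (x := y)))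
      (mul_mem (inv_mem ha) hb)
  rw [Subgroup.card_bot, mul_one] at this
  exact this.trans ((dca_range _).trans cF.le)

/-- `dim C = 2`: flag `C < C + F u < C + F u + F u' < E = … + F j`; `g ↦ (g u', g j) mod C` takes
`≤ q² q⁴` values and its fibres lie in cosets of `TCs`: `q^10 ≤ q^6 |TCs|`; `exists_central` -/
theorem Af.exists_TC (q : ℕ) [UF F q] (h : Af F p δ) (h2 : Module.finrank F (fixS F G E) = 2) :
    ∃ z ∈ TCs F G E, z ≠ 1 ∧ ∀ k, z * k = k * z := by
  have := h.fin
  obtain ⟨cF, q1⟩ := dca_F (F := F) q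
  obtain ⟨u, u1, u2, u3⟩ := dca_step h.pg (W := fixS F G E) dca_fixinv (by rw [h.rk]; omega)
  obtain ⟨v, v1, v2, v3⟩ := dca_step h.pg u2 (by rw [h.rk]; omega)
  obtain ⟨j, j1, -, j3⟩ := dca_step h.pg v2 (by rw [h.rk]; omega)
  have top := Submodule.eq_top_of_finrank_eq (j3.trans (show _ = Module.finrank F E by rw [h.rk]; omega))
  have k := card_le_mul' ⊤ (TCs F G E) (fun g => ((fixS F G E).mkQ (g • v - v), (fixS F G E).mkQ (g • j - j)))
    (Set.range fun k : F × F × F => ((fixS F G E).mkQ (k.1 • u), (fixS F G E).mkQ (k.2.1 • u + k.2.2 • v)))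
    (Set.finite_range _) (fun a _ => by
      obtain ⟨k, e⟩ := dca_mk (v1 a)
      obtain ⟨c, hc, b, hb, e'⟩ := Submodule.mem_sup.1 (j1 a)
      obtain ⟨m, rfl⟩ := Submodule.mem_span_singleton.1 hb
      obtain ⟨l, e''⟩ := dca_mk hc
      exact ⟨(k, l, m), Prod.ext e (by dsimp only; rw [← e', map_add, map_add, e''])⟩)
    fun a _ b _ e y => (top.ge.trans (sup_le (sup_le (sup_le (dcaM_fix _)
      ((Submodule.span_singleton_le_iff_mem _ _).2 (u1 _)))
      ((Submodule.span_singleton_le_iff_mem _ _).2 (dcaM_of (congrArg Prod.fst e))))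
      ((Submodule.span_singleton_le_iff_mem _ _).2 (dcaM_of (congrArg Prod.snd e))))) (Submodule.mem_top (x := y))
  refine exists_central h.pg _ ?_
  by_contra! k'
  rw [show TCs F G E = ⊥ from eq_bot_iff.2 k', Subgroup.card_bot, mul_one, Subgroup.card_top] at k
  have := (h.card_ge q).trans (k.trans (dca_range _))
  rw [Nat.card_prod, Nat.card_prod, cF, ← pow_add, ← pow_add, Nat.pow_le_pow_iff_right q1] at this
  omega

/-- `g ↦ δ g mod C` is additive and injective on `TCs` (`lemF`), `|E / C| = q^6`; `onto_of_card` -/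
theorem Af.TC_onto (q : ℕ) [UF F q] (h : Af F p δ) (h2 : Module.finrank F (fixS F G E) = 2)
    (h3 : Nat.card G ≤ q ^ 4 * Nat.card (TCs F G E)) :
    ∀ u : E, ∃ t ∈ TCs F G E, δ t - u ∈ fixS F G E := by
  have := h.fin
  obtain ⟨-, q1⟩ := dca_F (F := F) q
  have : Finite E := Module.finite_of_finite F
  have c : Nat.card (E ⧸ fixS F G E) = q ^ 6 := by
    have := Submodule.card_eq_card_quotient_mul_card (fixS F G E)
    rw [h.card_E q, card_sub q, h2, show q ^ 10 = q ^ (2 * 2) * q ^ 6 by ring] at this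
    exact (Nat.eq_of_mul_eq_mul_left (by positivity) this).symm
  have : Finite (E ⧸ fixS F G E) := Finite.of_surjective _ (fixS F G E).mkQ_surjective
  intro u
  obtain ⟨t, ht, e⟩ := onto_of_card (TCs F G E) ⊥ (fun g => (fixS F G E).mkQ (δ g)) Set.univ (Set.toFinite _)
    (fun a ha b _ => by
      rw [h.coc, map_add, add_right_inj]
      exact (Submodule.Quotient.eq _).2 (ha _)) (fun _ _ => trivial)
    (fun a ha e => h.lemF ha ((Submodule.Quotient.mk_eq_zero _).1 e)) (by
      rw [Set.ncard_univ, c, Subgroup.card_bot, mul_one]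
      refine Nat.le_of_mul_le_mul_left (c := q ^ 4) ?_ (by positivity)
      rw [← pow_add]
      exact (h.card_ge q).trans h3) ((fixS F G E).mkQ u) trivial
  exact ⟨t, ht, (Submodule.Quotient.eq _).1 e⟩

end Cfsg.Agent.U11
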