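import Cfsg.Agent.U11.DcA

/-!
# Fixed space of dimension two: the two cases
-/

set_option autoImplicit false
set_option linter.unusedSectionVars false

namespace Cfsg.Agent.U11

open Cfsg.Agent.Class.U Cfsg.Agent.Char

variable {F G E : Type*} [Field F] [Fintype F] {q : ℕ} [UF F q] [Group G] [Finite G]
  [AddCommGroup E] [Module F E] [DistribMulAction G E] [SMulCommClass G F E]
  {p : ℕ} [Fact p.Prime] [CharP F p] {δ : G → E} {W : Submodule F E} {ψ : E → E → F} {x : E}

theorem dcb_tc {t : G} (ht : t ∈ TCs F G E) (y : E) : t • y - y ∈ fixS F G E := ht y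

theorem dcb_fx {c : E} (hc : c ∈ fixS F G E) (g : G) : g • c = c := hc g

/-- `g - 1` kills `C` -/
theorem dcb_congr (g : G) {y y' : E} (h : y - y' ∈ fixS F G E) : g • y - y = g • y' - y' := by
  have e := dcb_fx h g
  rw [smul_sub] at e
  exact sub_eq_sub_iff_sub_eq_sub.1 e

theorem dcb_mul {t : G} (ht : t ∈ TCs F G E) (g : G) (y : E) :
    (g * t) • y - y = (g • y - y) + (t • y - y) := by
  have e := dcb_congr g (dcb_tc ht y)
  rw [mul_smul, ← e]; abel

theorem dcb_conj {t : G} (ht : t ∈ TCs F G E) (k : G) : k * t * k⁻¹ ∈ TCs F G E := fun y => by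
  have e := dcb_fx (dcb_tc ht (k⁻¹ • y)) k
  rw [smul_sub, smul_inv_smul] at e
  rw [mul_smul, mul_smul, e]
  exact dcb_tc ht _

theorem dcb_inv_mul {a b : G} {y : E} (h : a • y - b • y ∈ fixS F G E) :
    (a⁻¹ * b) • y - y ∈ fixS F G E := by
  have e := dcb_fx h a⁻¹
  rw [smul_sub, inv_smul_smul] at e
  have := neg_mem h
  rwa [← e, neg_sub, ← mul_smul] at this

/-- `TCs` is abelian (`(t - 1)(t' - 1) = 0`, `fai`), `Af.comm` -/
theorem Af.TC_symm (h : Af F p δ) {t t' : G} (ht : t ∈ TCs F G E) (ht' : t' ∈ TCs F G E) :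
    t • δ t' - δ t' = t' • δ t - δ t := by
  refine h.comm ?_
  have e : ((t * t')⁻¹ * (t' * t)) = 1 := h.fai _ fun y => by
    have e1 := dcb_mul ht' t y
    have e2 := dcb_mul ht t' y
    rw [add_comm, ← e1, sub_left_inj] at e2
    rw [mul_smul, e2, inv_smul_smul]
  exact inv_mul_eq_one.1 e

theorem Af.dcb_uniq (h : Af F p δ) {s t : G} (hs : s ∈ TCs F G E) (ht : t ∈ TCs F G E)
    (e : δ s - δ t ∈ fixS F G E) : s = t := by
  refine inv_mul_eq_one.1 (h.lemF (mul_mem (inv_mem hs) ht) ?_)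
  have e1 : δ s⁻¹ = -(s⁻¹ • δ s) := by rw [← smul_neg, ← h.inv, inv_smul_smul]
  have e2 := dcb_fx e s⁻¹
  rw [smul_sub] at e2
  have := neg_mem e
  rw [← e2] at this
  rw [h.coc, e1]
  convert this using 1
  abel

/-- the elements `T u ∈ TCs` with `δ (T u) ≡ u` and the bilinear map `β` -/
theorem Af.dcb_beta (h : Af F p δ) (hon : ∀ u : E, ∃ t ∈ TCs F G E, δ t - u ∈ fixS F G E) :
    ∃ (T : E → G) (β : E →ₗ[F] E →ₗ[F] E), (∀ u, T u ∈ TCs F G E) ∧
      (∀ u, δ (T u) - u ∈ fixS F G E) ∧ (∀ u y, β u y = T u • y - y) ∧ (∀ u y, β u y = β y u) ∧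
      (∀ t ∈ TCs F G E, ∀ u, δ t - u ∈ fixS F G E → t = T u) ∧
      (∀ (k : G) u, k * T u * k⁻¹ = T (k • u)) ∧
      (∀ (k : G) u y, β (k • u) (k • y) = β u y) ∧
      (∀ u u' y y', u - u' ∈ fixS F G E → y - y' ∈ fixS F G E → β u y = β u' y') := by
  choose T hT hd using hon
  have sy : ∀ u y, T u • y - y = T y • u - u := fun u y => by
    rw [← dcb_congr (T u) (hd y), h.TC_symm (hT u) (hT y), dcb_congr (T y) (hd u)]
  have un : ∀ t ∈ TCs F G E, ∀ u, δ t - u ∈ fixS F G E → t = T u := fun t ht u hu =>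
    h.dcb_uniq ht (hT u) (by simpa using sub_mem hu (hd u))
  have cj : ∀ (k : G) u, k * T u * k⁻¹ = T (k • u) := fun k u => by
    refine un _ (dcb_conj (hT u) k) _ ?_
    rw [h.conj, dcb_fx (dcb_tc (hT u) _) k]
    have e := dcb_fx (hd u) k
    rw [smul_sub] at e
    have := add_mem (hd u) (dcb_tc (hT u) (δ k⁻¹))
    rw [← e] at this
    convert this using 1
    abel
  refine ⟨T, LinearMap.mk₂ F (fun u y => T u • y - y) (fun a b y => ?_) (fun c a y => ?_)
    (fun a y y' => ?_) (fun c a y => ?_), hT, hd, fun _ _ => rfl, sy, un, cj, fun k u y => ?_,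
    fun u u' y y' hu hy => ?_⟩
  · rw [sy, sy a, sy b, smul_add]; abel
  · rw [sy, sy a, smul_comm, smul_sub]
  · rw [smul_add]; abel
  · rw [smul_comm, smul_sub]
  · simp only [LinearMap.mk₂_apply]
    rw [← cj, mul_smul, inv_smul_smul, mul_smul, ← smul_sub, dcb_fx (dcb_tc (hT u) y)]
  · simp only [LinearMap.mk₂_apply]
    rw [dcb_congr _ hy, sy, dcb_congr _ hu, sy]

/-- Write `φ_t = t - 1 : E → C` (kills `C`), `φ = φ_z`, `e = δ z ∉ C` (`eq_one_of_central`);
`φ e = 0` (`he`).  All `k y - y ∈ C + F e`, so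
`|G| ≤ q⁴ |TCs|` (`u, u', e` span `E` mod `C`: `φ u, φ u'` are independent, `φ e = 0`, `dim C = 2`;
`card_le_mul'` for `g ↦ (g u, g u') mod C`; `k e - e ∈ C` by `Af.comm`) and `TC_onto` applies.
Let `k u ≡ u + m e`, `k u' ≡ u' + m' e` mod `C`, `t ∈ TCs` with `δ t ≡ u`.  `t₁ = k t k⁻¹ ∈ TCs` has
`δ t₁ ≡ k u ≡ δ (t z_m)` where `z_m ∈ TCs`, `δ z_m ≡ m e`, so `t₁ = t z_m` (`lemF`);
`φ_{z_m} y = m φ y` (`TC_symm` twice, writing `y ≡ δ t'`).  `φ_{t₁} (k u') = k φ_t u' = φ_t u'` and
`= φ_t u' + m' φ_t e + m φ u'`, `φ_t e = φ u` (`TC_symm`): `m' φ u + m φ u' = 0`, `m = m' = 0`.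
So `G = TCs`; then an element with `0 ≠ δ g ∈ C` contradicts `lemF`. -/
theorem Af.DcB1 (q : ℕ) [UF F q] (h : Af F p δ) (h2 : Module.finrank F (fixS F G E) = 2) {z : G}
    (hz : z ∈ TCs F G E) (z1 : z ≠ 1) (zc : ∀ k, z * k = k * z) (he : z • δ z = δ z) {u u' : E}
    (hu : ∀ m m' : F, m • (z • u - u) + m' • (z • u' - u') = 0 → m = 0 ∧ m' = 0)
    (hk : ∀ (k : G) (y : E), ∃ m : F, k • y - y - m • δ z ∈ fixS F G E) : False := by
  have := h.fin
  have eC : δ z ∉ fixS F G E := fun e => z1 (h.eq_one_of_central zc e)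
  -- `u, u', e` span `E` modulo `C`
  have span : ∀ y : E, ∃ a a' b : F, y - (a • u + a' • u' + b • δ z) ∈ fixS F G E := by
    let π := (fixS F G E).mkQ
    let L : (F × F × F) →ₗ[F] E ⧸ fixS F G E := (LinearMap.toSpanSingleton F _ (π u)).coprod
      ((LinearMap.toSpanSingleton F _ (π u')).coprod (LinearMap.toSpanSingleton F _ (π (δ z))))
    have hL : ∀ a a' b, L (a, a', b) = π (a • u + a' • u' + b • δ z) := fun a a' b => by
      simp [L, add_assoc]
    have hi : Function.Injective L := by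
      rw [← LinearMap.ker_eq_bot, LinearMap.ker_eq_bot']
      rintro ⟨a, a', b⟩ e
      rw [hL, Submodule.mkQ_apply, Submodule.Quotient.mk_eq_zero] at e
      have e1 := dcb_fx e z
      rw [smul_add, smul_add, smul_comm z a, smul_comm z a', smul_comm z b, he] at e1
      obtain ⟨rfl, rfl⟩ := hu a a' (by rw [smul_sub, smul_sub, ← sub_eq_zero.2 e1]; abel)
      have b0 : b = 0 := by
        by_contra hb
        refine eC ?_
        have := (fixS F G E).smul_mem b⁻¹ e
        simpa [hb] using this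
      rw [b0]; rfl
    have hq := (fixS F G E).finrank_quotient_add_finrank
    rw [h.rk, h2] at hq
    have hs := (LinearMap.injective_iff_surjective_of_finrank_eq_finrank (f := L)
      (by simp only [Module.finrank_prod, Module.finrank_self]; omega)).1 hi
    intro y
    obtain ⟨⟨a, a', b⟩, e⟩ := hs (π y)
    rw [hL] at e
    exact ⟨a, a', b, (Submodule.Quotient.eq _).1 e.symm⟩
  have ke : ∀ k : G, k • δ z - δ z ∈ fixS F G E := fun k => h.comm (zc k) ▸ dcb_tc hz _
  have memT : ∀ g : G, g • u - u ∈ fixS F G E → g • u' - u' ∈ fixS F G E → g ∈ TCs F G E := by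
    intro g g1 g2 y
    obtain ⟨a, a', b, e⟩ := span y
    rw [dcb_congr g e]
    have := add_mem (add_mem ((fixS F G E).smul_mem a g1) ((fixS F G E).smul_mem a' g2))
      ((fixS F G E).smul_mem b (ke g))
    convert this using 1
    rw [smul_add, smul_add, smul_comm g a, smul_comm g a', smul_comm g b, smul_sub, smul_sub, smul_sub]
    abel
  choose m hm using hk
  have hc : Nat.card G ≤ q ^ 4 * Nat.card (TCs F G E) := by
    have := card_le_mul' (⊤ : Subgroup G) (TCs F G E) (fun g => (m g u, m g u')) Set.univ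
      Set.finite_univ (fun _ _ => trivial) fun a _ b _ e => by
        obtain ⟨e1, e2⟩ := Prod.mk.inj e
        refine memT _ (dcb_inv_mul ?_) (dcb_inv_mul ?_)
        · have := sub_mem (hm a u) (hm b u)
          rw [e1] at this
          convert this using 1
          abel
        · have := sub_mem (hm a u') (hm b u')
          rw [e2] at this
          convert this using 1
          abel
    rwa [Set.ncard_univ, Nat.card_prod, UF.card_eq (F := F) (q := q), Subgroup.card_top, ← pow_add] at this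
  obtain ⟨T, β, hT, hd, hβ, sy, un, cj, iv, cg⟩ := h.dcb_beta (h.TC_onto q h2 hc)
  have zT : z = T (δ z) := un z hz _ (by simp)
  have bz : ∀ y, β (δ z) y = z • y - y := fun y => by rw [hβ, ← zT]
  have all : ∀ k : G, k ∈ TCs F G E := fun k => by
    have e := iv k u u'
    rw [cg (k • u) (u + m k u • δ z) (k • u') (u' + m k u' • δ z)
      (by simpa only [sub_sub] using hm k u) (by simpa only [sub_sub] using hm k u')] at e
    simp only [map_add, map_smul, LinearMap.add_apply, LinearMap.smul_apply] at e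
    rw [sy u (δ z), bz, bz, bz, he, sub_self, smul_zero] at e
    obtain ⟨e1, e2⟩ := hu (m k u') (m k u) (by
      rw [← sub_eq_zero.2 e, add_zero]; abel)
    have g1 := hm k u
    have g2 := hm k u'
    rw [e2, zero_smul, sub_zero] at g1
    rw [e1, zero_smul, sub_zero] at g2
    exact memT k g1 g2
  obtain ⟨c, hc1, hc2⟩ := Submodule.exists_mem_ne_zero_of_ne_bot (p := fixS F G E)
    (fun e => by rw [e, finrank_bot] at h2; omega)
  obtain ⟨g, rfl⟩ := h.sur c
  exact hc2 (by rw [h.lemF (all g) hc1, h.one])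

/-- `C₂ = {y | ∀ k, k y - y ∈ C}` has dimension `4`, `j ∉ C₂`, `k j - j ∈ C₂`.  `g ↦ g j mod C` takes
`≤ q⁴` values with fibres in cosets of `TCs`, so `TC_onto` applies; on `SC = {δ g ∈ C}` (order
`≥ q⁴`) the map `s ↦ s j - j mod C` is additive and injective (`lemF`), so onto `C₂ / C`
(`onto_of_card`).  Let `t_u ∈ TCs` be the element with `δ t_u ≡ u` (unique by `lemF`, additive in `u`),
`β (u, u') = (t_u - 1) u'`, symmetric (`TC_symm`), so bilinear; `β (k u, k u') = β (u, u')` since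
`k t_u k⁻¹ = t_{k u}` (`Af.conj`).  With `s j ≡ j + m`: `β (m, m') = 0` for `m, m' ∈ C₂`.
Put `B m = β (j, m)`, `D m = δ t_m` for `m ∈ C₂`.  For `s ∈ SC`, `M = s j - j`, `λ ∈ F`:
`s t_{λ j} s⁻¹ = t_{λ j} t_{λ M}`; apply `δ` (`δ (s t s⁻¹) = s δ t`, `δ t_{λ j} - λ j ∈ C`):
`λ M = D (λ M) + λ² B M`.  So `D (λ m) = λ D m + (λ - λ²) B m` for all `m ∈ C₂`; computing
`D (λ λ m)` in two ways gives `λ² (1 - λ)² B m = 0`, so `B = 0` (`λ ∉ {0, 1}`).  But `z = t_e`,
`e = δ z ∈ C₂` (`Af.comm`), `(z - 1) y = β (e, y) = 0` for `y ∈ C₂` and `y = j`, so `z = 1`. -/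
theorem Af.DcB2 (q : ℕ) [UF F q] (h : Af F p δ) (h2 : Module.finrank F (fixS F G E) = 2) {z : G}
    (hz : z ∈ TCs F G E) (z1 : z ≠ 1) (zc : ∀ k, z * k = k * z) {C₂ : Submodule F E}
    (hC : ∀ y, y ∈ C₂ ↔ ∀ k : G, k • y - y ∈ fixS F G E) (h4 : Module.finrank F C₂ = 4) : False := by
  have := h.fin
  have le : fixS F G E ≤ C₂ := fun y hy => (hC y).2 fun k => by rw [dcb_fx hy, sub_self]; exact zero_mem _
  have inv : ∀ g : G, ∀ y ∈ C₂, g • y ∈ C₂ := fun g y hy => by
    simpa using add_mem (le ((hC y).1 hy g)) hy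
  have tr : ∀ (g : G) (y : E), g • y - y ∈ C₂ := fun g y =>
    triv_of_codim_one h.pg inv (W₂ := ⊤) (fun _ _ _ => trivial) le_top
      (by rw [finrank_top, h.rk, h4]) g y trivial
  obtain ⟨j, hj⟩ : ∃ j, j ∉ C₂ := by
    by_contra e
    push Not at e
    rw [Submodule.eq_top_iff'.2 e, finrank_top, h.rk] at h4
    omega
  have span : ∀ y : E, ∃ a : F, y - a • j ∈ C₂ := fun y => by
    have e : C₂ ⊔ Submodule.span F {j} = ⊤ := by
      apply Submodule.eq_top_of_finrank_eq
      have h1 : C₂ < C₂ ⊔ Submodule.span F {j} := lt_of_le_of_ne le_sup_left fun e =>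
        hj (e ▸ Submodule.mem_sup_right (Submodule.mem_span_singleton_self j))
      have h5 := Submodule.finrank_lt_finrank_of_lt h1
      have h6 := Submodule.finrank_le (C₂ ⊔ Submodule.span F {j})
      rw [h.rk] at h6 ⊢
      omega
    obtain ⟨a, ha, b, hb, rfl⟩ := Submodule.mem_sup.1 (e ▸ Submodule.mem_top : y ∈ C₂ ⊔ Submodule.span F {j})
    obtain ⟨c, rfl⟩ := Submodule.mem_span_singleton.1 hb
    exact ⟨c, by simpa using ha⟩
  have memT : ∀ g : G, g • j - j ∈ fixS F G E → g ∈ TCs F G E := by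
    intro g g1 y
    obtain ⟨a, e⟩ := span y
    have := add_mem ((hC _).1 e g) ((fixS F G E).smul_mem a g1)
    convert this using 1
    rw [smul_sub, smul_comm g a, smul_sub]
    abel
  let π := (fixS F G E).mkQ
  have cT : (C₂.map π : Set (E ⧸ fixS F G E)).ncard = q ^ 4 := by
    have e1 := LinearMap.finrank_range_add_finrank_ker (π.domRestrict C₂)
    rw [LinearMap.range_domRestrict, LinearMap.ker_domRestrict, Submodule.ker_mkQ,
      (Submodule.comapSubtypeEquivOfLe le).finrank_eq, h2, h4] at e1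
    have e2 := card_sub q (C₂.map π)
    rw [show Module.finrank F (C₂.map π) = 2 by omega] at e2
    exact e2
  have fT : (C₂.map π : Set (E ⧸ fixS F G E)).Finite :=
    Set.finite_of_ncard_ne_zero (by rw [cT]; have := two_le_q F q; positivity)
  have hc : Nat.card G ≤ q ^ 4 * Nat.card (TCs F G E) := by
    have := card_le_mul' (⊤ : Subgroup G) (TCs F G E) (fun g => π (g • j - j)) _ fT
      (fun a _ => Submodule.mem_map_of_mem (tr a j)) fun a _ b _ e => by
        refine memT _ (dcb_inv_mul ?_)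
        simpa using (Submodule.Quotient.eq _).1 e
    rwa [cT, Subgroup.card_top] at this
  obtain ⟨T, β, hT, hd, hβ, sy, un, cj, iv, cg⟩ := h.dcb_beta (h.TC_onto q h2 hc)
  have dinv : ∀ s : G, δ s ∈ fixS F G E → δ s⁻¹ ∈ fixS F G E := fun s hs => by
    have e1 : δ s⁻¹ = -(s⁻¹ • δ s) := by rw [← smul_neg, ← h.inv, inv_smul_smul]
    rw [e1, dcb_fx hs]; exact neg_mem hs
  let SC : Subgroup G :=
    { carrier := {g | δ g ∈ fixS F G E}
      one_mem' := by change δ 1 ∈ fixS F G E; rw [h.one]; exact zero_mem _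
      mul_mem' := fun {a b} ha hb => by
        change δ _ ∈ fixS F G E
        rw [h.coc, dcb_fx (F := F) hb]; exact (fixS F G E).add_mem ha hb
      inv_mem' := fun {a} ha => dinv a ha }
  have cS : q ^ 4 ≤ Nat.card SC := by
    have e2 := card_sub q (fixS F G E)
    rw [h2] at e2
    rw [← e2]
    refine Nat.card_le_card_of_surjective (fun s : SC => (⟨δ s, s.2⟩ : fixS F G E)) ?_
    rintro ⟨c, hc⟩
    obtain ⟨g, rfl⟩ := h.sur c
    exact ⟨⟨g, hc⟩, rfl⟩
  have on : ∀ m ∈ C₂, ∃ s : G, δ s ∈ fixS F G E ∧ s • j - j - m ∈ fixS F G E := fun m hm => by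
    obtain ⟨s, hs, e⟩ := onto_of_card SC ⊥ (fun g => π (g • j - j)) _ fT (fun a _ b _ => by
        rw [← map_add]
        refine (Submodule.Quotient.eq _).2 ?_
        convert (hC _).1 (tr b j) a using 1
        rw [smul_sub, mul_smul]; abel)
      (fun a _ => Submodule.mem_map_of_mem (tr a j))
      (fun a ha e => h.lemF (memT a ((Submodule.Quotient.mk_eq_zero _).1 e)) ha)
      (by rw [cT, Subgroup.card_bot, mul_one]; exact cS) (π m) (Submodule.mem_map_of_mem hm)
    exact ⟨s, hs, (Submodule.Quotient.eq _).1 e⟩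
  have b0 : ∀ m ∈ C₂, ∀ m' ∈ C₂, β m m' = 0 := fun m hm m' hm' => by
    obtain ⟨s, -, e⟩ := on m hm
    have e1 := iv s j m'
    rw [cg (s • j) (j + m) (s • m') m' (by simpa only [sub_sub] using e) ((hC _).1 hm' s), map_add,
      LinearMap.add_apply] at e1
    simpa using e1
  have key : ∀ m ∈ C₂, ∀ l : F, δ (T (l • m)) = l • δ (T m) + (l - l ^ 2) • β j m := fun m hm => by
    obtain ⟨s, hs, e⟩ := on m hm
    have k1 : ∀ l : F, l • (s • j - j) = δ (T (l • m)) + l ^ 2 • β j m := fun l => by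
      have e1 : T (l • j) * T (l • m) = T (s • l • j) := by
        refine un _ (mul_mem (hT _) (hT _)) _ ?_
        have := add_mem (add_mem (hd (l • j)) (hd (l • m))) (sub_mem (dcb_tc (hT (l • j)) (δ (T (l • m))))
          ((fixS F G E).smul_mem l e))
        convert this using 1
        rw [h.coc, smul_comm s l, smul_sub, smul_sub]; abel
      have e2 := congrArg δ ((cj s (l • j)).trans e1.symm)
      rw [h.conj, dcb_fx (dinv s hs), sub_self, smul_zero, add_zero, h.coc] at e2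
      have e3 := dcb_congr s (hd (l • j))
      have e4 := dcb_congr (T (l • j)) (hd (l • m))
      rw [← hβ (l • j) (l • m)] at e4
      simp only [map_smul, LinearMap.smul_apply, smul_smul] at e4
      rw [e2, smul_comm s l, ← smul_sub] at e3
      rw [← e3, pow_two, ← e4]; abel
    intro l
    have k2 := k1 1
    rw [one_smul, one_smul, one_pow, one_smul] at k2
    have k3 := k1 l
    rw [k2] at k3
    rw [sub_smul, eq_sub_of_add_eq k3.symm, smul_add]; abel
  have B0 : ∀ m ∈ C₂, β j m = 0 := fun m hm => by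
    obtain ⟨l, l0, l1, -⟩ := exists_ne_zero_one F q
    have k1 := key m hm (l * l)
    have k2 := key _ (C₂.smul_mem l hm) l
    rw [smul_smul, k1, key m hm l, map_smul, smul_add, smul_smul, smul_smul, smul_smul, add_assoc,
      add_right_inj, ← add_smul, ← sub_eq_zero, ← sub_smul] at k2
    refine (smul_eq_zero.1 k2).resolve_left fun e => ?_
    have : (l * (1 - l)) ^ 2 = 0 := by linear_combination -e
    exact mul_ne_zero l0 (sub_ne_zero.2 l1.symm) (pow_eq_zero_iff two_ne_zero |>.1 this)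
  have eC : δ z ∈ C₂ := (hC _).2 fun k => h.comm (zc k) ▸ dcb_tc hz _
  have zT : z = T (δ z) := un z hz _ (by simp)
  refine z1 (h.fai z fun y => ?_)
  obtain ⟨a, e⟩ := span y
  have e1 := b0 _ eC _ e
  rw [map_sub, map_smul, sy _ j, B0 _ eC, smul_zero, sub_zero, hβ, ← zT] at e1
  exact sub_eq_zero.1 e1

end Cfsg.Agent.U11
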