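import Cfsg.Agent.Class.U.Simple
import Cfsg.Agent.Class.U.Count
import Cfsg.Agent.Char.Irr

/-!
# Overgroups of the Singer normaliser in `SU_11(q)`: definitions

`F = F_{q²}`, `V = F^11`, `𝐡 = hermForm 11 F q`, everything lives in `GU 11 F q` acting on `V` by `•`
(API: `Class/U/Basic`, `Class/U/Field`, `Class/U/Count`).  `ZZ` = scalars (order `q + 1`),
`SS` = determinant one, `hh q = (q^11+1)/(q+1)`, `hp q = hh q / gcd 11 (q+1)`.
-/

set_option autoImplicit false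
set_option linter.unusedSectionVars false

namespace Cfsg.Agent.U11

open Cfsg.Agent.Class.U Cfsg.Agent.Char
open scoped ComplexConjugate

/-- `(q^11+1)/(q+1)` -/
def hh (q : ℕ) : ℕ := q * (q - 1) * (q ^ 8 + q ^ 6 + q ^ 4 + q ^ 2 + 1) + 1

/-- order of the torus `T` -/
def hp (q : ℕ) : ℕ := hh q / Nat.gcd 11 (q + 1)

/-- `|SU_11(q)|` -/
def so (q : ℕ) : ℕ :=
  q ^ 55 * (q ^ 2 - 1) * (q ^ 3 + 1) * (q ^ 4 - 1) * (q ^ 5 + 1) * (q ^ 6 - 1) * (q ^ 7 + 1) *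
    (q ^ 8 - 1) * (q ^ 9 + 1) * (q ^ 10 - 1) * (q ^ 11 + 1)

/-- an abelian subgroup `S` of order `h` which is TI modulo the central subgroup `Z`, with
normaliser `Z S ⟨σ⟩`, `σ` of order `11` acting fixed point freely -/
structure TZ {H : Type*} [Group H] (Z S : Subgroup H) (σ : H) (h : ℕ) : Prop where
  cen : ∀ z ∈ Z, ∀ g : H, z * g = g * z
  comm : ∀ a ∈ S, ∀ b ∈ S, a * b = b * a
  card : Nat.card S = h
  norm : ∀ s ∈ S, σ * s * σ⁻¹ ∈ S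
  pow7 : σ ^ 11 = 1
  fpf : ∀ i : ℕ, 0 < i → i < 11 → ∀ s ∈ S, σ ^ i * s * (σ ^ i)⁻¹ * s⁻¹ ∈ Z → s = 1
  ti : ∀ g : H, ∀ s ∈ S, s ≠ 1 → ∀ t ∈ S, g * s * g⁻¹ * t⁻¹ ∈ Z →
    ∃ z ∈ Z, ∃ u ∈ S, ∃ i : ℕ, g = z * u * σ ^ i

/-- `Z` acts by the scalars `c` in every constituent of `f` -/
def Cen {H : Type*} [Group H] (Z : Subgroup H) (c f : H → ℂ) : Prop :=
  ∀ z ∈ Z, ‖c z‖ = 1 ∧ ∀ g : H, f (z * g) = c z * f g

variable {F : Type*} [Field F] [Fintype F] {q : ℕ} [UF F q]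

noncomputable instance fGU : Fintype (GU 11 F q) :=
  haveI : Finite (GL (Fin 11) F) := Finite.of_injective _ Units.val_injective
  Fintype.ofFinite _

noncomputable instance (priority := high) fSub (H : Subgroup (GU 11 F q)) : Fintype H :=
  Fintype.ofFinite _

instance scGU : SMulCommClass (GU 11 F q) F (Fin 11 → F) := ⟨GU_smul_comm⟩

variable (F q) in
/-- the scalars -/
def ZZ : Subgroup (GU 11 F q) where
  carrier := {g | ∃ c : F, ∀ v : Fin 11 → F, g • v = c • v}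
  one_mem' := ⟨1, by simp⟩
  mul_mem' := by
    rintro a b ⟨k, hk⟩ ⟨l, hl⟩
    exact ⟨k * l, fun x => by rw [mul_smul, hl, hk, mul_smul]⟩
  inv_mem' := by
    rintro a ⟨k, hk⟩
    have k0 : k ≠ 0 := by
      rintro rfl
      have := hk (Pi.single 0 1)
      rw [zero_smul, smul_eq_zero_iff_eq] at this
      simpa using congrFun this 0
    exact ⟨k⁻¹, fun x => by rw [inv_smul_eq_iff, hk, smul_inv_smul₀ k0]⟩

variable (F q) in
/-- `SU_11(q)` inside `GU_11(q)` -/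
abbrev SS : Subgroup (GU 11 F q) := (detGU : GU 11 F q →* Fˣ).ker

/-- the fixed space -/
def fx (g : GU 11 F q) : Submodule F (Fin 11 → F) where
  carrier := {v | g • v = v}
  add_mem' {a b} ha hb := by
    change g • (a + b) = a + b
    rw [smul_add, ha, hb]
  zero_mem' := smul_zero g
  smul_mem' c a ha := by
    change g • (c • a) = c • a
    rw [GU_smul_comm, ha]

theorem mem_fx {g : GU 11 F q} {v : Fin 11 → F} : v ∈ fx g ↔ g • v = v := Iff.rfl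

/-- dimension of the fixed space -/
noncomputable def dd (g : GU 11 F q) : ℕ := Module.finrank F (fx g)

/-- the Weil character -/
noncomputable def om (g : GU 11 F q) : ℂ := -(-(q : ℂ)) ^ dd g

/-- the part of the Weil character on which the scalars act by `θ` -/
noncomputable def omt (θ : IrrCharacter (ZZ F q)) (g : GU 11 F q) : ℂ :=
  ((q : ℂ) + 1)⁻¹ * ∑ z : ZZ F q, conj ((θ : ZZ F q → ℂ) z) * om ((z : GU 11 F q) * g)

/-- its restriction to `H` -/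
noncomputable def res (H : Subgroup (GU 11 F q)) (θ : IrrCharacter (ZZ F q)) : H → ℂ :=
  fun g => omt θ g

/-- the Singer torus `T` (order `hp q`) and the Frobenius `σ` -/
structure Sg (T : Subgroup (GU 11 F q)) (σ : GU 11 F q) : Prop where
  TS : T ≤ SS F q
  σS : σ ∈ SS F q
  comm : ∀ a ∈ T, ∀ b ∈ T, a * b = b * a
  card : Nat.card T = hp q
  norm : ∀ s ∈ T, σ * s * σ⁻¹ ∈ T
  pow7 : σ ^ 11 = 1
  fpf : ∀ i : ℕ, 0 < i → i < 11 → ∀ s ∈ T, σ ^ i * s * (σ ^ i)⁻¹ * s⁻¹ ∈ ZZ F q → s = 1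
  ti : ∀ g ∈ SS F q, ∀ s ∈ T, s ≠ 1 → ∀ t ∈ T, g * s * g⁻¹ * t⁻¹ ∈ ZZ F q →
    ∃ z ∈ ZZ F q, ∃ u ∈ T, ∃ i : ℕ, g = z * u * σ ^ i
  irr : ∀ s ∈ T, s ≠ 1 → ∀ W : Submodule F (Fin 11 → F), (∀ v ∈ W, s • v ∈ W) → W = ⊥ ∨ W = ⊤

/-- the standing hypothesis: `H ≤ SU_11(q)` is generated by the conjugates of `T` and contains `σ` -/
structure Hy (H T : Subgroup (GU 11 F q)) (σ : GU 11 F q) : Prop extends Sg T σ where
  HS : H ≤ SS F q
  TH : T ≤ H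
  σH : σ ∈ H
  ncl : Subgroup.normalClosure (T.subgroupOf H : Set H) = ⊤

theorem Sg.tz {T M : Subgroup (GU 11 F q)} {σ : GU 11 F q} (D : Sg T σ) (h1 : M ≤ SS F q)
    (h2 : T ≤ M) (h3 : σ ∈ M) :
    TZ ((ZZ F q).subgroupOf M) (T.subgroupOf M) ⟨σ, h3⟩ (hp q) where
  cen z hz g := by
    obtain ⟨c, hc⟩ := Subgroup.mem_subgroupOf.1 hz
    refine Subtype.ext (GU_ext fun v => ?_)
    rw [Subgroup.coe_mul, Subgroup.coe_mul, mul_smul, mul_smul, hc, hc, GU_smul_comm]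
  comm a ha b hb := Subtype.ext (D.comm _ ha _ hb)
  card := by rw [← D.card]; exact Nat.card_congr (Subgroup.subgroupOfEquivOfLe h2).toEquiv
  norm s hs := D.norm _ hs
  pow7 := Subtype.ext D.pow7
  fpf i h0 h7 s hs e := Subtype.ext (D.fpf i h0 h7 _ hs e)
  ti g s hs s1 t ht e := by
    obtain ⟨z, hz, u, hu, i, e⟩ := D.ti _ (h1 g.2) _ hs (fun k => s1 (Subtype.ext k)) _ ht e
    have : z ∈ M := by
      rw [eq_comm, mul_assoc, ← eq_mul_inv_iff_mul_eq] at e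
      exact e ▸ M.mul_mem g.2 (M.inv_mem (M.mul_mem (h2 hu) (M.pow_mem h3 i)))
    exact ⟨⟨z, this⟩, hz, ⟨u, h2 hu⟩, hu, i, Subtype.ext e⟩

theorem Hy.tz' {H T : Subgroup (GU 11 F q)} {σ : GU 11 F q} (D : Hy H T σ) :
    TZ ((ZZ F q).subgroupOf H) (T.subgroupOf H) ⟨σ, D.σH⟩ (hp q) := D.toSg.tz D.HS D.TH D.σH

/-- output of the character theory -/
structure Dsh (H : Subgroup (GU 11 F q)) : Prop where
  zero : IsIrrCharacter H (res H (irrOne _))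
  other : ∀ θ : IrrCharacter (ZZ F q), θ ≠ irrOne _ →
    IsIrrCharacter H (res H θ) ∨ IsIrrCharacter H (res H θ - 1)

/-- square matrices of size `q^11` -/
abbrev MM (q : ℕ) : Type := Matrix (Fin (q ^ 11)) (Fin (q ^ 11)) ℂ

/-- the Heisenberg operators -/
structure He (ψ : AddChar F ℂ) (e : (Fin 11 → F) → MM q) : Prop where
  nt : ∃ c : F, c + c ^ q = 0 ∧ ψ c ≠ 1
  zero : e 0 = 1
  mul : ∀ v w, e v * e w = ψ (hermForm 11 F q v w) • e (v + w)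
  tr : ∀ v, v ≠ 0 → (e v).trace = 0

/-- the inverse of `e v` -/
noncomputable def ei (ψ : AddChar F ℂ) (e : (Fin 11 → F) → MM q) (v : Fin 11 → F) : MM q :=
  ψ (hermForm 11 F q v v) • e (-v)

/-- the Weil operators -/
noncomputable def rho (ψ : AddChar F ℂ) (e : (Fin 11 → F) → MM q) (g : GU 11 F q) : MM q :=
  ((-(q : ℂ)) ^ (11 + dd g))⁻¹ • ∑ x : Fin 11 → F, e (g • x) * ei ψ e x

open Classical in
variable (q) in
/-- non-zero vectors of norm `a` -/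
noncomputable def VV (a : F) : Finset (Fin 11 → F) :=
  Finset.univ.filter fun v => v ≠ 0 ∧ hermForm 11 F q v v = a

open Classical in
variable (F q) in
/-- non-isotropic vectors -/
noncomputable def VN : Finset (Fin 11 → F) := Finset.univ.filter fun v => hermForm 11 F q v v ≠ 0

/-- number of orbits of `L` on the non-zero vectors of norm `a` -/
noncomputable def nO (L : Subgroup (GU 11 F q)) (a : F) : ℕ :=
  {O : Set (Fin 11 → F) | ∃ v ∈ VV q a, O = MulAction.orbit L v}.ncard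

/-- `L` is transitive on the non-zero vectors of each norm -/
def Tr (L : Subgroup (GU 11 F q)) : Prop :=
  ∀ v w : Fin 11 → F, v ≠ 0 → w ≠ 0 → hermForm 11 F q v v = hermForm 11 F q w w → ∃ g ∈ L, g • v = w

/-- the functions `φ v = tr (P e_v)`, `φ' v = tr (P e_v⁻¹)` of an `L`-invariant rank one projector -/
structure Ph (L : Subgroup (GU 11 F q)) (φ φ' : (Fin 11 → F) → ℂ) : Prop where
  inv : ∀ g ∈ L, ∀ v, φ (g • v) = φ v
  inv' : ∀ g ∈ L, ∀ v, φ' (g • v) = φ' v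
  iso : ∑ v ∈ VV q (0 : F), φ v * φ' v = (q : ℂ) ^ 10 - 1
  non : ∑ v ∈ VN F q, φ v * φ' v = (q : ℂ) ^ 10 * (q - 1)
  s0 : ∑ v ∈ VV q (0 : F), φ v = (q : ℂ) ^ 10 - 1
  s0' : ∑ v ∈ VV q (0 : F), φ' v = (q : ℂ) ^ 10 - 1
  sa : ∀ a : F, a ≠ 0 → ‖∑ v ∈ VV q a, φ v‖ ≤ (q : ℝ) ^ 11
  sa' : ∀ a : F, a ≠ 0 → ‖∑ v ∈ VV q a, φ' v‖ ≤ (q : ℝ) ^ 11
  two : q = 2 → (∀ v ∈ VV q (1 : F), φ' v = -φ v) ∧ (∑ v ∈ VV q (1 : F), φ v) ^ 2 = -3145728 ∧
    ∃ w : ℂ, w ^ 2 = -3 ∧ ∀ v, ∃ a b : ℚ, φ v = a + b * w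

/-- `g` is the transvection `x ↦ x + c 𝐡(x, u) u` -/
def Tv (g : GU 11 F q) (u : Fin 11 → F) (c : F) : Prop :=
  ∀ x : Fin 11 → F, g • x = x + (c * hermForm 11 F q x u) • u

/-- a totally isotropic `5`-space `E` normalised by `N_L(S)`, `E^⊥ = E ⊕ F v`, `S` transitive on
`v + E` -/
structure Ev (L S : Subgroup (GU 11 F q)) (E : Submodule F (Fin 11 → F)) (v : Fin 11 → F) : Prop where
  rk : Module.finrank F E = 5
  ti : ∀ x ∈ E, ∀ y ∈ E, hermForm 11 F q x y = 0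
  nv : hermForm 11 F q v v ≠ 0
  ov : ∀ x ∈ E, hermForm 11 F q x v = 0
  perp : ∀ y, (∀ x ∈ E, hermForm 11 F q y x = 0) → ∃ c : F, ∃ x ∈ E, y = c • v + x
  nrm : ∀ g ∈ L, (∀ s, s ∈ S ↔ g * s * g⁻¹ ∈ S) → ∀ x ∈ E, g • x ∈ E
  mv : ∀ s ∈ S, s • v - v ∈ E
  tr : ∀ x ∈ E, ∃ s ∈ S, s • v = v + x

end Cfsg.Agent.U11
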