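import Cfsg.Agent.U11.Bas
import Cfsg.Agent.PLocal.AmbSyl

/-!
# The local step for `SU_11(q)`: definitions

`Af`: a finite `p`-group `G` acting faithfully and linearly on a `5`-space `E` with a surjective
cocycle `δ` (an affine transitive group without translations).  `Hf`: an invariant non-degenerate
hermitian form on an invariant subspace `W`.  `U6`: the coordinates of `Af` in a basis
`x, y, w, c, a` adapted to an invariant flag:
`g y = y + α x`, `g w = w + β y + ρ x`, `g c = c + χw w + χy y + χx x`,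
`g a = a + t c + πw w + πy y + πx x`, `δ g = da a + dc c + dw w + dy y + dx x`.
-/

set_option autoImplicit false
set_option linter.unusedSectionVars false

namespace Cfsg.Agent.U11

open Cfsg.Agent.Class.U Cfsg.Agent.Char

section abstract

/-- an affine transitive `p`-group without translations -/
structure Af (F : Type*) {G E : Type*} [Field F] [Group G] [AddCommGroup E] [Module F E]
    [DistribMulAction G E] (p : ℕ) (δ : G → E) : Prop where
  rk : Module.finrank F E = 5
  pg : IsPGroup p G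
  coc : ∀ s t, δ (s * t) = δ s + s • δ t
  sur : Function.Surjective δ
  fai : ∀ s : G, (∀ x : E, s • x = x) → s = 1

/-- `ψ` is sesquilinear on `E`, and hermitian, non-degenerate and `G`-invariant on `W` -/
structure Hf (q : ℕ) (G : Type*) {F E : Type*} [Field F] [Group G] [AddCommGroup E] [Module F E]
    [DistribMulAction G E] (W : Submodule F E) (ψ : E → E → F) : Prop where
  addl : ∀ a b c, ψ (a + b) c = ψ a c + ψ b c
  smull : ∀ (k : F) a b, ψ (k • a) b = k * ψ a b
  addr : ∀ a b c, ψ a (b + c) = ψ a b + ψ a c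
  smulr : ∀ (k : F) a b, ψ a (k • b) = k ^ q * ψ a b
  herm : ∀ a ∈ W, ∀ b ∈ W, ψ b a = ψ a b ^ q
  nd : ∀ a ∈ W, (∀ b ∈ W, ψ a b = 0) → a = 0
  invW : ∀ g : G, ∀ a ∈ W, g • a ∈ W
  inv : ∀ g : G, ∀ a ∈ W, ∀ b ∈ W, ψ (g • a) (g • b) = ψ a b

/-- the orthogonal complement of `U` inside `W` -/
def Hf.pp {q : ℕ} {G F E : Type*} [Field F] [Group G] [AddCommGroup E] [Module F E]
    [DistribMulAction G E] {W : Submodule F E} {ψ : E → E → F} (H : Hf q G W ψ) (U : Submodule F E) :
    Submodule F E where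
  carrier := {y | y ∈ W ∧ ∀ u ∈ U, ψ y u = 0}
  add_mem' {a b} ha hb := ⟨W.add_mem ha.1 hb.1, fun u hu => by rw [H.addl, ha.2 u hu, hb.2 u hu, add_zero]⟩
  zero_mem' := ⟨W.zero_mem, fun u _ => by simpa using H.smull 0 0 u⟩
  smul_mem' c a ha := ⟨W.smul_mem c ha.1, fun u hu => by rw [H.smull, ha.2 u hu, mul_zero]⟩

theorem Hf.mem_pp {q : ℕ} {G F E : Type*} [Field F] [Group G] [AddCommGroup E] [Module F E]
    [DistribMulAction G E] {W : Submodule F E} {ψ : E → E → F} (H : Hf q G W ψ) {U : Submodule F E}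
    {y : E} : y ∈ H.pp U ↔ y ∈ W ∧ ∀ u ∈ U, ψ y u = 0 := Iff.rfl

/-- the fixed space of `G` is the line `F x` -/
structure Fx (F G : Type*) {E : Type*} [Field F] [Group G] [AddCommGroup E] [Module F E]
    [DistribMulAction G E] (x : E) : Prop where
  ne : x ≠ 0
  fix : ∀ g : G, g • x = x
  uniq : ∀ y : E, (∀ g : G, g • y = y) → ∃ k : F, y = k • x

/-- the fixed space -/
def fixS (F G E : Type*) [Field F] [Group G] [AddCommGroup E] [Module F E]
    [DistribMulAction G E] [SMulCommClass G F E] : Submodule F E where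
  carrier := {y | ∀ g : G, g • y = y}
  add_mem' {a b} ha hb g := by rw [smul_add, ha g, hb g]
  zero_mem' g := smul_zero g
  smul_mem' c a ha g := by rw [smul_comm, ha g]

theorem mem_fixS {F G E : Type*} [Field F] [Group G] [AddCommGroup E] [Module F E]
    [DistribMulAction G E] [SMulCommClass G F E] {y : E} : y ∈ fixS F G E ↔ ∀ g : G, g • y = y := Iff.rfl

/-- the pointwise stabiliser of `W` -/
def ptS (G : Type*) {F E : Type*} [Field F] [Group G] [AddCommGroup E] [Module F E]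
    [DistribMulAction G E] (W : Submodule F E) : Subgroup G where
  carrier := {g | ∀ y ∈ W, g • y = y}
  one_mem' y _ := one_smul G y
  mul_mem' {a b} ha hb y hy := by rw [mul_smul, hb y hy, ha y hy]
  inv_mem' {a} ha y hy := by rw [inv_smul_eq_iff, ha y hy]

theorem mem_ptS {G F E : Type*} [Field F] [Group G] [AddCommGroup E] [Module F E]
    [DistribMulAction G E] {W : Submodule F E} {g : G} : g ∈ ptS G W ↔ ∀ y ∈ W, g • y = y := Iff.rfl

/-- coordinates of an affine transitive unipotent group of dimension `5` -/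
structure U6 (F G : Type*) [Field F] [Group G] where
  (α β ρ χw χy χx t πw πy πx da dc dw dy dx : G → F)
  mα : ∀ g h, α (g * h) = α g + α h
  mβ : ∀ g h, β (g * h) = β g + β h
  mρ : ∀ g h, ρ (g * h) = ρ g + ρ h + α g * β h
  mχw : ∀ g h, χw (g * h) = χw g + χw h
  mχy : ∀ g h, χy (g * h) = χy g + χy h + β g * χw h
  mχx : ∀ g h, χx (g * h) = χx g + χx h + ρ g * χw h + α g * χy h
  mt : ∀ g h, t (g * h) = t g + t h
  mπw : ∀ g h, πw (g * h) = πw g + πw h + χw g * t h
  mπy : ∀ g h, πy (g * h) = πy g + πy h + χy g * t h + β g * πw h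
  mπx : ∀ g h, πx (g * h) = πx g + πx h + χx g * t h + ρ g * πw h + α g * πy h
  mda : ∀ g h, da (g * h) = da g + da h
  mdc : ∀ g h, dc (g * h) = dc g + dc h + t g * da h
  mdw : ∀ g h, dw (g * h) = dw g + dw h + χw g * dc h + πw g * da h
  mdy : ∀ g h, dy (g * h) = dy g + dy h + β g * dw h + χy g * dc h + πy g * da h
  mdx : ∀ g h, dx (g * h) = dx g + dx h + α g * dy h + ρ g * dw h + χx g * dc h + πx g * da h
  ext : ∀ g h, α g = α h → β g = β h → ρ g = ρ h → χw g = χw h → χy g = χy h → χx g = χx h →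
    t g = t h → πw g = πw h → πy g = πy h → πx g = πx h → g = h
  sur : ∀ a c w y x : F, ∃ g, da g = a ∧ dc g = c ∧ dw g = w ∧ dy g = y ∧ dx g = x

/-- the traces of an invariant hermitian form on `⟨x, y, w⟩` -/
structure U6.Hm {F G : Type*} [Field F] [Group G] (D : U6 F G) (q : ℕ) (c0 κ : F) : Prop where
  hc : c0 ≠ 0
  hκ : κ ≠ 0
  hβ : ∀ g, D.β g = c0 * D.α g ^ q
  hρ : ∀ g, D.α g = 0 → D.ρ g * κ + (D.ρ g * κ) ^ q = 0

/-- the data common to the two halves of the case `dim W = 4` -/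
structure K4S (q : ℕ) {F G E : Type*} [Field F] [Group G] [AddCommGroup E] [Module F E]
    [DistribMulAction G E] (δ : G → E) (W : Submodule F E) (ψ : E → E → F) (x a e : E) (l : G → F) :
    Prop where
  rk : Module.finrank F W = 4
  xW : x ∈ W
  xx : ψ x x = 0
  aW : a ∉ W
  top : ∀ y : E, ∃ k : F, y - k • a ∈ W
  mva : ∀ g : G, g • a - a ∈ W
  hl : ∀ g, δ g - l g • a ∈ W
  ladd : ∀ g h, l (g * h) = l g + l h
  lsur : Function.Surjective l
  l0 : ∀ g ∈ ptS G W, l g = 0
  big : q ^ 3 ≤ Nat.card (ptS G W)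
  eW : e ∈ W
  ex : ψ e x = 0
  he : ∀ h : G, h • e = e + l h • x

end abstract

variable {F : Type*} [Field F] [Fintype F] {q : ℕ} [UF F q]

/-- the linear group induced by `S` on `E` -/
def EG (S : Subgroup (GU 11 F q)) (E : Submodule F (Fin 11 → F)) : Subgroup (E ≃ₗ[F] E) where
  carrier := {φ | ∃ s ∈ S, ∀ x : E, (φ x : Fin 11 → F) = s • (x : Fin 11 → F)}
  one_mem' := ⟨1, one_mem _, fun x => by simp⟩
  mul_mem' := by
    rintro a b ⟨s, hs, h⟩ ⟨t, ht, k⟩
    exact ⟨s * t, mul_mem hs ht, fun x => by rw [LinearEquiv.mul_apply, h, k, mul_smul]⟩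
  inv_mem' := by
    rintro a ⟨s, hs, h⟩
    refine ⟨s⁻¹, inv_mem hs, fun x => ?_⟩
    rw [eq_inv_smul_iff, ← h]
    exact congrArg _ (a.apply_symm_apply x)

/-- `φ` is induced by `s` -/
def Ind {S : Subgroup (GU 11 F q)} {E : Submodule F (Fin 11 → F)} (φ : EG S E) (s : GU 11 F q) : Prop :=
  ∀ x : E, ((φ • x : E) : Fin 11 → F) = s • (x : Fin 11 → F)

/-- the linear map `g - 1` -/
def nm (g : GU 11 F q) : (Fin 11 → F) →ₗ[F] (Fin 11 → F) where
  toFun y := g • y - y
  map_add' a b := by rw [smul_add]; abel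
  map_smul' c a := by rw [GU_smul_comm, smul_sub]; rfl

theorem nm_apply (g : GU 11 F q) (y : Fin 11 → F) : nm g y = g • y - y := rfl

/-- `g` fixes `E^⊥ = E ⊕ F v` pointwise -/
def Kq (E : Submodule F (Fin 11 → F)) (v : Fin 11 → F) (g : GU 11 F q) : Prop :=
  (∀ x ∈ E, g • x = x) ∧ g • v = v

/-- `L` contains no transvection -/
def NoTv (L : Subgroup (GU 11 F q)) : Prop :=
  ∀ g ∈ L, ∀ u c, u ≠ 0 → hermForm 11 F q u u = 0 → c ≠ 0 → ¬ Tv g u c

/-- `b ∈ L` fixes `x` and acts trivially on `x^⊥ / F x` -/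
def Ax (L : Subgroup (GU 11 F q)) (x : Fin 11 → F) (b : GU 11 F q) : Prop :=
  b ∈ L ∧ b • x = x ∧ ∀ y, hermForm 11 F q y x = 0 → ∃ c : F, b • y = y + c • x

/-- the span of the images of `b - 1`, `b ∈ A(x)` -/
def Ut (L : Subgroup (GU 11 F q)) (x : Fin 11 → F) : Submodule F (Fin 11 → F) :=
  Submodule.span F {w | ∃ b, Ax L x b ∧ ∃ y, w = b • y - y}

/-- closed subspaces -/
def Cl (L : Subgroup (GU 11 F q)) (U : Submodule F (Fin 11 → F)) : Prop :=
  ∀ x ∈ U, x ≠ 0 → hermForm 11 F q x x = 0 → Ut L x ≤ U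

/-- the least closed subspace containing `x` -/
def Um (L : Subgroup (GU 11 F q)) (x : Fin 11 → F) : Submodule F (Fin 11 → F) :=
  sInf {U | Cl L U ∧ x ∈ U}

variable (q) in
/-- the orthogonal complement -/
def pp (W : Submodule F (Fin 11 → F)) : Submodule F (Fin 11 → F) where
  carrier := {y | ∀ w ∈ W, hermForm 11 F q y w = 0}
  add_mem' {a b} ha hb w hw := by rw [herm_add_left, ha w hw, hb w hw, add_zero]
  zero_mem' w _ := herm_zero_left w
  smul_mem' c a ha w hw := by rw [herm_smul_left, ha w hw, mul_zero]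

theorem mem_pp {W : Submodule F (Fin 11 → F)} {y : Fin 11 → F} :
    y ∈ pp q W ↔ ∀ w ∈ W, hermForm 11 F q y w = 0 := Iff.rfl

end Cfsg.Agent.U11
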