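import Cfsg.Agent.U11.Defs

/-!
# Gauss sums
-/

set_option autoImplicit false
set_option linter.unusedSectionVars false

namespace Cfsg.Agent.U11

open Cfsg.Agent.Class.U Cfsg.Agent.Char
open scoped ComplexConjugate

variable {F : Type*} [Field F] [Fintype F] {q : ℕ} [UF F q]

theorem gs_shift {α : Type*} (s : Finset α) (f : α → ℂ) (e : α ≃ α) (he : ∀ x, x ∈ s ↔ e x ∈ s)
    {z : ℂ} (hz : z ≠ 1) (h : ∀ x, f (e x) = z * f x) : ∑ x ∈ s, f x = 0 := by
  have := Finset.sum_equiv e he (f := fun x => z * f x) (g := f) fun x _ => (h x).symm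
  rw [← Finset.mul_sum] at this
  exact (mul_left_eq_self₀.1 this).resolve_left hz

theorem gs_neg {c : F} (hc : c + c ^ q = 0) : Class.U.conj F q c = -c := eq_neg_of_add_eq_zero_right hc

theorem gs_card : (Fintype.card F : ℂ) = (q : ℂ) ^ 2 := by
  rw [← Nat.card_eq_fintype_card, UF.card_eq (q := q), Nat.cast_pow]

/-- one variable: for `c ≠ 0`, `c + c^q = 0`: `∑_x ψ (c x x^q) = 1 + (q+1) ∑_{a ∈ F_q^*} ψ (c a)`
(`card_norm_fiber`), and `a ↦ c a` is a bijection from `{a | a^q = a}` onto the additive subgroup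
`{t | t + t^q = 0}` on which `ψ` is non-trivial, so `∑_{a ∈ F_q} ψ (c a) = 0`; total
`1 - (q + 1) = -q`. -/
theorem gauss_one {ψ : AddChar F ℂ} (hψ : ∃ c : F, c + c ^ q = 0 ∧ ψ c ≠ 1) {c : F} (h0 : c ≠ 0)
    (hc : c + c ^ q = 0) : ∑ x : F, ψ (c * (x * x ^ q)) = -(q : ℂ) := by
  classical
  obtain ⟨d, hd, h1⟩ := hψ
  have k : Class.U.conj F q (d / c) = d / c := by rw [map_div₀, gs_neg hd, gs_neg hc, neg_div_neg_eq]
  have z : ∑ a ∈ Finset.univ.filter (fun a : F => Class.U.conj F q a = a), ψ (c * a) = 0 :=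
    gs_shift _ _ (Equiv.addRight (d / c)) (fun x => by simp [k]) h1 fun x => by
      rw [Equiv.coe_addRight, mul_add, mul_div_cancel₀ _ h0, AddChar.map_add_eq_mul, mul_comm]
  rw [← Finset.sum_fiberwise_of_maps_to' (t := Finset.univ.filter fun a : F => Class.U.conj F q a = a)
    (g := fun x : F => x * x ^ q) (fun x _ => by
      rw [Finset.mem_filter, ← conj_apply, map_mul, conj_conj]
      exact ⟨Finset.mem_univ _, mul_comm _ _⟩) fun a => ψ (c * a),
    Finset.sum_congr rfl (g := fun a => (q + 1 : ℂ) * ψ (c * a) - if a = 0 then (q : ℂ) else 0),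
    Finset.sum_sub_distrib, ← Finset.mul_sum, z, Finset.sum_ite_eq']
  · simp
  intro a ha
  rw [Finset.sum_const, nsmul_eq_mul]
  split_ifs with e
  · have : (Finset.univ.filter fun x : F => x * x ^ q = a) = {0} := by
      ext x
      simp +contextual [e]
    rw [this, e]
    simp
  · have := card_norm_fiber e (Finset.mem_filter.1 ha).2
    rw [Nat.subtype_card (Finset.univ.filter fun x : F => x * x ^ q = a) (by simp [conj_apply])] at this
    rw [this, sub_zero, Nat.cast_add_one]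

/-- `∑_{t + t^q = 0} ψ (a t) = 0` for `0 ≠ a ∈ F_q`, and the same over any coset
`{γ | γ + γ^q = b}` -/
theorem sum_coset {ψ : AddChar F ℂ} (hψ : ∃ c : F, c + c ^ q = 0 ∧ ψ c ≠ 1) {a : F} (h0 : a ≠ 0)
    (ha : a ^ q = a) (b : F) [DecidablePred fun γ : F => γ + γ ^ q = b] :
    ∑ γ ∈ Finset.univ.filter (fun γ : F => γ + γ ^ q = b), ψ (γ * a) = 0 := by
  obtain ⟨d, hd, h1⟩ := hψ
  refine gs_shift _ _ (Equiv.addRight (d / a)) (fun x => ?_) h1 fun x => by
    rw [Equiv.coe_addRight, add_mul, div_mul_cancel₀ _ h0, AddChar.map_add_eq_mul, mul_comm]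
  have : x + d / a + (x + d / a) ^ q = x + x ^ q := by
    rw [add_pow_q, div_pow, ha, ← conj_apply d, gs_neg hd]
    ring
  simp only [Finset.mem_filter, Finset.mem_univ, true_and, Equiv.coe_addRight, this]

/-- Gauss sums of skew-hermitian forms.  Induction on `finrank P`.  If `B p p = 0` for all `p`
the sum is `|P| = (q²)^n = (-q)^(2n)`.  Otherwise take `p₀` with `c = B p₀ p₀ ≠ 0`
(`c + c^q = 0`), `P' = {p | B p p₀ = 0}` (kernel of a non-zero functional), every `p` is uniquely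
`x • p₀ + p'`, `B p p = c x x^q + B p' p'` (sesquilinearity on the right follows from `hs`), so
the sum is `(-q)` times the sum over `P'` (`gauss_one`). -/
theorem gauss {ψ : AddChar F ℂ} (hψ : ∃ c : F, c + c ^ q = 0 ∧ ψ c ≠ 1) (P : Type*)
    [AddCommGroup P] [Module F P] [Fintype P] (B : P → P → F)
    (ha : ∀ x y z, B (x + y) z = B x z + B y z) (hm : ∀ (c : F) x y, B (c • x) y = c * B x y)
    (hs : ∀ x y, B y x = -(B x y) ^ q) : ∃ j : ℕ, ∑ p : P, ψ (B p p) = (-(q : ℂ)) ^ j := by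
  classical
  induction hn : Fintype.card P using Nat.strong_induction_on generalizing P with
  | _ n ih =>
  by_cases h : ∀ p, B p p = 0
  · refine ⟨2 * Module.finrank F P, ?_⟩
    simp only [h, AddChar.map_zero_eq_one, Finset.sum_const, Finset.card_univ, nsmul_eq_mul, mul_one]
    rw [Module.card_eq_pow_finrank (K := F), Nat.cast_pow, gs_card (q := q), pow_mul, neg_sq]
  obtain ⟨p, hp⟩ := not_forall.1 h
  let l : P →ₗ[F] F := ⟨⟨fun x => B x p, fun x y => ha x y p⟩, fun c x => hm c x p⟩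
  have hl : l p ≠ 0 := hp
  have hr : ∀ y x p', B y (x • p + p') = x ^ q * B y p + B y p' := fun y x p' => by
    rw [hs, ha, hm, add_pow_q, mul_pow, hs p y, hs p' y]
    ring
  let e : F × LinearMap.ker l ≃ P :=
    { toFun := fun x => x.1 • p + x.2
      invFun := fun y => (l y / l p, ⟨y - (l y / l p) • p, by
        rw [LinearMap.mem_ker, map_sub, map_smul, smul_eq_mul, div_mul_cancel₀ _ hl, sub_self]⟩)
      left_inv := fun x => by
        have : l (x.1 • p + x.2) / l p = x.1 := by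
          rw [map_add, map_smul, x.2.2, add_zero, smul_eq_mul, mul_div_cancel_right₀ _ hl]
        exact Prod.ext this (Subtype.ext (by simp only [this, add_sub_cancel_left]))
      right_inv := fun y => add_sub_cancel _ _ }
  obtain ⟨j, hj⟩ := ih _ (hn ▸ Fintype.card_subtype_lt (p := (· ∈ LinearMap.ker l)) (x := p) hp) (LinearMap.ker l)
    (fun x y => B x y) (fun x y z => ha x y z) (fun c x y => hm c x y) (fun x y => hs x y) rfl
  refine ⟨j + 1, ?_⟩
  rw [pow_succ', ← hj, ← gauss_one hψ hp (by linear_combination hs p p), Finset.sum_mul_sum, ← e.sum_comp,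
    Fintype.sum_prod_type]
  refine Finset.sum_congr rfl fun x _ => Finset.sum_congr rfl fun y _ => ?_
  have k : B y p = 0 := y.2
  have k' : B p y = 0 := by rw [hs, k, ← conj_apply, map_zero, neg_zero]
  rw [← AddChar.map_add_eq_mul]
  change ψ (B (x • p + y) (x • p + y)) = _
  rw [ha, hm, hr, hr, k, k']
  congr 1
  ring

/-- the standard form: `∑_v ψ (c 𝐡(v,v)) = ∏_i ∑_x ψ (c x x^q) = (-q)^11`
(`Finset.prod_univ_sum`, `AddChar.map_sum`-type lemma) -/
theorem gauss_std {ψ : AddChar F ℂ} (hψ : ∃ c : F, c + c ^ q = 0 ∧ ψ c ≠ 1) {c : F} (h0 : c ≠ 0)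
    (hc : c + c ^ q = 0) : ∑ v : Fin 11 → F, ψ (c * hermForm 11 F q v v) = -(q : ℂ) ^ 11 := by
  classical
  have k : ∀ (s : Finset (Fin 11)) (f : Fin 11 → F), ψ (∑ i ∈ s, f i) = ∏ i ∈ s, ψ (f i) := fun s f => by
    induction s using Finset.induction_on with
    | empty => simp
    | insert a s h ih => rw [Finset.sum_insert h, Finset.prod_insert h, AddChar.map_add_eq_mul, ih]
  have := Finset.prod_univ_sum (fun _ : Fin 11 => (Finset.univ : Finset F)) fun _ x => ψ (c * (x * x ^ q))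
  rw [Fintype.piFinset_univ] at this
  simp only [hermForm, Finset.mul_sum, k]
  rw [← this, gauss_one hψ h0 hc, Finset.prod_const, Finset.card_univ, Fintype.card_fin]
  ring

open Classical in
/-- orthogonality: for `w ≠ 0`, `v ↦ ψ (𝐡(v,w) - 𝐡(w,v))` is a non-trivial additive character
(`𝐡(v,w)` takes every value `s`, `s - s^q` every value of trace zero: `exists_conj_sub_eq`) -/
theorem sum_pair {ψ : AddChar F ℂ} (hψ : ∃ c : F, c + c ^ q = 0 ∧ ψ c ≠ 1) (w : Fin 11 → F) :
    ∑ v : Fin 11 → F, ψ (hermForm 11 F q v w - hermForm 11 F q w v) =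
      if w = 0 then (q : ℂ) ^ 22 else 0 := by
  split_ifs with h
  · simp only [h, herm_zero_left, herm_zero_right, sub_self, AddChar.map_zero_eq_one, Finset.sum_const,
      Finset.card_univ, nsmul_eq_mul, mul_one, Fintype.card_fun, Fintype.card_fin, Nat.cast_pow, gs_card (q := q)]
    ring
  obtain ⟨d, hd, h1⟩ := hψ
  obtain ⟨s, hs⟩ := exists_conj_sub_eq (q := q) hd
  obtain ⟨i, hi⟩ := Function.ne_iff.1 h
  obtain ⟨u, hu⟩ : ∃ u, hermForm 11 F q u w = -s := ⟨(-s / w i ^ q) • Pi.single i 1, by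
    rw [herm_smul_left, herm_single_left, div_mul_cancel₀ _ (pow_ne_zero _ hi)]⟩
  refine gs_shift _ _ (Equiv.addRight u) (by simp) h1 fun v => ?_
  rw [Equiv.coe_addRight, herm_add_left, herm_add_right, ← herm_conj u w, hu, map_neg, ← AddChar.map_add_eq_mul, ← hs]
  congr 1
  ring

open Classical in
theorem gs_ind {ψ : AddChar F ℂ} (hψ : ∃ c : F, c + c ^ q = 0 ∧ ψ c ≠ 1) {a : F} (ha : a ^ q = a) :
    ∑ γ ∈ Finset.univ.filter (fun γ : F => γ + γ ^ q = 0), ψ (γ * a) = if a = 0 then (q : ℂ) else 0 := by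
  split_ifs with h
  · have := card_trace_fiber (F := F) (q := q) (map_zero _)
    rw [Nat.subtype_card (Finset.univ.filter fun x : F => x + x ^ q = 0) (by simp [conj_apply])] at this
    simp [h, this]
  · exact sum_coset hψ h ha 0

open Classical in
/-- Fourier transform of the isotropic cone.  `q · [𝐡(v,v) = 0] = ∑_{c + c^q = 0} ψ (c 𝐡(v,v))`
(`sum_coset`, `card_trace_fiber`).  For `c ≠ 0` complete the square: with `u = (c⁻¹) • w`…,
`c 𝐡(v+u, v+u) = c 𝐡(v,v) + c 𝐡(v,u) + c 𝐡(u,v) + c 𝐡(u,u)`; for `u = -(c⁻¹) • w` one has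
`c 𝐡(v,u) = 𝐡(v,w)` (as `c^q = -c`), `c 𝐡(u,v) = -𝐡(w,v)`, `c 𝐡(u,u) = -c⁻¹ 𝐡(w,w)`; so the
`c`-term is `-q^11 ψ (c⁻¹ 𝐡(w,w))` (`gauss_std`), and `c ↦ c⁻¹` permutes the non-zero elements of
trace zero; the term `c = 0` is `sum_pair`. -/
theorem ft_cone {ψ : AddChar F ℂ} (hψ : ∃ c : F, c + c ^ q = 0 ∧ ψ c ≠ 1) (w : Fin 11 → F) :
    ∑ v ∈ Finset.univ.filter (fun v : Fin 11 → F => hermForm 11 F q v v = 0),
      ψ (hermForm 11 F q v w - hermForm 11 F q w v) =
      if w = 0 then (q : ℂ) ^ 21 - q ^ 11 + q ^ 10 else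
        if hermForm 11 F q w w = 0 then (q : ℂ) ^ 10 - q ^ 11 else (q : ℂ) ^ 10 := by
  have q0 : (q : ℂ) ≠ 0 := Nat.cast_ne_zero.2 (by have := two_le_q F q; omega)
  have t : ∀ c ∈ Finset.univ.filter (fun γ : F => γ + γ ^ q = 0),
      ∑ v : Fin 11 → F, ψ (c * hermForm 11 F q v v) * ψ (hermForm 11 F q v w - hermForm 11 F q w v) =
        -(q : ℂ) ^ 11 * ψ (c⁻¹ * hermForm 11 F q w w) +
          if c = 0 then (if w = 0 then (q : ℂ) ^ 22 else 0) + q ^ 11 else 0 := fun c hc => by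
    have hc := (Finset.mem_filter.1 hc).2
    by_cases h : c = 0
    · simp only [h, zero_mul, inv_zero, AddChar.map_zero_eq_one, one_mul, sum_pair hψ w, if_true]
      ring
    rw [if_neg h, add_zero, ← gauss_std hψ h hc, Finset.sum_mul, ← Equiv.sum_comp (Equiv.addRight (-c⁻¹ • w))
      fun v => ψ (c * hermForm 11 F q v v) * ψ (c⁻¹ * hermForm 11 F q w w)]
    refine Finset.sum_congr rfl fun v _ => ?_
    rw [← AddChar.map_add_eq_mul, ← AddChar.map_add_eq_mul, Equiv.coe_addRight]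
    simp only [herm_add_left, herm_add_right, herm_smul_left, herm_smul_right, map_neg, map_inv₀, gs_neg hc]
    congr 1
    field_simp
    ring
  have i : ∑ c ∈ Finset.univ.filter (fun γ : F => γ + γ ^ q = 0), ψ (c⁻¹ * hermForm 11 F q w w) =
      if hermForm 11 F q w w = 0 then (q : ℂ) else 0 := by
    rw [← gs_ind hψ (herm_conj w w)]
    have k : ∀ c : F, c + c ^ q = 0 → c⁻¹ + c⁻¹ ^ q = 0 := fun c hc => by
      rw [← conj_apply, map_inv₀, gs_neg hc, inv_neg, add_neg_cancel]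
    exact Finset.sum_equiv (Equiv.inv F) (fun c => by
      simpa using ⟨fun h => by simpa using k c h, fun h => by simpa using k c⁻¹ (by simpa using h)⟩) fun _ _ => rfl
  have s := Finset.sum_congr rfl t
  have m : (0 : F) ∈ Finset.univ.filter (fun γ : F => γ + γ ^ q = 0) := by simp [Nat.cast_ne_zero.1 q0]
  rw [Finset.sum_comm, Finset.sum_add_distrib, ← Finset.mul_sum, i, Finset.sum_ite_eq', if_pos m] at s
  simp only [← Finset.sum_mul, gs_ind hψ (herm_conj _ _), ite_mul, zero_mul] at s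
  rw [← Finset.sum_filter, ← Finset.mul_sum] at s
  refine mul_left_cancel₀ q0 (s.trans ?_)
  by_cases h : w = 0
  · simp only [h, herm_zero_left, if_true]
    ring
  · simp only [h, if_false]
    split_ifs <;> ring

end Cfsg.Agent.U11
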