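import Cfsg.Agent.U11.TA
import Cfsg.Agent.U11.Bas
import Cfsg.Agent.Char.Ito

/-!
# The moment argument
-/

set_option autoImplicit false
set_option linter.unusedSectionVars false

namespace Cfsg.Agent.U11

open Cfsg.Agent.Class.U Cfsg.Agent.Char
open scoped ComplexConjugate

variable {F : Type*} [Field F] [Fintype F] {q : ℕ} [UF F q]

theorem J2.nn {r : ℝ} (h : 1 ≤ r) (d : ℕ) : 0 ≤ (-(-r) ^ d - r) * (-(-r) ^ d - r ^ 3) := by
  rcases Nat.even_or_odd d with e | e
  · rw [e.neg_pow, ← neg_add', ← neg_add', neg_mul_neg]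
    positivity
  rw [e.neg_pow, neg_neg]
  obtain ⟨k, rfl⟩ := e
  rcases k with _ | k
  · simp
  · exact mul_nonneg (sub_nonneg.2 (le_self_pow₀ h (by omega))) (sub_nonneg.2 (pow_le_pow_right₀ h (by omega)))

theorem J2.num {q h n : ℕ} (hq : 3 ≤ q) (hh : 546 ≤ h) (hn : n ≤ (q + 1) * (q + 1))
    (e : h * ((q + 1) * (q ^ 3 + 1)) ≤ 11 * (h + 1) * n) : q = 3 ∧ 11 ≤ n := by
  rcases hq.eq_or_lt with rfl | k
  · exact ⟨rfl, by nlinarith⟩
  have h1 : 13 * (q + 1) ≤ q ^ 3 + 1 := by nlinarith [Nat.mul_le_mul k k]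
  have h2 := (Nat.mul_le_mul_left h (Nat.mul_le_mul_left (q + 1) h1)).trans (e.trans (Nat.mul_le_mul_left _ hn))
  rw [mul_left_comm (q + 1), ← mul_assoc] at h2
  have := Nat.le_of_mul_le_mul_right h2 (by positivity)
  omega

theorem J2.part {α β : Type*} [Fintype α] [DecidableEq β] (h4 : Fintype.card α = 4) (χ : α → β)
    (h : 11 ≤ (Finset.univ.filter fun p : α × α => χ p.1 = χ p.2).card) (a b : α) : χ a = χ b := by
  classical
  by_contra n
  let A := Finset.univ.filter fun x => χ x = χ a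
  have c := Finset.card_filter_add_card_filter_not (s := Finset.univ) fun x => χ x = χ a
  have p1 := Finset.card_pos.2 ⟨a, (Finset.mem_filter (p := fun x => χ x = χ a)).2 ⟨Finset.mem_univ _, rfl⟩⟩
  have p2 := Finset.card_pos.2 ⟨b, (Finset.mem_filter (p := fun x => ¬ χ x = χ a)).2 ⟨Finset.mem_univ _, Ne.symm n⟩⟩
  have l := (Finset.card_le_card (t := (Finset.univ.filter fun x => χ x = χ a) ×ˢ (Finset.univ.filter fun x => χ x = χ a) ∪
    (Finset.univ.filter fun x => ¬ χ x = χ a) ×ˢ (Finset.univ.filter fun x => ¬ χ x = χ a))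
      (s := Finset.univ.filter fun p : α × α => χ p.1 = χ p.2) fun p hp => by
        have := (Finset.mem_filter.1 hp).2
        simp [this, em]).trans (Finset.card_union_le _ _)
  rw [Finset.card_product, Finset.card_product] at l
  rw [Finset.card_univ, h4] at c
  generalize (Finset.univ.filter fun x => χ x = χ a).card = u at *
  generalize (Finset.univ.filter fun x => ¬ χ x = χ a).card = v at *
  have : u = 1 ∧ v = 3 ∨ u = 2 ∧ v = 2 ∨ u = 3 ∧ v = 1 := by omega
  rcases this with ⟨rfl, rfl⟩ | ⟨rfl, rfl⟩ | ⟨rfl, rfl⟩ <;> omega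

/-- Put `χ_θ = res θ - 1` (`θ ≠ 1`), `χ_1 = res 1`: `q + 1` irreducible characters of degree
`hh q - 1 > 1` (`omt_one`), so orthogonal to `1`; `om|_H = q · 1 + ∑ χ_θ` (`sum_omt`,
`card_irr_ZZ`).  Let `n = ∑_{θ,θ'} ⟨χ_θ, χ_θ'⟩ ≤ (q+1)²` (each term `0` or `1`).  The class
function `f = (om - q)(om - q³)` is real and `≥ 0` (`om = -(-q)^d` is never strictly between
`q` and `q³`), has mean `(q² + n) - (q + q³) q + q⁴ = n` and equals `(q+1)(q³+1)` at `z s`,
`1 ≠ s ∈ T` (`Sg.dd_zs`).  `TZ.bound` for `D.tz'`: `(h-1)(q+1)(q³+1) ≤ 11 h n`, `h = hp q ≥ 547`.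
`q ≥ 4`: `q³ + 1 ≥ 13 (q+1)`, contradiction.  `q = 3`: `n ≥ 11`, so
all `χ_θ` are equal to one `χ` of even degree, which divides `|H|`
(`IsIrrCharacter.deg_dvd_card`); take an involution `t ∈ H` and the scalar `z = -1 ≠ 1`:
`om (z t) = ∑_θ θ(z) omt θ t = (χ t + 1) ∑_θ θ(z) - 1 = -1` (`omt_mul`, `sum_omt`), so
`dd (z t) = 0`; but `z t` fixes `t x - x ≠ 0`. -/
theorem Hy.not_all {H T : Subgroup (GU 11 F q)} {σ : GU 11 F q} (D : Hy H T σ) (hq : 3 ≤ q)
    (h0 : IsIrrCharacter H (res H (irrOne _)))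
    (h1 : ∀ θ : IrrCharacter (ZZ F q), θ ≠ irrOne _ → IsIrrCharacter H (res H θ - 1)) : False := by
  classical
  obtain ⟨χ, hχ⟩ : ∃ χ : IrrCharacter (ZZ F q) → IrrCharacter H, ∀ θ (g : H),
      omt θ g = (χ θ : H → ℂ) g + (1 - if θ = irrOne _ then 1 else 0) := by
    refine ⟨fun θ => if h : θ = irrOne _ then ⟨_, h0⟩ else ⟨_, h1 θ h⟩, fun θ g => ?_⟩
    by_cases h : θ = irrOne _ <;> simp [h, res]
  have dg : ∀ θ, (χ θ : H → ℂ) 1 = (hh q - 1 : ℕ) := fun θ => by
    have := hχ θ 1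
    rw [OneMemClass.coe_one, omt_one] at this
    rw [Nat.cast_sub (show 1 ≤ hh q from Nat.le_add_left _ _), Nat.cast_one]
    linear_combination -this
  have big : 44287 ≤ hh q := hh_mono hq
  have ne : ∀ θ, χ θ ≠ irrOne _ := fun θ e => by
    have := dg θ
    rw [e, irrOne_apply, eq_comm, Nat.cast_eq_one] at this
    omega
  have so : ∀ g : H, om (g : GU 11 F q) - q = (∑ θ, (χ θ : H → ℂ)) g := fun g => by
    simp only [← sum_omt, hχ, Finset.sum_add_distrib, Finset.sum_sub_distrib, Finset.sum_ite_eq', Finset.mem_univ,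
      if_true, Finset.sum_const, Finset.card_univ, card_irr_ZZ, Finset.sum_apply]
    simp
  obtain ⟨n, hn⟩ : ∃ n, n = (Finset.univ.filter fun p : _ × _ => χ p.1 = χ p.2).card := ⟨_, rfl⟩
  have e1 : classInner (∑ θ, (χ θ : H → ℂ)) (∑ θ, (χ θ : H → ℂ) + ((q : ℂ) - q ^ 3) • (irrOne H : H → ℂ)) = n := by
    simp only [classInner_add_right, classInner_smul_right, classInner_sum_left, classInner_sum_right, irr_inner, ne,
      if_false, Finset.sum_const_zero, mul_zero, add_zero]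
    rw [hn, Finset.card_filter, Fintype.sum_prod_type_right]
    simp
  have e2 : ∑ g : H, (-(-(q : ℝ)) ^ dd (g : GU 11 F q) - q) * (-(-(q : ℝ)) ^ dd (g : GU 11 F q) - q ^ 3) =
      Nat.card H * n := by
    rw [classInner, inv_mul_eq_iff_eq_mul₀ (Nat.cast_ne_zero.2 Nat.card_pos.ne')] at e1
    rw [← Complex.ofReal_inj]
    push_cast
    rw [← e1]
    refine Finset.sum_congr rfl fun g _ => ?_
    simp [← so, om]
  have := Fintype.ofFinite (T.subgroupOf H)
  have b := D.tz'.bound (g := fun _ => ((q + 1) * (q ^ 3 + 1) : ℝ))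
    (f := fun g => (-(-(q : ℝ)) ^ dd (g : GU 11 F q) - q) * (-(-(q : ℝ)) ^ dd (g : GU 11 F q) - q ^ 3))
    (fun g => J2.nn (by exact_mod_cast le_trans (by decide) hq) _) (fun x y => by simp [dd_conj]) fun z hz s hs => by
      rw [Subgroup.coe_mul, D.dd_zs (z := z) (s := (s : H)) hz s.2 fun e => hs (Subtype.ext (Subtype.ext e))]
      exact le_of_eq (by ring)
  obtain ⟨h, hh'⟩ : ∃ h, hp q = h + 1 := ⟨hp q - 1, by have := hp_big hq; omega⟩
  rw [e2, Finset.sum_const, Finset.card_erase_of_mem (Finset.mem_univ _), Finset.card_univ, ← Nat.card_eq_fintype_card,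
    D.tz'.card, hh', Nat.add_sub_cancel, mul_left_comm, mul_le_mul_iff_right₀ (Nat.cast_pos.2 Nat.card_pos),
    nsmul_eq_mul] at b
  have cI : Fintype.card (IrrCharacter (ZZ F q) × IrrCharacter (ZZ F q)) = (q + 1) * (q + 1) := by
    rw [Fintype.card_prod, card_irr_ZZ]
  obtain ⟨rfl, e3⟩ := J2.num (h := h) (n := n) hq (by have := hp_big hq; omega) (hn ▸ cI ▸ Finset.card_le_univ _)
    (by exact_mod_cast b)
  replace e3 := J2.part card_irr_ZZ χ (hn ▸ e3)
  obtain ⟨t, ht⟩ := exists_prime_orderOf_dvd_card' (G := H) 2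
    (Dvd.dvd.trans (by decide) ((χ (irrOne _)).2.deg_dvd_card (dg _)))
  obtain ⟨z, hz, hc⟩ := exists_ZZ (F := F) (q := 3) (c := -1) (by ring)
  have z1 : ¬ IsConj (⟨z, hz⟩ : ZZ F 3) 1 := fun e => by
    have k := FiniteField.cast_card_eq_zero F
    rw [← Nat.card_eq_fintype_card, UF.card_eq (q := 3)] at k
    have k' := sc_uniq (d := 1) hc fun v => by
      rw [show z = 1 from congrArg Subtype.val (isConj_one_left.1 e), one_smul, one_smul]
    push_cast at k
    exact one_ne_zero (α := F) (by linear_combination k + 4 * k')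
  have s0 := sum_irr_mul_conj_of_not_isConj z1
  simp only [irr_ZZ_one, map_one, mul_one] at s0
  have e4 : om (z * (t : GU 11 F 3)) = -1 := by
    rw [← sum_omt, Finset.sum_congr rfl fun θ _ => (omt_mul θ ⟨z, hz⟩ t).trans (by
      rw [hχ, e3 θ (irrOne _), ← add_sub_assoc, mul_sub])]
    simp [← Finset.sum_mul, s0]
  have e5 : dd (z * (t : GU 11 F 3)) = 0 := by
    have := congrArg norm (neg_injective e4)
    rwa [norm_pow, norm_neg, Complex.norm_natCast, norm_one, ← Nat.cast_pow, Nat.cast_eq_one, pow_eq_one_iff_right (by decide)]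
      at this
  have tt : (t : GU 11 F 3) * t = 1 := congrArg Subtype.val (sq t ▸ ht ▸ pow_orderOf_eq_one t)
  have : t = 1 := Subtype.ext (GU_ext fun v => sub_eq_zero.1 (dd_eq_zero.1 e5 _ (by
    rw [mul_smul, hc, OneMemClass.coe_one, one_smul, smul_sub, smul_smul _ _ v, tt, one_smul, neg_smul, one_smul,
      neg_sub])))
  rw [this, orderOf_one] at ht
  omega

end Cfsg.Agent.U11
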