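import Cfsg.Agent.U11.LA2

/-!
# Orthogonal complements
-/

set_option autoImplicit false
set_option linter.unusedSectionVars false

namespace Cfsg.Agent.U11

open Cfsg.Agent.Class.U Cfsg.Agent.Char

variable {F G E : Type*} [Field F] [Fintype F] {q : ℕ} [UF F q] [Group G] [Finite G]
  [AddCommGroup E] [Module F E] [DistribMulAction G E] [SMulCommClass G F E]
  {p : ℕ} [Fact p.Prime] [CharP F p] {δ : G → E} {W : Submodule F E} {ψ : E → E → F} {x : E}

/-- `ψ · u` as a linear map -/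
def Hf.lin (H : Hf q G W ψ) (u : E) : E →ₗ[F] F where
  toFun y := ψ y u
  map_add' a b := H.addl a b u
  map_smul' k a := H.smull k a u

/-- `ψ y ·` as an additive map -/
def Hf.rh (H : Hf q G W ψ) (y : E) : E →+ F := AddMonoidHom.mk' (ψ y) (H.addr y)

theorem la3_qq (k : F) : (k ^ q) ^ q = k := conj_conj (q := q) k

theorem Hf.la3_comm (H : Hf q G W ψ) {a b : E} (ha : a ∈ W) (hb : b ∈ W) (h : ψ a b = 0) : ψ b a = 0 := by
  rw [H.herm a ha b hb, h]; exact map_zero (conj F q)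

theorem Hf.pp_le (H : Hf q G W ψ) (U : Submodule F E) : H.pp U ≤ W := fun _ h => h.1

/-- `y ↦ (ψ y uᵢ)ᵢ` for a basis `uᵢ` of `U` is a linear map `W → F^k` with kernel `pp U`; it is onto
(a functional killing the image gives `u ∈ U` with `ψ y u = 0` for all `y ∈ W`; use `conj` onto) -/
theorem Hf.finrank_pp [Module.Finite F E] (H : Hf q G W ψ) {U : Submodule F E} (h : U ≤ W) :
    Module.finrank F U + Module.finrank F (H.pp U) = Module.finrank F W := by
  let b := Module.finBasis F U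
  let f : W →ₗ[F] (Fin (Module.finrank F U) → F) := LinearMap.pi fun i => (H.lin (b i)).comp W.subtype
  have hs : ∀ (y : E) (c : Fin (Module.finrank F U) → F), ψ y (∑ i, c i • b i : U) = ∑ i, c i ^ q * ψ y (b i) := fun y c => by
    rw [Submodule.coe_sum]
    exact (map_sum (H.rh y) _ _).trans (Finset.sum_congr rfl fun i _ => H.smulr _ _ _)
  have hk : LinearMap.ker f = (H.pp U).comap W.subtype := by
    ext y
    refine ⟨fun hy => ⟨y.2, fun u hu => ?_⟩, fun hy => funext fun i => hy.2 _ (b i).2⟩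
    have := hs y (b.repr ⟨u, hu⟩)
    rw [b.sum_repr] at this
    exact this.trans (Finset.sum_eq_zero fun i _ => by rw [show ψ y (b i) = 0 from congrFun hy i, mul_zero])
  have hr : LinearMap.range f = ⊤ := by
    by_contra c
    obtain ⟨φ, h0, hφ⟩ := Submodule.exists_le_ker_of_lt_top _ (lt_top_iff_ne_top.2 c)
    refine h0 (LinearMap.ext fun v => ?_)
    set u : U := ∑ i, (φ fun j => if i = j then 1 else 0) ^ q • b i with hu
    have u0 : u = 0 := Subtype.ext (H.nd _ (h u.2) fun y hy => H.la3_comm hy (h u.2) (by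
      have := hφ ⟨⟨y, hy⟩, rfl⟩
      rw [LinearMap.mem_ker, LinearMap.pi_apply_eq_sum_univ] at this
      rw [hu, hs]
      exact Eq.trans (Finset.sum_congr rfl fun i _ => by rw [la3_qq, mul_comm]; rfl) this))
    rw [LinearMap.pi_apply_eq_sum_univ]
    refine Finset.sum_eq_zero fun i _ => ?_
    rw [(conj_eq_zero (q := q)).1 (Fintype.linearIndependent_iff.1 b.linearIndependent _ (hu.symm.trans u0) i), smul_zero]
  have := f.finrank_range_add_finrank_ker
  rwa [hk, hr, finrank_top, Module.finrank_fin_fun, (Submodule.comapSubtypeEquivOfLe (H.pp_le U)).finrank_eq] at this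

theorem Hf.pp_pp [Module.Finite F E] (H : Hf q G W ψ) {U : Submodule F E} (h : U ≤ W) :
    H.pp (H.pp U) = U := by
  have l : U ≤ H.pp (H.pp U) := fun u hu => ⟨h hu, fun y hy => H.la3_comm hy.1 (h hu) (hy.2 u hu)⟩
  refine (Submodule.eq_of_le_of_finrank_eq l ?_).symm
  have := H.finrank_pp h
  have := H.finrank_pp (H.pp_le U)
  omega

theorem Hf.mem_pp_span (H : Hf q G W ψ) {Y : Set E} {y : E} :
    y ∈ H.pp (Submodule.span F Y) ↔ y ∈ W ∧ ∀ u ∈ Y, ψ y u = 0 := by
  refine and_congr_right fun _ => ⟨fun h u hu => h u (Submodule.subset_span hu), fun h u hu => ?_⟩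
  induction hu using Submodule.span_induction with
  | mem u hu => exact h u hu
  | zero => exact map_zero (H.rh y)
  | add a b _ _ ha hb => rw [H.addr, ha, hb, add_zero]
  | smul k a _ ha => rw [H.smulr, ha, mul_zero]

/-- `ψ (g y) u = ψ y (g⁻¹ u)` -/
theorem Hf.pp_inv (H : Hf q G W ψ) {U : Submodule F E} (h : U ≤ W) (hU : ∀ g : G, ∀ y ∈ U, g • y ∈ U) :
    ∀ g : G, ∀ y ∈ H.pp U, g • y ∈ H.pp U := by
  refine fun g y hy => ⟨H.invW g y hy.1, fun u hu => ?_⟩
  rw [← smul_inv_smul g u, H.inv g y hy.1 _ (h (hU _ u hu))]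
  exact hy.2 _ (hU _ u hu)

/-- `pp_pp` for `U = F x` -/
theorem Hf.eq_smul [Module.Finite F E] (H : Hf q G W ψ) (hx : x ∈ W) {z : E} (hz : z ∈ W)
    (h : ∀ y ∈ W, ψ y x = 0 → ψ z y = 0) : ∃ k : F, z = k • x := by
  have : z ∈ Submodule.span F {x} := by
    rw [← H.pp_pp ((Submodule.span_singleton_le_iff_mem x W).2 hx)]
    exact ⟨hz, fun y hy => h y hy.1 (hy.2 x (Submodule.mem_span_singleton_self x))⟩
  obtain ⟨k, hk⟩ := Submodule.mem_span_singleton.1 this
  exact ⟨k, hk.symm⟩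

theorem Hf.subl (H : Hf q G W ψ) (a b c : E) : ψ (a - b) c = ψ a c - ψ b c := by
  exact map_sub (H.lin c) a b

theorem Hf.subr (H : Hf q G W ψ) (a b c : E) : ψ a (b - c) = ψ a b - ψ a c := by
  exact map_sub (H.rh a) b c

theorem Hf.comm_zero (H : Hf q G W ψ) {a b : E} (ha : a ∈ W) (hb : b ∈ W) (h : ψ a b = 0) : ψ b a = 0 := by
  exact H.la3_comm ha hb h

theorem Hf.la3_mem [Module.Finite F E] (hG : IsPGroup p G) (hx : Fx F G x) {U : Submodule F E}
    (hU : ∀ g : G, ∀ y ∈ U, g • y ∈ U) (h : Module.finrank F U ≠ 0) : x ∈ U := by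
  obtain ⟨u, hu, u0, h⟩ := exists_fix_ne hG hU (fun c => h (by rw [c, finrank_bot]))
  obtain ⟨k, rfl⟩ := hx.uniq u h
  exact (U.smul_mem_iff fun c => u0 (by rw [c, zero_smul])).1 hu

/-- `W` has a non-zero fixed vector, so `x ∈ W`; `pp (F x) ≠ ⊥` is invariant, so has a non-zero fixed
vector, a multiple of `x` -/
theorem Hf.iso [Module.Finite F E] (H : Hf q G W ψ) (hG : IsPGroup p G) (hx : Fx F G x)
    (h : 2 ≤ Module.finrank F W) : x ∈ W ∧ ψ x x = 0 := by
  have xW := Hf.la3_mem hG hx H.invW (by omega)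
  have l := (Submodule.span_singleton_le_iff_mem x W).2 xW
  have := H.finrank_pp l
  rw [finrank_span_singleton hx.ne] at this
  refine ⟨xW, (Hf.la3_mem hG hx (H.pp_inv l fun g y hy => ?_) (by omega)).2 x (Submodule.mem_span_singleton_self x)⟩
  obtain ⟨k, rfl⟩ := Submodule.mem_span_singleton.1 hy
  rwa [smul_comm, hx.fix]

/-- if `ψ u x ≠ 0` then `pp ⟨x, u⟩ ≠ ⊥` is invariant, so contains `x` (`exists_fix_ne`) -/
theorem Hf.perp_of_fix_mod [Module.Finite F E] (H : Hf q G W ψ) (hG : IsPGroup p G) (hx : Fx F G x)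
    (h : 3 ≤ Module.finrank F W) {u : E} (hu : u ∈ W) (h1 : ∀ g : G, ∃ k : F, g • u = u + k • x) :
    ψ u x = 0 := by
  classical
  have xW := (H.iso hG hx (by omega)).1
  have l : Submodule.span F {x, u} ≤ W := Submodule.span_le.2 (by rintro _ (rfl | rfl) <;> assumption)
  have := H.finrank_pp l
  have c : Module.finrank F (Submodule.span F {x, u}) ≤ 2 :=
    (finrank_span_le_card _).trans (by rw [Set.toFinset_insert, Set.toFinset_singleton]; exact Finset.card_le_two)
  refine H.comm_zero xW hu ((Hf.la3_mem hG hx (H.pp_inv l fun g y hy => ?_) (by omega)).2 u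
    (Submodule.subset_span (Or.inr rfl)))
  obtain ⟨a, b, rfl⟩ := Submodule.mem_span_pair.1 hy
  obtain ⟨k, hk⟩ := h1 g
  rw [smul_add, smul_comm g a, smul_comm g b, hx.fix, hk]
  exact Submodule.mem_span_pair.2 ⟨a + b * k, b, by module⟩

/-- an element fixing `x^⊥` pointwise is a transvection: `g y - y ⊥ x^⊥`; with `ψ y₀ x = 1`,
`g y₀ = y₀ + r x` -/
theorem Hf.tv [Module.Finite F E] (H : Hf q G W ψ) (hx : x ∈ W) (x0 : x ≠ 0) (xx : ψ x x = 0) {g : G}
    (h : ∀ y ∈ W, ψ y x = 0 → g • y = y) :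
    ∃ r : F, r + r ^ q = 0 ∧ ∀ y ∈ W, g • y = y + (r * ψ y x) • x := by
  obtain ⟨y₀, h0, h1⟩ : ∃ y ∈ W, ψ y x = 1 := by
    by_contra! c
    refine x0 (H.nd x hx fun y hy => H.comm_zero hy hx ?_)
    by_contra c'
    exact c _ (W.smul_mem (ψ y x)⁻¹ hy) (by rw [H.smull, inv_mul_cancel₀ c'])
  obtain ⟨r, hr⟩ := H.eq_smul hx (W.sub_mem (H.invW g _ h0) h0) fun y hy e => by
    rw [H.subl, sub_eq_zero, ← H.inv g _ h0 _ hy, h y hy e]
  rw [sub_eq_iff_eq_add'] at hr
  refine ⟨r, ?_, fun y hy => ?_⟩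
  · have := H.inv g _ h0 _ h0
    rw [hr, H.addl, H.addr, H.addr, H.smull, H.smull, H.smulr, H.smulr, xx, H.herm _ h0 _ hx, h1] at this
    linear_combination this
  · have := h (y - ψ y x • y₀) (W.sub_mem hy (W.smul_mem _ h0)) (by rw [H.subl, H.smull, h1, mul_one, sub_self])
    rw [smul_sub, smul_comm g, hr, sub_eq_iff_eq_add] at this
    rw [this]
    module

/-- a subspace of dimension `≥ 2` contains an isotropic vector (`exists_norm_eq`) -/
theorem Hf.exists_iso [Module.Finite F E] (H : Hf q G W ψ) {U : Submodule F E} (h : U ≤ W)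
    (h2 : 2 ≤ Module.finrank F U) : ∃ y ∈ U, y ≠ 0 ∧ ψ y y = 0 := by
  obtain ⟨a, a0⟩ := (Module.finrank_pos_iff_exists_ne_zero (R := F) (M := U)).1 (by omega)
  by_cases aa : ψ a a = 0
  · exact ⟨a, a.2, fun c => a0 (Subtype.ext c), aa⟩
  obtain ⟨b, b0⟩ := (Module.finrank_pos_iff_exists_ne_zero (R := F)
    (M := LinearMap.ker ((H.lin a).comp U.subtype))).1 (by
      have := ((H.lin a).comp U.subtype).finrank_range_add_finrank_ker
      have := Submodule.finrank_le (LinearMap.range ((H.lin a).comp U.subtype))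
      rw [Module.finrank_self] at this
      omega)
  have ba : ψ b.1 a = 0 := b.2
  have ab := H.comm_zero (h b.1.2) (h a.2) ba
  obtain ⟨t, ht⟩ := exists_norm_eq (q := q) (μ := -ψ b.1 b.1 / ψ a a) (by
    rw [map_div₀, map_neg, conj_apply, conj_apply, ← H.herm _ (h a.2) _ (h a.2), ← H.herm _ (h b.1.2) _ (h b.1.2)])
  refine ⟨t • a + b.1, U.add_mem (U.smul_mem t a.2) b.1.2, fun c => b0 ?_, ?_⟩
  · have e := congrArg (H.lin a) c
    rw [map_add, map_smul, map_zero, show H.lin a b.1 = 0 from ba, add_zero, smul_eq_mul] at e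
    rw [(mul_eq_zero.1 e).resolve_right aa, zero_smul, zero_add] at c
    exact Subtype.ext (Subtype.ext c)
  · rw [H.addl, H.addr, H.addr, H.smull, H.smull, H.smulr, H.smulr, ab, ba, ← mul_assoc, ← conj_apply, ht]
    field_simp
    ring

theorem hf_herm (S : Subgroup (GU 11 F q)) : Hf q S ⊤ (hermForm 11 F q) := by
  exact ⟨herm_add_left, herm_smul_left, herm_add_right, herm_smul_right, fun a _ b _ => (herm_conj a b).symm,
    fun a _ h => eq_zero_of_herm_left fun v => h v trivial, fun _ _ _ => trivial, fun g a _ b _ => GU_herm g.1 a b⟩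

theorem la3_pp (U : Submodule F (Fin 11 → F)) : (hf_herm (⊥ : Subgroup (GU 11 F q))).pp U = pp q U :=
  Submodule.ext fun _ => ⟨fun h => h.2, fun h => ⟨trivial, h⟩⟩

theorem finrank_pp (U : Submodule F (Fin 11 → F)) :
    Module.finrank F U + Module.finrank F (pp q U) = 11 := by
  rw [← la3_pp, Hf.finrank_pp _ le_top, finrank_top, Module.finrank_fin_fun]

theorem pp_pp (U : Submodule F (Fin 11 → F)) : pp q (pp q U) = U := by
  rw [← la3_pp, ← la3_pp, Hf.pp_pp _ le_top]

theorem pp_anti {U U' : Submodule F (Fin 11 → F)} (h : U ≤ U') : pp q U' ≤ pp q U := by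
  exact fun y hy w hw => hy w (h hw)

theorem exists_iso {U : Submodule F (Fin 11 → F)} (h2 : 2 ≤ Module.finrank F U) :
    ∃ y ∈ U, y ≠ 0 ∧ hermForm 11 F q y y = 0 := by
  exact (hf_herm (⊥ : Subgroup (GU 11 F q))).exists_iso le_top h2

/-- `𝐡 y (g u - u) = 𝐡 (g⁻¹ y - y) u` -/
theorem mem_pp_range {g : GU 11 F q} {y : Fin 11 → F} :
    y ∈ pp q (LinearMap.range (nm g)) ↔ g • y = y := by
  have e : ∀ u, hermForm 11 F q y (nm g u) = hermForm 11 F q (g⁻¹ • y - y) u := fun u => by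
    rw [nm_apply, herm_sub_right, herm_sub_left, ← GU_herm g (g⁻¹ • y), smul_inv_smul]
  constructor
  · intro h
    exact (inv_smul_eq_iff.1 (sub_eq_zero.1 (eq_zero_of_herm_left fun u => (e u).symm.trans (h _ ⟨u, rfl⟩)))).symm
  · rintro h _ ⟨u, rfl⟩
    rw [e, inv_smul_eq_iff.2 h.symm, sub_self, herm_zero_left]

/-- a subspace containing all isotropic vectors is everything: if `U ≠ ⊤` take `0 ≠ z ∈ U^⊥`; for
isotropic `u ≠ 0` and `y` with `𝐡 u y ≠ 0`, `y - t u` is isotropic (`exists_isotropic_sub`), so all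
such `y` lie in `U`, and they span -/
theorem eq_top_of_iso {U : Submodule F (Fin 11 → F)} (h : ∀ y, hermForm 11 F q y y = 0 → y ∈ U) :
    U = ⊤ := by
  obtain ⟨u, -, u0, uu⟩ := exists_iso (q := q) (U := (⊤ : Submodule F (Fin 11 → F)))
    (by rw [finrank_top, Module.finrank_fin_fun]; norm_num)
  have key : ∀ y, hermForm 11 F q u y ≠ 0 → y ∈ U := fun y hy => by
    obtain ⟨t, ht⟩ := exists_isotropic_sub uu hy
    simpa using U.add_mem (h _ ht) (U.smul_mem t (h u uu))
  obtain ⟨v, hv⟩ := exists_herm_ne_zero (q := q) u0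
  refine eq_top_iff.2 fun y _ => ?_
  by_cases c : hermForm 11 F q u y = 0
  · simpa using U.sub_mem (key (y + v) (by rwa [herm_add_right, c, zero_add])) (key v hv)
  · exact key y c

end Cfsg.Agent.U11
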