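import Cfsg.Agent.U11.K3c
import Cfsg.Agent.U11.LA3

/-!
# Rank three is impossible
-/

set_option autoImplicit false
set_option linter.unusedSectionVars false

namespace Cfsg.Agent.U11

open Cfsg.Agent.Class.U Cfsg.Agent.Char

variable {F G E : Type*} [Field F] [Fintype F] {q : ℕ} [UF F q] [Group G] [Finite G]
  [AddCommGroup E] [Module F E] [DistribMulAction G E] [SMulCommClass G F E]
  {p : ℕ} [Fact p.Prime] [CharP F p] {δ : G → E} {W : Submodule F E} {ψ : E → E → F} {x : E}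

theorem k3_ex [Module.Finite F E] {U V : Submodule F E} (h : Module.finrank F U < Module.finrank F V) :
    ∃ y ∈ V, y ∉ U := by
  by_contra! hc
  exact absurd (Submodule.finrank_mono (show V ≤ U from hc)) (not_le.2 h)

theorem k3_lt [Module.Finite F E] {U : Submodule F E} {y : E} (hy : y ∉ U) :
    Module.finrank F U < Module.finrank F ↥(U ⊔ F ∙ y) :=
  Submodule.finrank_lt_finrank_of_lt (lt_of_le_of_ne le_sup_left fun e =>
    hy (e ▸ Submodule.mem_sup_right (Submodule.mem_span_singleton_self y)))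

theorem k3_sup {U : Submodule F E} {y v : E} (hv : v ∈ U ⊔ F ∙ y) : ∃ k : F, ∃ u ∈ U, v = k • y + u := by
  obtain ⟨u, hu, z, hz, rfl⟩ := Submodule.mem_sup.1 hv
  obtain ⟨k, rfl⟩ := Submodule.mem_span_singleton.1 hz
  exact ⟨k, u, hu, add_comm _ _⟩

theorem k3_dec [Module.Finite F E] {U V : Submodule F E} (hle : U ≤ V) {y : E} (hy : y ∈ V) (hn : y ∉ U)
    (h : Module.finrank F V ≤ Module.finrank F U + 1) {v : E} (hv : v ∈ V) : ∃ k : F, ∃ u ∈ U, v = k • y + u := by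
  have e : U ⊔ F ∙ y = V := Submodule.eq_of_le_of_finrank_le
    (sup_le hle ((Submodule.span_singleton_le_iff_mem _ _).2 hy)) (h.trans (k3_lt hn))
  exact k3_sup (e ▸ hv)

theorem k3_zero {U : Submodule F E} {a r : E} {k : F} (ha : a ∉ U) (hr : r ∈ U) (e : k • a + r = 0) : k = 0 := by
  by_contra hk
  refine ha ((U.smul_mem_iff hk).1 ?_)
  rw [eq_neg_of_add_eq_zero_left e]
  exact neg_mem hr

/-- `x ∈ W` is isotropic (`Hf.iso`); `X = pp (F x)` has dimension `2`, `y ∈ X \ F x`, `ψ y y ≠ 0`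
(else `y ⊥ X`, `Hf.eq_smul`), `w ∈ W \ X`, `c` from `exists_fix_mod` for `W < ⊤`, `a ∉ W + F c`;
`triv_of_codim_one`, `Af.exists_U6`.  `ψ (g y) (g w) = ψ y w` gives `β^q ψ y y + α ψ x w = 0`, so
`β = c0 α^q`, `c0 = -(ψ x w / ψ y y)^q`; if `α = 0`, `ψ (g w) (g w) = ψ w w` gives `hρ` for
`κ = ψ x w ≠ 0`.  `α ≢ 0` as `y ∉ F x` is not fixed.  `K3a`, `K3_rebase`, `K3c`. -/
theorem K3 (h : Af F p δ) (H : Hf q G W ψ) (hx : Fx F G x) (h3 : Module.finrank F W = 3) : False := by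
  have := h.fin
  obtain ⟨xW, xx⟩ := H.iso h.pg hx (by omega)
  have r1 : Module.finrank F (F ∙ x) = 1 := finrank_span_singleton hx.ne
  have UW : (F ∙ x) ≤ W := (Submodule.span_singleton_le_iff_mem _ _).2 xW
  have r2 : Module.finrank F (H.pp (F ∙ x)) = 2 := by have := H.finrank_pp UW; omega
  have mX : ∀ {v : E}, v ∈ H.pp (F ∙ x) ↔ v ∈ W ∧ ψ v x = 0 := by
    intro v
    rw [H.mem_pp_span]
    simp
  have xX : x ∈ H.pp (F ∙ x) := mX.2 ⟨xW, xx⟩
  have UX : (F ∙ x) ≤ H.pp (F ∙ x) := (Submodule.span_singleton_le_iff_mem _ _).2 xX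
  have XW : H.pp (F ∙ x) ≤ W := fun v hv => (mX.1 hv).1
  have iU : ∀ g : G, ∀ y ∈ (F ∙ x), g • y ∈ (F ∙ x) := fun g y hy => by
    obtain ⟨k, rfl⟩ := Submodule.mem_span_singleton.1 hy
    rw [smul_comm, hx.fix]
    exact hy
  have iX := H.pp_inv UW iU
  obtain ⟨y, yX, yU⟩ := k3_ex (U := F ∙ x) (V := H.pp (F ∙ x)) (by omega)
  obtain ⟨w, wW, wX⟩ := k3_ex (U := H.pp (F ∙ x)) (V := W) (by omega)
  have rT : Module.finrank F (⊤ : Submodule F E) = 5 := by rw [finrank_top, h.rk]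
  obtain ⟨c, -, cW, hc⟩ := exists_fix_mod h.pg (W₂ := ⊤) H.invW (fun _ _ _ => Submodule.mem_top)
    (k3_ex (by omega)) le_top
  have r4 := k3_lt (F := F) cW
  have r4' : Module.finrank F ↥(W ⊔ F ∙ c) ≤ 4 := by
    have h1 := Submodule.finrank_add_le_finrank_add_finrank W (F ∙ c)
    have h2 : Module.finrank F (F ∙ c) = 1 := finrank_span_singleton fun e => cW (e ▸ W.zero_mem)
    omega
  obtain ⟨a, -, a4⟩ := k3_ex (U := W ⊔ F ∙ c) (V := ⊤) (by omega)
  have c4 : c ∈ W ⊔ F ∙ c := Submodule.mem_sup_right (Submodule.mem_span_singleton_self c)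
  have W4 : W ≤ W ⊔ F ∙ c := le_sup_left
  have i4 : ∀ g : G, ∀ v ∈ W ⊔ F ∙ c, g • v ∈ W ⊔ F ∙ c := fun g v hv => by
    obtain ⟨k, u, hu, rfl⟩ := k3_sup hv
    rw [smul_add, smul_comm, show g • c = (g • c - c) + c by abel]
    exact add_mem (Submodule.smul_mem _ _ (add_mem (W4 (hc g)) c4)) (W4 (H.invW g u hu))
  have dU : ∀ v ∈ (F ∙ x), ∃ k : F, v = k • x := fun v hv =>
    (Submodule.mem_span_singleton.1 hv).imp fun _ e => e.symm
  have dX : ∀ v ∈ H.pp (F ∙ x), ∃ k l : F, v = k • y + l • x := fun v hv => by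
    obtain ⟨k, u, hu, rfl⟩ := k3_dec UX yX yU (by omega) hv
    obtain ⟨l, rfl⟩ := dU u hu
    exact ⟨k, l, rfl⟩
  have dW : ∀ v ∈ W, ∃ k l m : F, v = k • w + l • y + m • x := fun v hv => by
    obtain ⟨k, u, hu, rfl⟩ := k3_dec XW wW wX (by omega) hv
    obtain ⟨l, m, rfl⟩ := dX u hu
    exact ⟨k, l, m, by abel⟩
  have d4 : ∀ v ∈ W ⊔ F ∙ c, ∃ k l m n : F, v = k • c + l • w + m • y + n • x := fun v hv => by
    obtain ⟨k, u, hu, rfl⟩ := k3_sup hv
    obtain ⟨l, m, n, rfl⟩ := dW u hu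
    exact ⟨k, l, m, n, by abel⟩
  have yW := XW yX
  obtain ⟨D, hD⟩ := h.exists_U6 (x := x) (y := y) (w := w) (c := c) (a := a) (fun k₁ k₂ k₃ k₄ k₅ e => by
      have m5 : k₅ • x ∈ (F ∙ x) := Submodule.smul_mem _ _ (Submodule.mem_span_singleton_self x)
      have m4 : k₄ • y + k₅ • x ∈ H.pp (F ∙ x) := add_mem (Submodule.smul_mem _ _ yX) (UX m5)
      have m3 : k₃ • w + (k₄ • y + k₅ • x) ∈ W := add_mem (W.smul_mem _ wW) (XW m4)
      have m2 : k₂ • c + (k₃ • w + (k₄ • y + k₅ • x)) ∈ W ⊔ F ∙ c := add_mem (Submodule.smul_mem _ _ c4) (W4 m3)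
      simp only [add_assoc] at e
      obtain rfl := k3_zero a4 m2 e
      rw [zero_smul, zero_add] at e
      obtain rfl := k3_zero cW m3 e
      rw [zero_smul, zero_add] at e
      obtain rfl := k3_zero wX m4 e
      rw [zero_smul, zero_add] at e
      obtain rfl := k3_zero yU m5 e
      rw [zero_smul, zero_add] at e
      exact ⟨rfl, rfl, rfl, rfl, (smul_eq_zero.1 e).resolve_right hx.ne⟩) hx.fix
    (fun g => by
      obtain ⟨k, e⟩ := dU _ (triv_of_codim_one h.pg iU iX UX (by omega) g y yX)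
      exact ⟨k, by rw [← e]; abel⟩)
    (fun g => by
      obtain ⟨k, l, e⟩ := dX _ (triv_of_codim_one h.pg iX H.invW XW (by omega) g w wW)
      exact ⟨k, l, by rw [add_assoc, ← e]; abel⟩)
    (fun g => by
      obtain ⟨k, l, m, e⟩ := dW _ (hc g)
      exact ⟨k, l, m, by rw [add_assoc, add_assoc, ← add_assoc (k • w), ← e]; abel⟩)
    (fun g => by
      obtain ⟨k, l, m, n, e⟩ := d4 _ (triv_of_codim_one h.pg (W₂ := ⊤) i4 (fun _ _ _ => Submodule.mem_top) le_top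
        (by omega) g a Submodule.mem_top)
      exact ⟨k, l, m, n, by rw [eq_add_of_sub_eq e]; abel⟩)
  have yx : ψ y x = 0 := (mX.1 yX).2
  have xy : ψ x y = 0 := H.comm_zero yW xW yx
  have yy : ψ y y ≠ 0 := fun e => by
    obtain ⟨k, hk⟩ := H.eq_smul xW yW fun v hv hvx => by
      obtain ⟨k, l, rfl⟩ := dX v (mX.2 ⟨hv, hvx⟩)
      rw [H.addr, H.smulr, H.smulr, e, yx, mul_zero, mul_zero, add_zero]
    exact yU (hk ▸ Submodule.smul_mem _ _ (Submodule.mem_span_singleton_self x))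
  have xw : ψ x w ≠ 0 := fun e => wX (mX.2 ⟨wW, H.comm_zero xW wW e⟩)
  have hβ : ∀ g, D.β g = (-ψ x w / ψ y y) ^ q * D.α g ^ q := fun g => by
    have e := H.inv g y yW w wW
    rw [(hD g).1, (hD g).2] at e
    simp only [H.addl, H.addr, H.smull, H.smulr, yx, xy, xx] at e
    have e2 : D.β g ^ q = -ψ x w / ψ y y * D.α g := by
      field_simp
      linear_combination e
    rw [← mul_pow, ← e2]
    exact (conj_conj (D.β g)).symm
  have q0 : q ≠ 0 := by have := two_le_q F q; omega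
  have HM : D.Hm q ((-ψ x w / ψ y y) ^ q) (ψ x w) := ⟨pow_ne_zero _ (div_ne_zero (neg_ne_zero.2 xw) yy), xw, hβ, fun g e0 => by
    have e := H.inv g w wW w wW
    rw [(hD g).2, hβ, e0, zero_pow q0, mul_zero, zero_smul, add_zero] at e
    simp only [H.addl, H.addr, H.smull, H.smulr, xx, H.herm x xW w wW] at e
    rw [mul_pow]
    linear_combination e⟩
  have h0 : ∃ g, D.α g ≠ 0 := by
    by_contra! hc
    obtain ⟨k, hk⟩ := hx.uniq y fun g => by rw [(hD g).1, hc, zero_smul, add_zero]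
    exact yU (hk ▸ Submodule.smul_mem _ _ (Submodule.mem_span_singleton_self x))
  obtain ⟨r, s, h1, h2⟩ := K3a h.pg HM h0
  obtain ⟨D', e1, e2, e3, e4⟩ := K3_rebase D h0 h1 h2
  exact K3c h.pg (D := D') ⟨HM.hc, HM.hκ, fun g => by rw [e1, e2]; exact HM.hβ g,
    fun g e => by rw [e3]; exact HM.hρ g (e1 ▸ e)⟩ e4

end Cfsg.Agent.U11
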