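import Cfsg.Agent.U11.LA1

/-!
# Rank three: the first central element
-/

set_option autoImplicit false
set_option linter.unusedSectionVars false

namespace Cfsg.Agent.U11

open Cfsg.Agent.Class.U Cfsg.Agent.Char

variable {F G : Type*} [Field F] [Fintype F] {q : ℕ} [UF F q] [Group G] [Finite G]
  {p : ℕ} [Fact p.Prime] [CharP F p] {D : U6 F G} {c0 κ : F}

/-- `|G| ≥ q^10` since `(da, dc, dw, dy, dx)` is onto `F^5` -/
theorem U6.card_ge (D : U6 F G) (q : ℕ) [UF F q] : q ^ 10 ≤ Nat.card G := by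
  have hs : Function.Surjective (fun g => ((D.da g, D.dc g, D.dw g, D.dy g, D.dx g) : F × F × F × F × F)) := by
    rintro ⟨a, c, w, y, x⟩
    obtain ⟨g, h1, h2, h3, h4, h5⟩ := D.sur a c w y x
    exact ⟨g, by simp only [h1, h2, h3, h4, h5]⟩
  have h := Nat.card_le_card_of_surjective _ hs
  simp only [Nat.card_prod, UF.card_eq (F := F) (q := q)] at h
  calc q ^ 10 = q ^ 2 * (q ^ 2 * (q ^ 2 * (q ^ 2 * q ^ 2))) := by ring
    _ ≤ _ := h

/-- the kernel of a map which is additive on `H` -/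
def k3aKer (H : Subgroup G) (f : G → F) (hf : ∀ a ∈ H, ∀ b ∈ H, f (a * b) = f a + f b) : Subgroup G where
  carrier := {g | g ∈ H ∧ f g = 0}
  one_mem' := ⟨one_mem _, by simpa using hf 1 (one_mem _) 1 (one_mem _)⟩
  mul_mem' {a b} ha hb := ⟨mul_mem ha.1 hb.1, by rw [hf a ha.1 b hb.1, ha.2, hb.2, add_zero]⟩
  inv_mem' {a} ha := ⟨inv_mem ha.1, by
    have h1 : f 1 = 0 := by simpa using hf 1 (one_mem _) 1 (one_mem _)
    have := hf a ha.1 a⁻¹ (inv_mem ha.1)
    rw [mul_inv_cancel, h1, ha.2, zero_add] at this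
    exact this.symm⟩

/-- the ten linear coordinates vanish at `1` -/
theorem k3a_one (D : U6 F G) : D.α 1 = 0 ∧ D.β 1 = 0 ∧ D.ρ 1 = 0 ∧ D.χw 1 = 0 ∧ D.χy 1 = 0 ∧
    D.χx 1 = 0 ∧ D.t 1 = 0 ∧ D.πw 1 = 0 ∧ D.πy 1 = 0 ∧ D.πx 1 = 0 := by
  have h1 : D.α 1 = 0 := by simpa using D.mα 1 1
  have h2 : D.β 1 = 0 := by simpa using D.mβ 1 1
  have h3 : D.ρ 1 = 0 := by simpa [h1] using D.mρ 1 1
  have h4 : D.χw 1 = 0 := by simpa using D.mχw 1 1
  have h5 : D.χy 1 = 0 := by simpa [h2] using D.mχy 1 1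
  have h6 : D.χx 1 = 0 := by simpa [h1, h3] using D.mχx 1 1
  have h7 : D.t 1 = 0 := by simpa using D.mt 1 1
  have h8 : D.πw 1 = 0 := by simpa [h4] using D.mπw 1 1
  have h9 : D.πy 1 = 0 := by simpa [h2, h5] using D.mπy 1 1
  have h10 : D.πx 1 = 0 := by simpa [h1, h3, h6] using D.mπx 1 1
  exact ⟨h1, h2, h3, h4, h5, h6, h7, h8, h9, h10⟩

/-- the central element -/
theorem k3a_cen (hG : IsPGroup p G) (H : D.Hm q c0 κ) : ∃ z : G, z ≠ 1 ∧ (∀ k : G, z * k = k * z) ∧
    D.α z = 0 ∧ D.β z = 0 ∧ D.ρ z = 0 ∧ D.t z = 0 ∧ D.da z = 0 ∧ D.dc z = 0 := by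
  have q2 := two_le_q F q
  have hb : ∀ g, D.α g = 0 → D.β g = 0 := fun g h => by
    rw [H.hβ, h, zero_pow (by omega), mul_zero]
  have a1 : ∀ a ∈ (⊤ : Subgroup G), ∀ b ∈ (⊤ : Subgroup G), D.α (a * b) = D.α a + D.α b :=
    fun a _ b _ => D.mα a b
  let K1 := k3aKer ⊤ D.α a1
  have a2 : ∀ a ∈ K1, ∀ b ∈ K1, D.ρ (a * b) = D.ρ a + D.ρ b := fun a ha b _ => by
    rw [D.mρ, ha.2, zero_mul, add_zero]
  let K2 := k3aKer K1 D.ρ a2
  have a3 : ∀ a ∈ K2, ∀ b ∈ K2, D.t (a * b) = D.t a + D.t b := fun a _ b _ => D.mt a b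
  let K3 := k3aKer K2 D.t a3
  have a4 : ∀ a ∈ K3, ∀ b ∈ K3, D.da (a * b) = D.da a + D.da b := fun a _ b _ => D.mda a b
  let K4 := k3aKer K3 D.da a4
  have a5 : ∀ a ∈ K4, ∀ b ∈ K4, D.dc (a * b) = D.dc a + D.dc b := fun a ha b _ => by
    rw [D.mdc, ha.1.2, zero_mul, add_zero]
  let K5 := k3aKer K4 D.dc a5
  have c0 := D.card_ge q
  have c1 := card_le_sq q ⊤ K1 D.α a1 fun a ha h => ⟨ha, h⟩
  have c2 := card_le_tr (q := q) K1 K2 D.ρ H.hκ a2 (fun a ha => H.hρ a ha.2) fun a ha h => ⟨ha, h⟩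
  have c3 := card_le_sq q K2 K3 D.t a3 fun a ha h => ⟨ha, h⟩
  have c4 := card_le_sq q K3 K4 D.da a4 fun a ha h => ⟨ha, h⟩
  have c5 := card_le_sq q K4 K5 D.dc a5 fun a ha h => ⟨ha, h⟩
  rw [Subgroup.card_top] at c1
  have hne : ∃ g ∈ K5, g ≠ 1 := by
    by_contra hc
    push Not at hc
    have e : Nat.card K5 = 1 := Subgroup.card_eq_one.2 ((Subgroup.eq_bot_iff_forall _).2 hc)
    rw [e] at c5
    have : q ^ 10 ≤ q ^ 9 := by
      calc q ^ 10 ≤ q ^ 2 * (q * (q ^ 2 * (q ^ 2 * (q ^ 2 * 1)))) :=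
            c0.trans (c1.trans (Nat.mul_le_mul_left _ (c2.trans (Nat.mul_le_mul_left _ (c3.trans
              (Nat.mul_le_mul_left _ (c4.trans (Nat.mul_le_mul_left _ c5))))))))
        _ = q ^ 9 := by ring
    exact absurd ((Nat.pow_le_pow_iff_right (by omega)).1 this) (by decide)
  have : K5.Normal := ⟨fun g hg h => by
    obtain ⟨⟨⟨⟨⟨-, h1⟩, h2⟩, h3⟩, h4⟩, h5⟩ := hg
    have e : h * g * h⁻¹ * h = h * g := by group
    have k1 : D.α (h * g * h⁻¹) = 0 := by
      have := D.mα (h * g * h⁻¹) h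
      rw [e, D.mα, h1] at this
      linear_combination -this
    have k2 : D.ρ (h * g * h⁻¹) = 0 := by
      have := D.mρ (h * g * h⁻¹) h
      rw [e, D.mρ, h2, k1, hb g h1] at this
      linear_combination -this
    have k3 : D.t (h * g * h⁻¹) = 0 := by
      have := D.mt (h * g * h⁻¹) h
      rw [e, D.mt, h3] at this
      linear_combination -this
    have k4 : D.da (h * g * h⁻¹) = 0 := by
      have := D.mda (h * g * h⁻¹) h
      rw [e, D.mda, h4] at this
      linear_combination -this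
    have k5 : D.dc (h * g * h⁻¹) = 0 := by
      have := D.mdc (h * g * h⁻¹) h
      rw [e, D.mdc, h4, h5, k3] at this
      linear_combination -this
    exact ⟨⟨⟨⟨⟨trivial, k1⟩, k2⟩, k3⟩, k4⟩, k5⟩⟩
  obtain ⟨z, ⟨⟨⟨⟨⟨-, h1⟩, h2⟩, h3⟩, h4⟩, h5⟩, z1, hz⟩ := exists_central hG K5 hne
  exact ⟨z, z1, hz, h1, hb z h1, h2, h3, h4, h5⟩

/-- All fifteen coordinates vanish at `1` (product rules at `1 * 1`); inverses from `g g⁻¹ = 1`.
`GW = {α = ρ = t = 0}` (then `β = 0`) has order `≥ q^5`: `card_le_sq` for `α` on `⊤`, `card_le_tr` for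
`ρ` on `ker α` (additive there), `card_le_sq` for `t`.  On `GW` both `da`, `dc` are additive, so
`G0 = GW ∩ {da = dc = 0}` has order `≥ q > 1`; it is normal (use `h g = (h g h⁻¹) h` or expand).
Take `1 ≠ z ∈ G0` central (`exists_central`) and compare the coordinates of `z h` and `h z`:
`χy`: `β h χw z = 0`, so `χw z = 0` (`α ≢ 0`, so `β ≢ 0`); `χx`: `α h χy z = 0`, so `χy z = 0`;
`πy`: `β h πw z = 0`, so `πw z = 0`; `πx`: (1) `χx z t h = α h πy z`; `dy`: (2) `πy z da h = β h dw z`;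
`dx`: (3) `χx z dc h + πx z da h = α h dy z + ρ h dw z`.
If `πy z ≠ 0`: `χx z ≠ 0` by (1), `dw z ≠ 0` by (2) (`da` onto), and `da h = 0 → β h = 0 → α h = 0`;
for `h` with `da h = 0`, `dc h = k` arbitrary (`sur`), (3) gives `ρ h = k χx z / dw z`, so `hρ` holds
for all elements of `F`, against `lin_conj_zero`.  So `πy z = 0`, `dw z = 0` by (2), `χx z t h = 0`.
If `dy z = 0`, (3) and `sur` give `χx z = πx z = 0`, `z = 1` by `ext`.  So
`r = χx z / dy z`, `s = πx z / dy z`. -/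
theorem K3a (hG : IsPGroup p G) (H : D.Hm q c0 κ) (h0 : ∃ g, D.α g ≠ 0) :
    ∃ r s : F, (∀ g, D.α g = r * D.dc g + s * D.da g) ∧ ∀ g, r * D.t g = 0 := by
  obtain ⟨z, z1, hz, zα, zβ, zρ, zt, za, zc⟩ := k3a_cen hG H
  obtain ⟨g0, h0⟩ := h0
  have b0 : D.β g0 ≠ 0 := by rw [H.hβ]; exact mul_ne_zero H.hc (pow_ne_zero _ h0)
  have zχw : D.χw z = 0 := by
    have := D.mχy z g0
    rw [hz, D.mχy, zβ] at this
    exact (mul_eq_zero.1 (by linear_combination this : D.β g0 * D.χw z = 0)).resolve_left b0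
  have zχy : D.χy z = 0 := by
    have := D.mχx z g0
    rw [hz, D.mχx, zρ, zα, zχw] at this
    exact (mul_eq_zero.1 (by linear_combination this : D.α g0 * D.χy z = 0)).resolve_left h0
  have zπw : D.πw z = 0 := by
    have := D.mπy z g0
    rw [hz, D.mπy, zβ, zt, zχy] at this
    exact (mul_eq_zero.1 (by linear_combination this : D.β g0 * D.πw z = 0)).resolve_left b0
  have e1 : ∀ h, D.χx z * D.t h = D.α h * D.πy z := fun h => by
    have := D.mπx z h
    rw [hz, D.mπx, zρ, zα, zt, zπw] at this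
    linear_combination -this
  have e2 : ∀ h, D.πy z * D.da h = D.β h * D.dw z := fun h => by
    have := D.mdy z h
    rw [hz, D.mdy, zβ, zc, za, zχy] at this
    linear_combination -this
  have e3 : ∀ h, D.χx z * D.dc h + D.πx z * D.da h = D.α h * D.dy z + D.ρ h * D.dw z := fun h => by
    have := D.mdx z h
    rw [hz, D.mdx, zα, zρ, zc, za] at this
    linear_combination -this
  have zπy : D.πy z = 0 := by
    by_contra hy
    have hx : D.χx z ≠ 0 := fun e => mul_ne_zero h0 hy (by rw [← e1, e, zero_mul])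
    have hw : D.dw z ≠ 0 := fun e => by
      obtain ⟨h, h1, -⟩ := D.sur 1 0 0 0 0
      have := e2 h
      rw [h1, e, mul_one, mul_zero] at this
      exact hy this
    have := (lin_conj_zero (q := q) (a := D.χx z / D.dw z * κ) (b := (D.χx z / D.dw z * κ) ^ q)
      fun k => by
        obtain ⟨h, h1, h2, -⟩ := D.sur 0 k 0 0 0
        have k1 := e2 h
        rw [h1, mul_zero, H.hβ] at k1
        have k2 : D.α h = 0 := pow_eq_zero_iff (by have := two_le_q F q; omega) |>.1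
          ((mul_eq_zero.1 ((mul_eq_zero.1 k1.symm).resolve_right hw)).resolve_left H.hc)
        have k3 := e3 h
        rw [h1, h2, k2] at k3
        have k4 : D.ρ h * κ = k * (D.χx z / D.dw z * κ) := by
          field_simp
          linear_combination (-κ) * k3
        have k5 := H.hρ h k2
        rw [k4, mul_pow] at k5
        exact k5).1
    exact mul_ne_zero (div_ne_zero hx hw) H.hκ this
  have zw : D.dw z = 0 := by
    have := e2 g0
    rw [zπy, zero_mul] at this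
    exact (mul_eq_zero.1 this.symm).resolve_left b0
  have zy : D.dy z ≠ 0 := fun e => z1 (by
    obtain ⟨h, h1, h2, -⟩ := D.sur 0 1 0 0 0
    obtain ⟨k, k1, k2, -⟩ := D.sur 1 0 0 0 0
    have l1 := e3 h
    have l2 := e3 k
    rw [h1, h2, e, zw] at l1
    rw [k1, k2, e, zw] at l2
    obtain ⟨o1, o2, o3, o4, o5, o6, o7, o8, o9, o10⟩ := k3a_one D
    exact D.ext z 1 (by rw [zα, o1]) (by rw [zβ, o2]) (by rw [zρ, o3]) (by rw [zχw, o4])
      (by rw [zχy, o5]) (by rw [o6]; linear_combination l1) (by rw [zt, o7]) (by rw [zπw, o8])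
      (by rw [zπy, o9]) (by rw [o10]; linear_combination l2))
  refine ⟨D.χx z / D.dy z, D.πx z / D.dy z, fun g => ?_, fun g => ?_⟩
  · have := e3 g
    rw [zw] at this
    field_simp
    linear_combination -this
  · have := e1 g
    rw [zπy, mul_zero] at this
    rw [div_mul_eq_mul_div, this, zero_div]

/-- Change of basis.  `r = 0`: `s ≠ 0`, `a' = a / s`: divide `t, πw, πy, πx` by `s`, multiply `da` by
`s`.  `r ≠ 0`: `t = 0`, `a' = c / r`, `c' = a - (s/r) c`: `χ' = π - (s/r) χ`, `t' = 0`, `π' = χ / r`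
(for `w, y, x`), `da' = r dc + s da`, `dc' = da`; `dw, dy, dx, α, β, ρ` are unchanged. -/
theorem K3_rebase (D : U6 F G) (h0 : ∃ g, D.α g ≠ 0) {r s : F}
    (h1 : ∀ g, D.α g = r * D.dc g + s * D.da g) (h2 : ∀ g, r * D.t g = 0) :
    ∃ D' : U6 F G, D'.α = D.α ∧ D'.β = D.β ∧ D'.ρ = D.ρ ∧ ∀ g, D'.α g = D'.da g := by
  by_cases hr : r = 0
  · have hs : s ≠ 0 := by
      rintro rfl
      obtain ⟨g, hg⟩ := h0
      exact hg (by rw [h1, hr]; ring)
    obtain ⟨u, hu⟩ : ∃ u : F, s * u = 1 := ⟨s⁻¹, mul_inv_cancel₀ hs⟩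
    have u0 : u ≠ 0 := right_ne_zero_of_mul_eq_one hu
    refine ⟨{ D with
      t := fun g => u * D.t g
      πw := fun g => u * D.πw g
      πy := fun g => u * D.πy g
      πx := fun g => u * D.πx g
      da := fun g => s * D.da g
      mt := fun g h => by rw [D.mt]; ring
      mπw := fun g h => by rw [D.mπw]; ring
      mπy := fun g h => by rw [D.mπy]; ring
      mπx := fun g h => by rw [D.mπx]; ring
      mda := fun g h => by rw [D.mda]; ring
      mdc := fun g h => by rw [D.mdc]; linear_combination (-(D.t g * D.da h)) * hu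
      mdw := fun g h => by rw [D.mdw]; linear_combination (-(D.πw g * D.da h)) * hu
      mdy := fun g h => by rw [D.mdy]; linear_combination (-(D.πy g * D.da h)) * hu
      mdx := fun g h => by rw [D.mdx]; linear_combination (-(D.πx g * D.da h)) * hu
      ext := fun g h e1 e2 e3 e4 e5 e6 e7 e8 e9 e10 => D.ext g h e1 e2 e3 e4 e5 e6
        (mul_left_cancel₀ u0 e7) (mul_left_cancel₀ u0 e8) (mul_left_cancel₀ u0 e9)
        (mul_left_cancel₀ u0 e10)
      sur := fun a c w y x => by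
        obtain ⟨g, k1, k2⟩ := D.sur (u * a) c w y x
        exact ⟨g, by rw [k1, ← mul_assoc, hu, one_mul], k2⟩ }, rfl, rfl, rfl, fun g => ?_⟩
    show D.α g = s * D.da g
    rw [h1, hr, zero_mul, zero_add]
  · have ht : ∀ g, D.t g = 0 := fun g => (mul_eq_zero.1 (h2 g)).resolve_left hr
    obtain ⟨u, hu⟩ : ∃ u : F, r * u = 1 := ⟨r⁻¹, mul_inv_cancel₀ hr⟩
    have u0 : u ≠ 0 := right_ne_zero_of_mul_eq_one hu
    refine ⟨{ D with
      χw := fun g => D.πw g - s * (u * D.χw g)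
      χy := fun g => D.πy g - s * (u * D.χy g)
      χx := fun g => D.πx g - s * (u * D.χx g)
      t := fun _ => 0
      πw := fun g => u * D.χw g
      πy := fun g => u * D.χy g
      πx := fun g => u * D.χx g
      da := fun g => r * D.dc g + s * D.da g
      dc := D.da
      mχw := fun g h => by rw [D.mπw, D.mχw, ht]; ring
      mχy := fun g h => by rw [D.mπy, D.mχy, ht]; ring
      mχx := fun g h => by rw [D.mπx, D.mχx, ht]; ring
      mt := fun g h => by ring
      mπw := fun g h => by rw [D.mχw]; ring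
      mπy := fun g h => by rw [D.mχy]; ring
      mπx := fun g h => by rw [D.mχx]; ring
      mda := fun g h => by rw [D.mda, D.mdc, ht]; ring
      mdc := fun g h => by rw [D.mda]; ring
      mdw := fun g h => by rw [D.mdw]; linear_combination (-(D.χw g * D.dc h)) * hu
      mdy := fun g h => by rw [D.mdy]; linear_combination (-(D.χy g * D.dc h)) * hu
      mdx := fun g h => by rw [D.mdx]; linear_combination (-(D.χx g * D.dc h)) * hu
      ext := fun g h e1 e2 e3 e4 e5 e6 _ e8 e9 e10 => D.ext g h e1 e2 e3 (mul_left_cancel₀ u0 e8)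
        (mul_left_cancel₀ u0 e9) (mul_left_cancel₀ u0 e10) (by rw [ht, ht])
        (by linear_combination e4 + s * e8) (by linear_combination e5 + s * e9)
        (by linear_combination e6 + s * e10)
      sur := fun a c w y x => by
        obtain ⟨g, k1, k2, k3⟩ := D.sur c (u * (a - s * c)) w y x
        exact ⟨g, by rw [k1, k2]; linear_combination (a - s * c) * hu, k1, k3⟩ }, rfl, rfl, rfl, h1⟩

end Cfsg.Agent.U11
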