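import Cfsg.Agent.U11.LA1

/-!
# Rank three: the subgroup `G0`
-/

set_option autoImplicit false
set_option linter.unusedSectionVars false

namespace Cfsg.Agent.U11

open Cfsg.Agent.Class.U Cfsg.Agent.Char

variable {F G : Type*} [Field F] [Fintype F] {q : ℕ} [UF F q] [Group G] [Finite G]
  {p : ℕ} [Fact p.Prime] [CharP F p] {D : U6 F G} {c0 κ : F}

/-- `g` is central: `h g` and `g h` have the same ten linear coordinates (`ext`).  Then `mdx`:
`πx g da h = α h dy g`, take `da h = 1`. -/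
theorem K3b_Z (hα : ∀ g, D.α g = D.da g) {g : G} (h1 : D.α g = 0) (h2 : D.β g = 0) (h3 : D.ρ g = 0)
    (h4 : D.χw g = 0) (h5 : D.χy g = 0) (h6 : D.χx g = 0) (h7 : D.t g = 0) (h8 : D.πw g = 0)
    (h9 : D.πy g = 0) (h10 : D.dc g = 0) (h11 : D.dw g = 0) : D.dy g = D.πx g := by
  obtain ⟨h, hh, -⟩ := D.sur 1 0 0 0 0
  have hh' : D.α h = 1 := by rw [hα, hh]
  have hda : D.da g = 0 := by rw [← hα, h1]
  have e : h * g = g * h := by
    apply D.ext
    · rw [D.mα, D.mα]; ring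
    · rw [D.mβ, D.mβ]; ring
    · rw [D.mρ, D.mρ, h1, h2]; ring
    · rw [D.mχw, D.mχw]; ring
    · rw [D.mχy, D.mχy, h4, h2]; ring
    · rw [D.mχx, D.mχx, h4, h5, h3, h1]; ring
    · rw [D.mt, D.mt]; ring
    · rw [D.mπw, D.mπw, h7, h4]; ring
    · rw [D.mπy, D.mπy, h7, h8, h5, h2]; ring
    · rw [D.mπx, D.mπx, h7, h8, h9, h6, h3, h1]; ring
  have c := congrArg D.dx e
  rw [D.mdx, D.mdx, h11, h10, hda, h1, h3, h6, hh, hh'] at c
  linear_combination c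

theorem k3b_one (D : U6 F G) : D.α 1 = 0 ∧ D.β 1 = 0 ∧ D.ρ 1 = 0 ∧ D.χw 1 = 0 ∧ D.χy 1 = 0 ∧ D.χx 1 = 0 ∧
    D.t 1 = 0 ∧ D.πw 1 = 0 ∧ D.da 1 = 0 ∧ D.dc 1 = 0 ∧ D.dw 1 = 0 ∧ D.πy 1 = 0 ∧ D.πx 1 = 0 ∧
    D.dy 1 = 0 ∧ D.dx 1 = 0 := by
  have a1 := D.mα 1 1
  have a2 := D.mβ 1 1
  have a3 := D.mρ 1 1
  have a4 := D.mχw 1 1
  have a5 := D.mχy 1 1
  have a6 := D.mχx 1 1
  have a7 := D.mt 1 1
  have a8 := D.mπw 1 1
  have a9 := D.mda 1 1
  have a10 := D.mdc 1 1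
  have a11 := D.mdw 1 1
  have a12 := D.mπy 1 1
  have a13 := D.mπx 1 1
  have a14 := D.mdy 1 1
  have a15 := D.mdx 1 1
  rw [mul_one] at a1 a2 a3 a4 a5 a6 a7 a8 a9 a10 a11 a12 a13 a14 a15
  have b1 : D.α 1 = 0 := by linear_combination -a1
  have b2 : D.β 1 = 0 := by linear_combination -a2
  have b4 : D.χw 1 = 0 := by linear_combination -a4
  have b7 : D.t 1 = 0 := by linear_combination -a7
  have b9 : D.da 1 = 0 := by linear_combination -a9
  have b3 : D.ρ 1 = 0 := by rw [b1] at a3; linear_combination -a3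
  have b5 : D.χy 1 = 0 := by rw [b2] at a5; linear_combination -a5
  have b6 : D.χx 1 = 0 := by rw [b1, b3] at a6; linear_combination -a6
  have b8 : D.πw 1 = 0 := by rw [b4] at a8; linear_combination -a8
  have b10 : D.dc 1 = 0 := by rw [b7] at a10; linear_combination -a10
  have b11 : D.dw 1 = 0 := by rw [b4, b8] at a11; linear_combination -a11
  have b12 : D.πy 1 = 0 := by rw [b5, b2] at a12; linear_combination -a12
  have b13 : D.πx 1 = 0 := by rw [b6, b3, b1] at a13; linear_combination -a13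
  have b14 : D.dy 1 = 0 := by rw [b2, b5, b12] at a14; linear_combination -a14
  have b15 : D.dx 1 = 0 := by rw [b1, b3, b6, b13] at a15; linear_combination -a15
  exact ⟨b1, b2, b3, b4, b5, b6, b7, b8, b9, b10, b11, b12, b13, b14, b15⟩

/-- the subgroup `G0` -/
def k3bG (D : U6 F G) : Subgroup G where
  carrier := {g | D.α g = 0 ∧ D.β g = 0 ∧ D.da g = 0 ∧ D.ρ g = 0 ∧ D.t g = 0 ∧ D.dc g = 0}
  one_mem' := by
    obtain ⟨b1, b2, b3, -, -, -, b7, -, b9, b10, -⟩ := k3b_one D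
    exact ⟨b1, b2, b9, b3, b7, b10⟩
  mul_mem' := by
    rintro a b ⟨a1, a2, a3, a4, a5, a6⟩ ⟨b1, b2, b3, b4, b5, b6⟩
    refine ⟨?_, ?_, ?_, ?_, ?_, ?_⟩
    · rw [D.mα, a1, b1, add_zero]
    · rw [D.mβ, a2, b2, add_zero]
    · rw [D.mda, a3, b3, add_zero]
    · rw [D.mρ, a4, b4, a1]; ring
    · rw [D.mt, a5, b5, add_zero]
    · rw [D.mdc, a6, b6, a5]; ring
  inv_mem' := by
    rintro a ⟨a1, a2, a3, a4, a5, a6⟩
    obtain ⟨b1, b2, b3, -, -, -, b7, -, b9, b10, -⟩ := k3b_one D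
    have c1 := D.mα a a⁻¹
    have c2 := D.mβ a a⁻¹
    have c3 := D.mda a a⁻¹
    have c4 := D.mρ a a⁻¹
    have c5 := D.mt a a⁻¹
    have c6 := D.mdc a a⁻¹
    rw [mul_inv_cancel] at c1 c2 c3 c4 c5 c6
    rw [b1, a1] at c1
    rw [b2, a2] at c2
    rw [b9, a3] at c3
    rw [b3, a4, a1] at c4
    rw [b7, a5] at c5
    rw [b10, a6, a5] at c6
    refine ⟨?_, ?_, ?_, ?_, ?_, ?_⟩
    · linear_combination -c1
    · linear_combination -c2
    · linear_combination -c3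
    · linear_combination -c4
    · linear_combination -c5
    · linear_combination -c6

theorem k3b_memG {g : G} : g ∈ k3bG D ↔
    D.α g = 0 ∧ D.β g = 0 ∧ D.da g = 0 ∧ D.ρ g = 0 ∧ D.t g = 0 ∧ D.dc g = 0 := Iff.rfl

theorem k3b_conj (h g : G) : h * g * h⁻¹ * h = h * g := by group

instance k3bG_normal (D : U6 F G) : (k3bG D).Normal := by
  refine ⟨fun g hg h => ?_⟩
  obtain ⟨a1, a2, a3, a4, a5, a6⟩ := hg
  have c1 := D.mα (h * g * h⁻¹) h
  have c2 := D.mβ (h * g * h⁻¹) h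
  have c3 := D.mda (h * g * h⁻¹) h
  have c4 := D.mρ (h * g * h⁻¹) h
  have c5 := D.mt (h * g * h⁻¹) h
  have c6 := D.mdc (h * g * h⁻¹) h
  rw [k3b_conj] at c1 c2 c3 c4 c5 c6
  rw [D.mα h g, a1] at c1
  rw [D.mβ h g, a2] at c2
  rw [D.mda h g, a3] at c3
  rw [D.mρ h g, a4, a2] at c4
  rw [D.mt h g, a5] at c5
  rw [D.mdc h g, a6, a3] at c6
  have d1 : D.α (h * g * h⁻¹) = 0 := by linear_combination -c1
  have d5 : D.t (h * g * h⁻¹) = 0 := by linear_combination -c5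
  rw [d1] at c4
  rw [d5] at c6
  refine ⟨d1, ?_, ?_, ?_, d5, ?_⟩
  · linear_combination -c2
  · linear_combination -c3
  · linear_combination -c4
  · linear_combination -c6

/-- the subgroup `B` -/
def k3bB (D : U6 F G) : Subgroup G where
  carrier := {g | g ∈ k3bG D ∧ D.χw g = 0 ∧ D.χy g = 0 ∧ D.χx g = 0 ∧ D.πw g = 0 ∧ D.dw g = 0}
  one_mem' := by
    obtain ⟨-, -, -, b4, b5, b6, -, b8, -, -, b11, -⟩ := k3b_one D
    exact ⟨one_mem _, b4, b5, b6, b8, b11⟩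
  mul_mem' := by
    rintro a b ⟨ha, a1, a2, a3, a4, a5⟩ ⟨hb, b1, b2, b3, b4, b5⟩
    refine ⟨mul_mem ha hb, ?_, ?_, ?_, ?_, ?_⟩
    · rw [D.mχw, a1, b1, add_zero]
    · rw [D.mχy, a2, b2, b1]; ring
    · rw [D.mχx, a3, b3, b1, b2]; ring
    · rw [D.mπw, a4, b4, a1]; ring
    · rw [D.mdw, a5, b5, a1, a4]; ring
  inv_mem' := by
    rintro a ⟨ha, a1, a2, a3, a4, a5⟩
    obtain ⟨-, -, -, b4, b5, b6, -, b8, -, -, b11, -⟩ := k3b_one D
    obtain ⟨e1, e2, e3, e4, e5, e6⟩ := id ha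
    have c1 := D.mχw a a⁻¹
    have c2 := D.mχy a a⁻¹
    have c3 := D.mχx a a⁻¹
    have c4 := D.mπw a a⁻¹
    have c5 := D.mdw a a⁻¹
    rw [mul_inv_cancel] at c1 c2 c3 c4 c5
    rw [b4, a1] at c1
    rw [b5, a2, e2] at c2
    rw [b6, a3, e4, e1] at c3
    rw [b8, a4, a1] at c4
    rw [b11, a5, a1, a4] at c5
    refine ⟨inv_mem ha, ?_, ?_, ?_, ?_, ?_⟩
    · linear_combination -c1
    · linear_combination -c2
    · linear_combination -c3
    · linear_combination -c4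
    · linear_combination -c5

instance k3bB_normal (D : U6 F G) : (k3bB D).Normal := by
  refine ⟨fun g hg h => ?_⟩
  obtain ⟨hg, a1, a2, a3, a4, a5⟩ := hg
  have hc : h * g * h⁻¹ ∈ k3bG D := (k3bG_normal D).conj_mem g hg h
  obtain ⟨e1, e2, e3, e4, e5, e6⟩ := id hg
  obtain ⟨f1, f2, f3, f4, f5, f6⟩ := id hc
  have c1 := D.mχw (h * g * h⁻¹) h
  have c2 := D.mχy (h * g * h⁻¹) h
  have c3 := D.mχx (h * g * h⁻¹) h
  have c4 := D.mπw (h * g * h⁻¹) h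
  have c5 := D.mdw (h * g * h⁻¹) h
  rw [k3b_conj] at c1 c2 c3 c4 c5
  rw [D.mχw h g, a1] at c1
  rw [D.mχy h g, a2, a1, f2] at c2
  rw [D.mχx h g, a3, a1, a2, f4, f1] at c3
  have d1 : D.χw (h * g * h⁻¹) = 0 := by linear_combination -c1
  rw [D.mπw h g, a4, e5, d1] at c4
  have d4 : D.πw (h * g * h⁻¹) = 0 := by linear_combination -c4
  rw [D.mdw h g, a5, e6, e3, d1, d4] at c5
  refine ⟨hc, d1, ?_, ?_, d4, ?_⟩
  · linear_combination -c2
  · linear_combination -c3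
  · linear_combination -c5

/-- the comparison of the coordinates of `h g` and `b (g h)` -/
theorem k3b_cmp {g h b : G} (hg : g ∈ k3bG D) (hb : b ∈ k3bB D) (e : h * g = b * (g * h)) :
    D.β h * D.χw g = 0 ∧ D.ρ h * D.χw g + D.α h * D.χy g = 0 ∧ D.χw g * D.dc h + D.πw g * D.da h = 0 ∧
    D.πy b = D.β h * D.πw g - D.χy g * D.t h ∧
    D.πx b = D.ρ h * D.πw g + D.α h * D.πy g - D.χx g * D.t h ∧
    D.dy b = D.β h * D.dw g - D.χy g * D.dc h - D.πy g * D.da h - D.πy b * D.da h ∧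
    D.dx b = D.α h * D.dy g + D.ρ h * D.dw g - D.χx g * D.dc h - D.πx g * D.da h - D.πx b * D.da h := by
  obtain ⟨e1, e2, e3, e4, e5, e6⟩ := hg
  obtain ⟨⟨f1, f2, f3, f4, f5, f6⟩, a1, a2, a3, a4, a5⟩ := hb
  have c1 := congrArg D.χy e
  have c2 := congrArg D.χx e
  have c3 := congrArg D.dw e
  have c4 := congrArg D.πy e
  have c5 := congrArg D.πx e
  have c6 := congrArg D.dy e
  have c7 := congrArg D.dx e
  rw [D.mχy h g, D.mχy b, D.mχy g h, a2, f2, e2] at c1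
  rw [D.mχx h g, D.mχx b, D.mχx g h, a3, f4, f1, e4, e1] at c2
  rw [D.mdw h g, D.mdw b, D.mdw g h, a5, a1, a4, e6, e3] at c3
  rw [D.mπy h g, D.mπy b, D.mπy g h, a2, f2, e2, e5] at c4
  rw [D.mπx h g, D.mπx b, D.mπx g h, a3, f4, f1, e4, e1, e5] at c5
  rw [D.mdy h g, D.mdy b, D.mdy g h, D.mda g h, a2, f2, e2, e6, e3] at c6
  rw [D.mdx h g, D.mdx b, D.mdx g h, D.mda g h, a3, f4, f1, e4, e1, e6, e3] at c7
  refine ⟨?_, ?_, ?_, ?_, ?_, ?_, ?_⟩
  · linear_combination c1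
  · linear_combination c2
  · linear_combination -c3
  · linear_combination -c4
  · linear_combination -c5
  · linear_combination -c6
  · linear_combination -c7

theorem k3b_comm (h g : G) : h * g = h * g * h⁻¹ * g⁻¹ * (g * h) := by group

theorem k3b_q (F : Type*) [Field F] (q : ℕ) [UF F q] : q ≠ 0 := by
  have := two_le_q F q
  omega

theorem k3b_step (H : D.Hm q c0 κ) (hα : ∀ g, D.α g = D.da g) {g : G} (hg : g ∈ k3bG D)
    (hc : ∀ h : G, h * g * h⁻¹ * g⁻¹ ∈ k3bB D) : g ∈ k3bB D ∧ 2 * D.πy g = 0 := by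
  have hq := k3b_q F q
  have cmp := fun h => k3b_cmp hg (hc h) (k3b_comm h g)
  obtain ⟨u, hu, -⟩ := D.sur 1 0 0 0 0
  have hu' : D.α u = 1 := by rw [hα, hu]
  have hu'' : D.β u = c0 := by rw [H.hβ, hu', one_pow, mul_one]
  obtain ⟨u1, u2, u3, -⟩ := cmp u
  have w1 : D.χw g = 0 := by
    rw [hu''] at u1
    exact (mul_eq_zero.1 u1).resolve_left H.hc
  have w2 : D.χy g = 0 := by rw [w1, hu'] at u2; linear_combination u2
  have w3 : D.πw g = 0 := by rw [w1, hu] at u3; linear_combination u3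
  have star : ∀ h, D.πy (h * g * h⁻¹ * g⁻¹) = 0 ∧
      c0 * D.α h ^ q * D.dw g = 2 * D.α h * D.πy g - D.χx g * D.t h := by
    intro h
    obtain ⟨-, -, -, v4, v5, v6, -⟩ := cmp h
    rw [w3, w2] at v4
    have z1 : D.πy (h * g * h⁻¹ * g⁻¹) = 0 := by linear_combination v4
    obtain ⟨⟨f1, f2, f3, f4, f5, f6⟩, a1, a2, a3, a4, a5⟩ := hc h
    have z2 := K3b_Z hα f1 f2 f4 a1 a2 a3 f5 a4 z1 f6 a5
    refine ⟨z1, ?_⟩
    rw [w3] at v5
    rw [w2, z1, H.hβ, ← hα h] at v6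
    linear_combination z2 - v6 + v5
  by_cases hx : D.χx g = 0
  · have key : ∀ k : F, k * (-(2 * D.πy g)) + k ^ q * (c0 * D.dw g) = 0 := by
      intro k
      obtain ⟨h, hh, -⟩ := D.sur k 0 0 0 0
      have := (star h).2
      rw [hα h, hh, hx] at this
      linear_combination this
    obtain ⟨k1, k2⟩ := lin_conj_zero key
    exact ⟨⟨hg, w1, w2, hx, w3, (mul_eq_zero.1 k2).resolve_left H.hc⟩, by linear_combination -k1⟩
  · exfalso
    have key : ∀ k : F, ∃ h, D.α h = 0 ∧ D.ρ h * D.dw g = D.χx g * k := by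
      intro k
      obtain ⟨h, hh, hk, -⟩ := D.sur 0 k 0 0 0
      have h0 : D.α h = 0 := by rw [hα, hh]
      obtain ⟨s1, s2⟩ := star h
      rw [h0, zero_pow hq] at s2
      have ht : D.t h = 0 := by
        have : D.χx g * D.t h = 0 := by linear_combination s2
        exact (mul_eq_zero.1 this).resolve_left hx
      obtain ⟨-, -, -, -, v5, -, v7⟩ := cmp h
      rw [w3, h0, ht] at v5
      have z3 : D.πx (h * g * h⁻¹ * g⁻¹) = 0 := by linear_combination v5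
      obtain ⟨⟨f1, f2, f3, f4, f5, f6⟩, a1, a2, a3, a4, a5⟩ := hc h
      obtain ⟨b1, b2, b3, b4, b5, b6, b7, b8, b9, b10, b11, b12, b13, b14, b15⟩ := k3b_one D
      have z4 : h * g * h⁻¹ * g⁻¹ = 1 := D.ext _ _ (by rw [f1, b1]) (by rw [f2, b2]) (by rw [f4, b3])
        (by rw [a1, b4]) (by rw [a2, b5]) (by rw [a3, b6]) (by rw [f5, b7]) (by rw [a4, b8])
        (by rw [s1, b12]) (by rw [z3, b13])
      rw [z4, b15, h0, hh, hk] at v7
      exact ⟨h, h0, by linear_combination -v7⟩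
    have hd : D.dw g ≠ 0 := by
      intro h0
      obtain ⟨h, -, hh⟩ := key 1
      rw [h0] at hh
      exact hx (by linear_combination -hh)
    have key2 : ∀ r : F, r * κ + r ^ q * κ ^ q = 0 := by
      intro r
      obtain ⟨h, h0, hh⟩ := key (r * D.dw g / D.χx g)
      have hr : D.ρ h = r := by
        have : D.ρ h * D.dw g = r * D.dw g := by rw [hh]; field_simp
        exact mul_right_cancel₀ hd this
      have := H.hρ h h0
      rw [hr, mul_pow] at this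
      exact this
    exact H.hκ (lin_conj_zero key2).1

theorem k3b_le (hG : IsPGroup p G) (H : D.Hm q c0 κ) (hα : ∀ g, D.α g = D.da g) {g : G}
    (hg : g ∈ k3bG D) : g ∈ k3bB D := by
  by_contra hn
  obtain ⟨z, hz, hzB, hc⟩ := exists_central_mod hG (k3bB D) (k3bG D) ⟨g, hg, hn⟩
  exact hzB (k3b_step H hα hz hc).1

theorem k3b_commG {g : G} (hg : g ∈ k3bG D) (h : G) : h * g * h⁻¹ * g⁻¹ ∈ k3bG D :=
  mul_mem ((k3bG_normal D).conj_mem g hg h) (inv_mem hg)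

theorem k3b_of (H : D.Hm q c0 κ) (hα : ∀ g, D.α g = D.da g) {g : G}
    (h1 : D.α g = 0) (h2 : D.ρ g = 0) (h3 : D.t g = 0) (h4 : D.dc g = 0) : g ∈ k3bG D :=
  ⟨h1, by rw [H.hβ, h1, zero_pow (k3b_q F q), mul_zero], by rw [← hα, h1], h2, h3, h4⟩

/-- `G0 = {α = ρ = t = dc = 0}` (so `β = da = 0`) and `B = G0 ∩ {χw = χy = χx = πw = dw = 0}` are normal
subgroups (all coordinates vanish at `1`; inverses from `g g⁻¹ = 1`; for normality expand
`h g = b (g h)`, `b = h g h⁻¹ g⁻¹`, or `h g = (h g h⁻¹) h`).  For `b ∈ B` and any `k`: `b k` has the same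
`α β ρ χw χy χx t πw da dc dw` as `k`, `πy, πx` add, `dy (b k) = dy b + dy k + πy b da k`,
`dx (b k) = dx b + dx k + πx b da k`.
If `B ≠ G0`, `exists_central_mod` gives `g ∈ G0 \ B` with `h g = b (g h)`, `b = b(h) ∈ B`.  Compare:
`χy`: `β h χw g = 0` so `χw g = 0` (`α = da` is onto); `χx`: `χy g = 0`; `dw`: `πw g da h = 0` so
`πw g = 0`; `πy`: `πy b = β h πw g = 0`; `πx`: `πx b = α h πy g - χx g t h`, `= dy b` by `K3b_Z`;
`dy`: (*) `c0 (α h)^q dw g = 2 α h πy g - χx g t h`;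
`dx`: `dx b = α h dy g + ρ h dw g - χx g dc h - πx g α h - πx b α h`.
If `χx g = 0`: (*) and `lin_conj_zero` give `dw g = 0`, so `g ∈ B`.  If `χx g ≠ 0`: for `da h = 0`,
`dc h = k` arbitrary, (*) gives `t h = 0`, so `πx b = 0`, `b = 1` (`ext`), `dx b = 0`, i.e.
`ρ h dw g = χx g k`; so `dw g ≠ 0` and `hρ` holds for all elements of `F`, against `lin_conj_zero`.
So `G0 = B`; now (*) holds for every `g ∈ G0` (normality) and reads `0 = 2 α h πy g`. -/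
theorem K3b_eq (hG : IsPGroup p G) (H : D.Hm q c0 κ) (hα : ∀ g, D.α g = D.da g) {g : G}
    (h1 : D.α g = 0) (h2 : D.ρ g = 0) (h3 : D.t g = 0) (h4 : D.dc g = 0) :
    D.χw g = 0 ∧ D.χy g = 0 ∧ D.χx g = 0 ∧ D.πw g = 0 ∧ D.dw g = 0 ∧ 2 * D.πy g = 0 := by
  have hg := k3b_of H hα h1 h2 h3 h4
  obtain ⟨⟨-, a1, a2, a3, a4, a5⟩, a6⟩ := k3b_step H hα hg fun h => k3b_le hG H hα (k3b_commG hg h)
  exact ⟨a1, a2, a3, a4, a5, a6⟩

/-- For `g ∈ G0` with `s = πy g ≠ 0` and any `h`, `b = h g h⁻¹ g⁻¹ ∈ G0` has `πy b = 0`,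
`πx b = α h s`, `dx b = α h A - (α h)² s`, `A = dy g - πx g` (formulas of `K3b_eq`).  For two such
`g, g'` and `μ ∈ F` choose `α h = μ / s`, `α h' = μ / s'`: `b = b'` by `ext`, so
`A μ/s - μ²/s = A' μ/s' - μ²/s'` for all `μ`; `μ = 1` and `μ ∉ {0, 1}` give `s = s'`. -/
theorem K3b_s (hG : IsPGroup p G) (H : D.Hm q c0 κ) (hα : ∀ g, D.α g = D.da g) :
    ∃ s₀ : F, ∀ g, D.α g = 0 → D.ρ g = 0 → D.t g = 0 → D.dc g = 0 → D.πy g = 0 ∨ D.πy g = s₀ := by
  have key : ∀ g, g ∈ k3bG D → D.πy g ≠ 0 → ∀ μ : F, ∃ b, b ∈ k3bB D ∧ D.πy b = 0 ∧ D.πx b = μ ∧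
      D.dx b * D.πy g = μ * (D.dy g - D.πx g) - μ ^ 2 := by
    intro g hg hs μ
    obtain ⟨h, hh, -⟩ := D.sur (μ / D.πy g) 0 0 0 0
    have hb := k3b_le hG H hα (k3b_commG hg h)
    obtain ⟨-, a1, a2, a3, a4, a5⟩ := k3b_le hG H hα hg
    obtain ⟨-, -, -, v4, v5, -, v7⟩ := k3b_cmp hg hb (k3b_comm h g)
    rw [a4, a2] at v4
    rw [a4, a3, hα h, hh] at v5
    have z : D.πx (h * g * h⁻¹ * g⁻¹) = μ := by rw [v5]; field_simp; ring
    rw [a5, a3, hα h, hh, z] at v7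
    refine ⟨_, hb, by linear_combination v4, z, ?_⟩
    rw [v7]; field_simp; ring
  by_cases hex : ∃ g, g ∈ k3bG D ∧ D.πy g ≠ 0
  · obtain ⟨g', hg', hs'⟩ := hex
    refine ⟨D.πy g', fun g h1 h2 h3 h4 => ?_⟩
    have hg := k3b_of H hα h1 h2 h3 h4
    by_cases hs : D.πy g = 0
    · exact Or.inl hs
    right
    have key2 : ∀ μ : F, (μ * (D.dy g - D.πx g) - μ ^ 2) * D.πy g' =
        (μ * (D.dy g' - D.πx g') - μ ^ 2) * D.πy g := by
      intro μ
      obtain ⟨b, ⟨⟨f1, f2, f3, f4, f5, f6⟩, a1, a2, a3, a4, a5⟩, b1, b2, b3⟩ := key g hg hs μ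
      obtain ⟨b', ⟨⟨f1', f2', f3', f4', f5', f6'⟩, a1', a2', a3', a4', a5'⟩, b1', b2', b3'⟩ :=
        key g' hg' hs' μ
      have e : b = b' := D.ext _ _ (by rw [f1, f1']) (by rw [f2, f2']) (by rw [f4, f4'])
        (by rw [a1, a1']) (by rw [a2, a2']) (by rw [a3, a3']) (by rw [f5, f5']) (by rw [a4, a4'])
        (by rw [b1, b1']) (by rw [b2, b2'])
      subst e
      rw [← b3, ← b3']; ring
    obtain ⟨k, k0, k1, -⟩ := exists_ne_zero_one F q
    have e1 := key2 1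
    have e2 := key2 k
    have e3 : k * (k - 1) * (D.πy g - D.πy g') = 0 := by linear_combination e2 - k * e1
    rcases mul_eq_zero.1 e3 with e4 | e4
    · rcases mul_eq_zero.1 e4 with e5 | e5
      · exact absurd e5 k0
      · exact absurd (sub_eq_zero.1 e5) k1
    · exact sub_eq_zero.1 e4
  · refine ⟨0, fun g h1 h2 h3 h4 => Or.inl ?_⟩
    by_contra hs
    exact hex ⟨g, k3b_of H hα h1 h2 h3 h4, hs⟩

end Cfsg.Agent.U11
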