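import Cfsg.Agent.U11.K3a
import Cfsg.Agent.U11.K3b

/-!
# Rank three: the contradiction
-/

set_option autoImplicit false
set_option linter.unusedSectionVars false

namespace Cfsg.Agent.U11

open Cfsg.Agent.Class.U Cfsg.Agent.Char

variable {F G : Type*} [Field F] [Fintype F] {q : ℕ} [UF F q] [Group G] [Finite G]
  {p : ℕ} [Fact p.Prime] [CharP F p] {D : U6 F G} {c0 κ : F}

/-- the kernel of a function additive on `H` -/
def k3cKer (H : Subgroup G) (f : G → F) (hf : ∀ a ∈ H, ∀ b ∈ H, f (a * b) = f a + f b) : Subgroup G where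
  carrier := {a | a ∈ H ∧ f a = 0}
  one_mem' := ⟨one_mem _, by simpa using hf 1 (one_mem _) 1 (one_mem _)⟩
  mul_mem' {a b} ha hb := ⟨mul_mem ha.1 hb.1, by rw [hf a ha.1 b hb.1, ha.2, hb.2, add_zero]⟩
  inv_mem' {a} ha := ⟨inv_mem ha.1, by
    have h1 : f 1 = 0 := by simpa using hf 1 (one_mem _) 1 (one_mem _)
    have h2 := hf a ha.1 a⁻¹ (inv_mem ha.1)
    rw [mul_inv_cancel, h1, ha.2, zero_add] at h2
    exact h2.symm⟩

theorem k3c_one (D : U6 F G) : D.α 1 = 0 ∧ D.β 1 = 0 ∧ D.ρ 1 = 0 ∧ D.χw 1 = 0 ∧ D.χy 1 = 0 ∧ D.χx 1 = 0 ∧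
    D.t 1 = 0 ∧ D.πw 1 = 0 ∧ D.πy 1 = 0 ∧ D.πx 1 = 0 ∧ D.dx 1 = 0 := by
  have a : D.α 1 = 0 := by simpa using D.mα 1 1
  have b : D.β 1 = 0 := by simpa using D.mβ 1 1
  have c : D.ρ 1 = 0 := by simpa [a] using D.mρ 1 1
  have d : D.χw 1 = 0 := by simpa using D.mχw 1 1
  have e : D.χy 1 = 0 := by simpa [b] using D.mχy 1 1
  have f : D.χx 1 = 0 := by simpa [a, c] using D.mχx 1 1
  have g : D.t 1 = 0 := by simpa using D.mt 1 1
  exact ⟨a, b, c, d, e, f, g, by simpa [g] using D.mπw 1 1, by simpa [g, b] using D.mπy 1 1,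
    by simpa [g, a, c] using D.mπx 1 1, by
      have h : D.da 1 = 0 := by simpa using D.mda 1 1
      simpa [a, c, f, h] using D.mdx 1 1⟩

theorem k3c_β (H : D.Hm q c0 κ) {g : G} (h : D.α g = 0) : D.β g = 0 := by
  rw [H.hβ, h, zero_pow (by have := two_le_q F q; omega), mul_zero]

theorem k3c_eq_one (hG : IsPGroup p G) (H : D.Hm q c0 κ) (hα : ∀ g, D.α g = D.da g) {g : G}
    (h1 : D.α g = 0) (h2 : D.ρ g = 0) (h3 : D.t g = 0) (h4 : D.dc g = 0) (h5 : D.πy g = 0)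
    (h6 : D.πx g = 0) : g = 1 := by
  obtain ⟨e1, e2, e3, e4, -, -⟩ := K3b_eq hG H hα h1 h2 h3 h4
  obtain ⟨a, b, c, d, e, f, g', h, i, j, -⟩ := k3c_one D
  exact D.ext _ _ (h1.trans a.symm) ((k3c_β H h1).trans b.symm) (h2.trans c.symm) (e1.trans d.symm)
    (e2.trans e.symm) (e3.trans f.symm) (h3.trans g'.symm) (e4.trans h.symm) (h5.trans i.symm)
    (h6.trans j.symm)

theorem k3c_pair (H K : Subgroup G) (f : G → F) (s : F)
    (hf : ∀ a ∈ H, ∀ b ∈ H, f (a * b) = f a + f b) (h1 : ∀ a ∈ H, f a = 0 ∨ f a = s)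
    (h2 : ∀ a ∈ H, f a = 0 → a ∈ K) : Nat.card H ≤ 2 * Nat.card K := by
  refine (card_le_mul H K f {0, s} (Set.toFinite _) hf h1 h2).trans (Nat.mul_le_mul_right _ ?_)
  exact (Set.ncard_insert_le _ _).trans (by simp)

/-- Counting.  `G1 = ker α` has order `≥ q^8` (`U6.card_ge`, `card_le_sq`).  Chains
`G1 ≥ G1 ∩ ker t ≥ GW = {α = ρ = t = 0} ≥ G0 = GW ∩ ker dc ≥ G0 ∩ ker πy ≥ 1`; `t, ρ, dc` are additive
on `G1`, `πy, πx` on `G0` (`K3b_eq`), indices `≤ q², q, q², 2, q²` (`K3b_s`; last step `ext`).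
If `(2 : F) ≠ 0` then `πy = 0` on `G0` and `q^8 ≤ q^7`.  If `t` takes at most one non-zero value on
`G1` then `q^8 ≤ 2 q q² 2 q²`; if `ρ = 0` on `G1` then `q^8 ≤ q² q² 2 q²`; if `dc = 0` on `GW` then
`q^8 ≤ q² q 2 q²`; all false for `q ≥ 2`. -/
theorem K3c_count (hG : IsPGroup p G) (H : D.Hm q c0 κ) (hα : ∀ g, D.α g = D.da g) :
    (2 : F) = 0 ∧ (∃ g g', D.α g = 0 ∧ D.α g' = 0 ∧ D.t g ≠ 0 ∧ D.t g' ≠ 0 ∧ D.t g ≠ D.t g') ∧
      (∃ g, D.α g = 0 ∧ D.ρ g ≠ 0) ∧ ∃ g, D.α g = 0 ∧ D.ρ g = 0 ∧ D.t g = 0 ∧ D.dc g ≠ 0 := by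
  have q2 := two_le_q F q
  obtain ⟨s₀, hs⟩ := K3b_s hG H hα
  let G1 := k3cKer ⊤ D.α fun a _ b _ => D.mα a b
  let Gt := k3cKer G1 D.t fun a _ b _ => D.mt a b
  have aρ : ∀ a ∈ Gt, ∀ b ∈ Gt, D.ρ (a * b) = D.ρ a + D.ρ b := fun a ha b _ => by
    rw [D.mρ, ha.1.2, zero_mul, add_zero]
  let GW := k3cKer Gt D.ρ aρ
  have ac : ∀ a ∈ GW, ∀ b ∈ GW, D.dc (a * b) = D.dc a + D.dc b := fun a ha b _ => by
    rw [D.mdc, ha.1.2, zero_mul, add_zero]
  let G0 := k3cKer GW D.dc ac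
  have ay : ∀ a ∈ G0, ∀ b ∈ G0, D.πy (a * b) = D.πy a + D.πy b := fun a ha b hb => by
    rw [D.mπy, hb.1.1.2, k3c_β H ha.1.1.1.2]; ring
  let Gy := k3cKer G0 D.πy ay
  have c0' : q ^ 10 ≤ q ^ 2 * Nat.card G1 := by
    have := card_le_sq q ⊤ G1 D.α (fun a _ b _ => D.mα a b) fun a ha e => ⟨ha, e⟩
    rw [Subgroup.card_top] at this
    exact (D.card_ge q).trans this
  have c1 : Nat.card G1 ≤ q ^ 2 * Nat.card Gt :=
    card_le_sq q G1 Gt D.t (fun a _ b _ => D.mt a b) fun a ha e => ⟨ha, e⟩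
  have c2 : Nat.card Gt ≤ q * Nat.card GW :=
    card_le_tr Gt GW D.ρ H.hκ aρ (fun a ha => H.hρ a ha.1.2) fun a ha e => ⟨ha, e⟩
  have c3 : Nat.card GW ≤ q ^ 2 * Nat.card G0 := card_le_sq q GW G0 D.dc ac fun a ha e => ⟨ha, e⟩
  have c4 : Nat.card G0 ≤ 2 * Nat.card Gy :=
    k3c_pair G0 Gy D.πy s₀ ay (fun a ha => hs a ha.1.1.1.2 ha.1.2 ha.1.1.2 ha.2) fun a ha e => ⟨ha, e⟩
  have c5 : Nat.card Gy ≤ q ^ 2 := by
    have := card_le_sq q Gy ⊥ D.πx (fun a ha b hb => by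
      rw [D.mπx, hb.1.1.1.2, ha.1.1.2, ha.1.1.1.1.2]; ring) fun a ha e =>
        Subgroup.mem_bot.2 (k3c_eq_one hG H hα ha.1.1.1.1.2 ha.1.1.2 ha.1.1.1.2 ha.1.2 ha.2 e)
    simpa using this
  have fin : ∀ a b c d : ℕ, Nat.card G1 ≤ a * Nat.card Gt → Nat.card Gt ≤ b * Nat.card GW →
      Nat.card GW ≤ c * Nat.card G0 → Nat.card G0 ≤ d * Nat.card Gy → q ^ 6 ≤ a * b * c * d := by
    intro a b c d h1 h2 h3 h4
    have : q ^ 4 * q ^ 6 ≤ q ^ 4 * (a * b * c * d) := calc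
      q ^ 4 * q ^ 6 = q ^ 10 := by ring
      _ ≤ q ^ 2 * (a * (b * (c * (d * q ^ 2)))) := by
        refine c0'.trans (Nat.mul_le_mul_left _ (h1.trans (Nat.mul_le_mul_left _ (h2.trans
          (Nat.mul_le_mul_left _ (h3.trans (Nat.mul_le_mul_left _ (h4.trans (Nat.mul_le_mul_left _ c5)))))))))
      _ = q ^ 4 * (a * b * c * d) := by ring
    exact Nat.le_of_mul_le_mul_left this (by positivity)
  have cx : ∀ m n : ℕ, q ^ 6 ≤ q ^ m * n → m ≤ 6 → n < 2 ^ (6 - m) → False := fun m n h hm hn => by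
    have e : q ^ 6 = q ^ m * q ^ (6 - m) := by rw [← pow_add]; congr 1; omega
    rw [e] at h
    exact absurd ((Nat.pow_le_pow_left q2 _).trans (Nat.le_of_mul_le_mul_left h (by positivity))) hn.not_ge
  refine ⟨?_, ?_, ?_, ?_⟩
  · by_contra h2
    have := fin _ _ _ 1 c1 c2 c3 (by
      rw [one_mul]
      exact Subgroup.card_le_of_le fun a ha => ⟨ha, (mul_eq_zero.1
        (K3b_eq hG H hα ha.1.1.1.2 ha.1.2 ha.1.1.2 ha.2).2.2.2.2.2).resolve_left h2⟩)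
    exact cx 5 1 (this.trans_eq (by ring)) (by omega) (by norm_num)
  · by_contra! h
    have h1 : ∃ s, ∀ a ∈ G1, D.t a = 0 ∨ D.t a = s := by
      by_cases e : ∃ a ∈ G1, D.t a ≠ 0
      · obtain ⟨a, ha, e⟩ := e
        exact ⟨D.t a, fun b hb => (eq_or_ne _ _).imp_right fun e' => h b a hb.2 ha.2 e' e⟩
      · push Not at e
        exact ⟨0, fun a ha => .inl (e a ha)⟩
    obtain ⟨s, h1⟩ := h1
    have := fin 2 _ _ _ (k3c_pair G1 Gt D.t s (fun a _ b _ => D.mt a b) h1 fun a ha e => ⟨ha, e⟩) c2 c3 c4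
    exact cx 3 4 (this.trans_eq (by ring)) (by omega) (by norm_num)
  · by_contra! h
    have := fin _ 1 _ _ c1 (by
      rw [one_mul]
      exact Subgroup.card_le_of_le fun a ha => ⟨ha, h a ha.1.2⟩) c3 c4
    exact cx 4 2 (this.trans_eq (by ring)) (by omega) (by norm_num)
  · by_contra! h
    have := fin _ _ 1 _ c1 c2 (by
      rw [one_mul]
      exact Subgroup.card_le_of_le fun a ha => ⟨ha, h a ha.1.1.2 ha.2 ha.1.2⟩) c4
    exact cx 3 2 (this.trans_eq (by ring)) (by omega) (by norm_num)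

/-- `p = 2` (`K3c_count`).  For `g ∈ GW` and any `h`: `b = h g h⁻¹ g⁻¹ ∈ G0`, `h g = b (g h)`
(`K3b_eq` for `b`).  Compare: `χy`: `χw g = 0`; `χx`: `χy g = 0`; `πy b = β h πw g ∈ {0, s₀}` for all
values `β h ∈ F` forces `πw g = 0`, `πy b = 0`; `dw`: `χw h dc g = 0`, so `χw ≡ 0` on `G`;
`πx b = α h πy g - χx g t h = dy b` (`K3b_Z`); `dy`: (**) `β h dw g + χy h dc g = χx g t h`.
(**) with `h ∈ G1`, `t h ≠ 0`: `χx = λ₀ dc` on `GW`; with `β h = 1`: `dw = κ' dc` on `GW`; with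
`dc g ≠ 0`: `χy = λ₀ t + κ' β` on `G`.  `πw` is additive; `θ = dw + κ' dc` satisfies
`θ (g h) = θ g + θ h + (πw g + κ' t g) α h` and vanishes on `GW`.  For `g ∈ G1`, `b = h g h⁻¹ g⁻¹ ∈ GW`,
`θ (h g) = θ (b g h) = θ (g h)` gives `πw g = κ' t g`.  For `g ∈ G1`: `g² ∈ G0`, `πy (g²) = λ₀ (t g)²
∈ {0, s₀}` for two different non-zero values of `t` forces `λ₀ = 0`; `dy (g²) = 0`, so `πx (g²) = 0`
(`K3b_Z`), `g² = 1` (`ext`), `0 = dx (g²) = ρ g dw g + χx g dc g`.  Replace `g` by `g k`, `k ∈ GW`,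
`dc k ≠ 0`: `χx g = κ' ρ g`, so `ρ g θ g = 0` on `G1`.  `θ, ρ` are additive on `G1` and `ρ g₁ ≠ 0` for
some `g₁`, so `θ = 0` on `G1`; but `sur` gives `da = dc = 0`, `dw = 1`. -/
theorem K3c (hG : IsPGroup p G) (H : D.Hm q c0 κ) (hα : ∀ g, D.α g = D.da g) : False := by
  obtain ⟨h2, ⟨g1, g1', a1, a1', t1, t1', tt⟩, ⟨g2, a2, r2⟩, g0, a0, r0, t0, d0⟩ := K3c_count hG H hα
  obtain ⟨s₀, hs⟩ := K3b_s hG H hα
  have sα : ∀ k : F, ∃ h, D.α h = k := fun k => (D.sur k 0 0 0 0).imp fun h e => (hα h).trans e.1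
  obtain ⟨u, au⟩ := sα 1
  have bu : D.β u = c0 := by rw [H.hβ, au, one_pow, mul_one]
  have hc := H.hc
  have cm : ∀ g, D.α g = 0 → ∀ h, ∃ b, h * g = b * (g * h) ∧ D.α b = 0 ∧ D.ρ b = 0 ∧ D.t b = 0 ∧
      (D.t g = 0 → D.dc b = 0) := fun g hg h => by
    have e : h * g = h * g * h⁻¹ * g⁻¹ * (g * h) := by group
    refine ⟨_, e, ?_⟩
    generalize h * g * h⁻¹ * g⁻¹ = b at e
    have e1 := congrArg D.α e
    have e2 := congrArg D.ρ e
    have e3 := congrArg D.t e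
    have e4 := congrArg D.dc e
    simp only [D.mα, D.mρ, D.mt, D.mdc, D.mda, ← hα] at e1 e2 e3 e4
    have ab : D.α b = 0 := by linear_combination -e1
    have tb : D.t b = 0 := by linear_combination -e3
    rw [ab, hg, k3c_β H hg] at e2
    rw [tb, hg] at e4
    exact ⟨ab, by linear_combination -e2, tb, fun t => by rw [t] at e4; linear_combination -e4⟩
  have A : ∀ g, D.α g = 0 → D.ρ g = 0 → D.t g = 0 → D.χw g = 0 ∧ D.χy g = 0 ∧ D.πw g = 0 := by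
    intro g ha hr ht
    have hb := k3c_β H ha
    have key : ∀ h, D.β h * D.χw g = 0 ∧ D.ρ h * D.χw g + D.α h * D.χy g = 0 ∧
        (D.β h * D.πw g - D.χy g * D.t h = 0 ∨ D.β h * D.πw g - D.χy g * D.t h = s₀) := fun h => by
      obtain ⟨b, e, ab, rb, tb, cb⟩ := cm g ha h
      obtain ⟨b1, b2, b3, b4, b5, -⟩ := K3b_eq hG H hα ab rb tb (cb ht)
      have e1 := congrArg D.χy e
      have e2 := congrArg D.χx e
      have e3 := congrArg D.πy e
      simp only [D.mχy, D.mχx, D.mπy, ha, hr, ht, hb, ab, rb, b1, b2, b3, k3c_β H ab] at e1 e2 e3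
      have e4 : D.β h * D.πw g - D.χy g * D.t h = D.πy b := by linear_combination e3
      exact ⟨by linear_combination e1, by linear_combination e2, e4 ▸ hs b ab rb tb (cb ht)⟩
    have w0 : D.χw g = 0 := by simpa [bu, hc] using (key u).1
    have y0 : D.χy g = 0 := by simpa [w0, au] using (key u).2.1
    refine ⟨w0, y0, ?_⟩
    by_contra hp
    obtain ⟨k, k0, k1, -⟩ := exists_ne_zero_one F q
    obtain ⟨v, av⟩ := sα k
    have p1 := (key u).2.2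
    have p2 := (key v).2.2
    rw [y0, zero_mul, sub_zero] at p1 p2
    rw [bu] at p1
    rw [H.hβ, av] at p2
    have e1 := p1.resolve_left (mul_ne_zero hc hp)
    have e2 := p2.resolve_left (mul_ne_zero (mul_ne_zero hc (pow_ne_zero _ k0)) hp)
    have e3 : k ^ q = 1 := by
      have : c0 * D.πw g * (k ^ q - 1) = 0 := by linear_combination e2 - e1
      exact sub_eq_zero.1 ((mul_eq_zero.1 this).resolve_left (mul_ne_zero hc hp))
    exact k1 ((conj F q).injective (e3.trans (map_one _).symm))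
  have B : ∀ g, D.α g = 0 → D.ρ g = 0 → D.t g = 0 → ∀ h, D.χw h * D.dc g = 0 ∧
      D.β h * D.dw g + D.χy h * D.dc g + D.χx g * D.t h = 0 := by
    intro g ha hr ht h
    have hb := k3c_β H ha
    obtain ⟨w0, y0, p0⟩ := A g ha hr ht
    obtain ⟨b, e, ab, rb, tb, cb⟩ := cm g ha h
    obtain ⟨b1, b2, b3, b4, b5, -⟩ := K3b_eq hG H hα ab rb tb (cb ht)
    have e1 := congrArg D.dw e
    have e2 := congrArg D.πx e
    have e3 := congrArg D.πy e
    have e4 := congrArg D.dy e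
    simp only [D.mdw, D.mπx, D.mπy, D.mdy, ← hα, ha, hr, ht, hb, ab, rb, b1, b2, b3, b4, b5, w0, y0, p0,
      k3c_β H ab] at e1 e2 e3 e4
    have yb : D.πy b = 0 := by linear_combination -e3
    have z := K3b_Z hα ab (k3c_β H ab) rb b1 b2 b3 tb b4 yb (cb ht) b5
    rw [yb] at e4
    exact ⟨by linear_combination e1, by linear_combination e4 + z - e2 + D.α h * D.πy g * h2⟩
  have w0 : ∀ h, D.χw h = 0 := fun h => (mul_eq_zero.1 (B g0 a0 r0 t0 h).1).resolve_right d0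
  obtain ⟨l, hl⟩ : ∃ l, ∀ g, D.α g = 0 → D.ρ g = 0 → D.t g = 0 → D.χx g = l * D.dc g :=
    ⟨-D.χy g1 / D.t g1, fun g ha hr ht => by
      have := (B g ha hr ht g1).2
      rw [k3c_β H a1] at this
      field_simp
      linear_combination this⟩
  obtain ⟨m, hm⟩ : ∃ m, ∀ g, D.α g = 0 → D.ρ g = 0 → D.t g = 0 → D.dw g = m * D.dc g :=
    ⟨-(D.χy u + l * D.t u) / c0, fun g ha hr ht => by
      have := (B g ha hr ht u).2
      rw [bu, hl g ha hr ht] at this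
      field_simp
      linear_combination this⟩
  have hy : ∀ h, D.χy h = -(l * D.t h) - m * D.β h := fun h => by
    have := (B g0 a0 r0 t0 h).2
    rw [hl g0 a0 r0 t0, hm g0 a0 r0 t0] at this
    have e : (D.χy h - (-(l * D.t h) - m * D.β h)) * D.dc g0 = 0 := by linear_combination this
    exact sub_eq_zero.1 ((mul_eq_zero.1 e).resolve_right d0)
  have sq : ∀ g, D.α g = 0 → D.α (g * g) = 0 ∧ D.ρ (g * g) = 0 ∧ D.t (g * g) = 0 ∧ D.dc (g * g) = 0 ∧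
      D.πy (g * g) = -(l * D.t g ^ 2) := fun g ha => by
    refine ⟨by rw [D.mα, ha, add_zero], ?_, ?_, ?_, ?_⟩
    · rw [D.mρ, ha]; linear_combination D.ρ g * h2
    · rw [D.mt]; linear_combination D.t g * h2
    · rw [D.mdc, ← hα, ha]; linear_combination D.dc g * h2
    · rw [D.mπy, hy, k3c_β H ha]; linear_combination D.πy g * h2
  have l0 : l = 0 := by
    by_contra hl0
    have k : ∀ g, D.α g = 0 → D.t g ≠ 0 → -(l * D.t g ^ 2) = s₀ := fun g ha ht => by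
      obtain ⟨x1, x2, x3, x4, x5⟩ := sq g ha
      exact (x5 ▸ hs _ x1 x2 x3 x4).resolve_left (neg_ne_zero.2 (mul_ne_zero hl0 (pow_ne_zero _ ht)))
    have e : l * (D.t g1 - D.t g1') ^ 2 = 0 := by
      linear_combination k g1' a1' t1' - k g1 a1 t1 + l * (D.t g1' ^ 2 - D.t g1 * D.t g1') * h2
    exact tt (sub_eq_zero.1 (pow_eq_zero_iff two_ne_zero |>.1 ((mul_eq_zero.1 e).resolve_left hl0)))
  subst l0
  have E1 : ∀ g, D.α g = 0 → D.ρ g * D.dw g + D.χx g * D.dc g = 0 := fun g ha => by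
    obtain ⟨x1, x2, x3, x4, x5⟩ := sq g ha
    rw [zero_mul, neg_zero] at x5
    obtain ⟨b1, b2, b3, b4, b5, -⟩ := K3b_eq hG H hα x1 x2 x3 x4
    have z := K3b_Z hα x1 (k3c_β H x1) x2 b1 b2 b3 x3 b4 x5 x4 b5
    have y : D.dy (g * g) = 0 := by
      rw [D.mdy, hy, ← hα, ha, k3c_β H ha]; linear_combination D.dy g * h2
    have e := congrArg D.dx (k3c_eq_one hG H hα x1 x2 x3 x4 x5 (z ▸ y))
    rw [(k3c_one D).2.2.2.2.2.2.2.2.2.2, D.mdx, ← hα, ha] at e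
    linear_combination e - D.dx g * h2
  have E2 : ∀ g, D.α g = 0 → D.ρ g * (D.dw g - m * D.dc g) = 0 := fun g ha => by
    have e := E1 (g * g0) (by rw [D.mα, ha, a0, add_zero])
    rw [D.mρ, D.mdw, D.mχx, D.mdc, ← hα, ha, a0, r0, w0, w0, hl g0 a0 r0 t0, hm g0 a0 r0 t0] at e
    have e' : (D.χx g + m * D.ρ g) * D.dc g0 = 0 := by linear_combination e - E1 g ha
    have e'' := (mul_eq_zero.1 e').resolve_right d0
    linear_combination E1 g ha - D.dc g * e''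
  obtain ⟨g, x1, x2, x3, -, -⟩ := D.sur 0 0 1 0 0
  rw [← hα] at x1
  have rg : D.ρ g = 0 := by simpa [x2, x3] using E2 g x1
  have e := E2 (g * g2) (by rw [D.mα, x1, a2, add_zero])
  rw [D.mρ, D.mdw, D.mdc, ← hα, x1, a2, rg, w0, x2, x3] at e
  exact r2 (by linear_combination e - E2 g2 a2)

end Cfsg.Agent.U11
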