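import Cfsg.Agent.U11.K4b

/-!
# Rank four, odd characteristic, `e` isotropic
-/

set_option autoImplicit false
set_option linter.unusedSectionVars false

namespace Cfsg.Agent.U11

open Cfsg.Agent.Class.U Cfsg.Agent.Char

variable {F G E : Type*} [Field F] [Fintype F] {q : ℕ} [UF F q] [Group G] [Finite G]
  [AddCommGroup E] [Module F E] [DistribMulAction G E] [SMulCommClass G F E]
  {p : ℕ} [Fact p.Prime] [CharP F p] {δ : G → E} {W : Submodule F E} {ψ : E → E → F} {x : E} {a e : E} {l : G → F}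

/-- `g, π, d = δ g` from `K4_g`, `k d = d + l π + μ e + m x` (`K4_E1`), `l = l k` arbitrary (`lsur`).
`ψ (k d) (k e) = ψ d e` gives `l ψ π e + l^q ψ d x = 0`, so `ψ π e = 0 = ψ d x` (`lin_conj_zero`).
`ψ (k d) (k π) = ψ d π` gives `ψ π π = 0` (not even needed).  `U = ⟨x, e⟩` has dimension `2` (`e` is
not fixed), `U ≤ pp U`, so `pp U = U` (`finrank_pp`) and `π = s e + m' x`, `s ≠ 0`; `μ = s l`;
`k d = d + 2 s l e + m'' x`.  `ψ (k d) (k d) = ψ d d` and `lin_conj_zero` give `ψ e d = 0`, so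
`d ∈ pp U = U`, `k d - d ∈ F x`, `2 s l e ∈ F x`: false for `l = 1`. -/
theorem K4c (h : Af F p δ) (H : Hf q G W ψ) (hx : Fx F G x) (D : K4S q δ W ψ x a e l)
    (h2 : (2 : F) ≠ 0) (he : ψ e e = 0) : False := by
  have := h.fin
  obtain ⟨g, hg, h1, h3, h4⟩ := K4_g h H hx D
  have πW := D.mva g
  have dW : δ g ∈ W := by simpa [D.l0 g hg] using D.hl g
  have key : ∀ c : F, ∃ (k : G) (μ m : F), k • e = e + c • x ∧ k • (g • a - a) = g • a - a + μ • x ∧
      k • δ g = δ g + c • (g • a - a) + μ • e + m • x := fun c => by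
    obtain ⟨k, rfl⟩ := D.lsur c
    obtain ⟨μ, hμ⟩ := h4 k
    obtain ⟨m, hm⟩ := K4_E1 h H hx D hg hμ
    exact ⟨k, μ, m, D.he k, hμ, hm⟩
  generalize g • a - a = π at *
  generalize δ g = d at *
  have xe := H.comm_zero D.eW D.xW D.ex
  obtain ⟨πe, dx⟩ := lin_conj_zero (q := q) (a := ψ π e) (b := ψ d x) fun c => by
    obtain ⟨k, μ, m, e1, -, e2⟩ := key c
    have := H.inv k d dW e D.eW
    simp only [e1, e2, H.addl, H.addr, H.smull, H.smulr, h3, he, D.ex, xe, D.xx] at this
    linear_combination this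
  have li : ∀ s t : F, s • x + t • e = 0 → s = 0 ∧ t = 0 := fun s t k0 => by
    obtain ⟨k, -, -, e1, -⟩ := key 1
    have : k • (s • x + t • e) = k • (0 : E) := by rw [k0]
    rw [smul_add, smul_comm k, smul_comm k, hx.fix, e1, smul_add, ← add_assoc, k0, zero_add, one_smul, smul_zero,
      smul_eq_zero, or_iff_left hx.ne] at this
    simpa [this, hx.ne] using k0
  have r := finrank_span_eq_card (LinearIndependent.pair_iff.2 li)
  rw [Matrix.range_cons_cons_empty, Fintype.card_fin] at r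
  have le : Submodule.span F {x, e} ≤ H.pp (Submodule.span F {x, e}) := Submodule.span_le.2 (by
    rintro _ (rfl | rfl) <;> simp [H.mem_pp_span, D.xW, D.eW, D.xx, D.ex, xe, he])
  have eq := Submodule.eq_of_le_of_finrank_eq le (by
    have := H.finrank_pp (le.trans (H.pp_le _))
    rw [D.rk] at this
    omega)
  have mem : ∀ y ∈ W, ψ y x = 0 → ψ y e = 0 → ∃ s t : F, s • x + t • e = y := fun y h5 h6 h7 =>
    Submodule.mem_span_pair.1 (eq.ge (H.mem_pp_span.2 ⟨h5, by simp [h6, h7]⟩))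
  obtain ⟨s, t, rfl⟩ := mem π πW h3 πe
  have t0 : t ≠ 0 := fun k => h1 s (by simp [k])
  have key' : ∀ c : F, ∃ (k : G) (m : F), k • e = e + c • x ∧ k • d = d + (c * (2 * t)) • e + m • x := fun c => by
    obtain ⟨k, μ, m, e1, e2, e3⟩ := key c
    rw [smul_add, smul_comm k, smul_comm k, hx.fix, e1, smul_add, ← add_assoc, add_right_inj, smul_smul] at e2
    exact ⟨k, c * s + m, e1, by rw [e3, ← smul_left_injective F hx.ne e2]; module⟩
  obtain ⟨ed, -⟩ := lin_conj_zero (q := q) (a := 2 * t * ψ e d) (b := (2 * t) ^ q * ψ d e) fun c => by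
    obtain ⟨k, m, -, e2⟩ := key' c
    have := H.inv k d dW d dW
    simp only [e2, H.addl, H.addr, H.smull, H.smulr, he, D.ex, xe, D.xx, dx, H.comm_zero dW D.xW dx,
      mul_pow c] at this
    linear_combination this
  obtain ⟨s', t', rfl⟩ := mem d dW dx
    (H.comm_zero D.eW dW ((mul_eq_zero.1 ed).resolve_left (mul_ne_zero h2 t0)))
  obtain ⟨k, m, e1, e2⟩ := key' 1
  rw [smul_add, smul_comm k, smul_comm k, hx.fix, e1] at e2
  exact mul_ne_zero h2 t0 (li (m - t') (2 * t) (by linear_combination (norm := module) e2.symm)).2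

end Cfsg.Agent.U11
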