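import Cfsg.Agent.U11.K4b

/-!
# Rank four, odd characteristic, `e` non-isotropic
-/

set_option autoImplicit false
set_option linter.unusedSectionVars false

namespace Cfsg.Agent.U11

open Cfsg.Agent.Class.U Cfsg.Agent.Char

variable {F G E : Type*} [Field F] [Fintype F] {q : ℕ} [UF F q] [Group G] [Finite G]
  [AddCommGroup E] [Module F E] [DistribMulAction G E] [SMulCommClass G F E]
  {p : ℕ} [Fact p.Prime] [CharP F p] {δ : G → E} {W : Submodule F E} {ψ : E → E → F} {x : E} {a e : E} {l : G → F}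

theorem k4d_T (h : Af F p δ) (H : Hf q G W ψ) (hx : Fx F G x) (D : K4S q δ W ψ x a e l)
    (he : ψ e e ≠ 0) (k : G) {y : E} (hy : y ∈ W) (yx : ψ y x = 0) : ∃ m : F, k • y = y + m • x := by
  have := h.fin
  have xe := H.comm_zero D.eW D.xW D.ex
  have UW : Submodule.span F {x, e} ≤ W := Submodule.span_le.2 (by
    rintro _ (rfl | rfl)
    exacts [D.xW, D.eW])
  have h1 := H.finrank_pp UW
  have h2 : Submodule.span F {x} < Submodule.span F {x, e} :=
    lt_of_le_of_ne (Submodule.span_mono (by simp)) fun k => he (by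
      obtain ⟨c, hc⟩ := Submodule.mem_span_singleton.1 (k.ge (Submodule.subset_span (by simp : e ∈ _)))
      conv_lhs => enter [1]; rw [← hc]
      rw [H.smull, xe, mul_zero])
  have h3 := Submodule.finrank_lt_finrank_of_lt h2
  have h4 := finrank_span_singleton (K := F) hx.ne
  have h5 := triv_of_codim_one h.pg (W₁ := Submodule.span F {x}) (W₂ := H.pp (Submodule.span F {x, e}))
    (fun g y hy => by
      obtain ⟨c, rfl⟩ := Submodule.mem_span_singleton.1 hy
      rwa [smul_comm, hx.fix])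
    (H.pp_inv UW fun g y hy => by
      obtain ⟨c, d, rfl⟩ := Submodule.mem_span_pair.1 hy
      rw [smul_add, smul_comm g, smul_comm g, hx.fix, D.he]
      exact Submodule.mem_span_pair.2 ⟨c + d * l g, d, by module⟩)
    (Submodule.span_le.2 (by
      rintro _ rfl
      refine H.mem_pp_span.2 ⟨D.xW, ?_⟩
      rintro _ (rfl | rfl)
      exacts [D.xx, xe])) (by have := D.rk; omega) k (y - (ψ y e / ψ e e) • e)
    (H.mem_pp_span.2 ⟨W.sub_mem hy (W.smul_mem _ D.eW), by
      rintro _ (rfl | rfl)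
      · rw [H.subl, H.smull, yx, D.ex, mul_zero, sub_zero]
      · rw [H.subl, H.smull, div_mul_cancel₀ _ he, sub_self]⟩)
  obtain ⟨c, hc⟩ := Submodule.mem_span_singleton.1 h5
  rw [smul_sub, smul_comm k, D.he] at hc
  generalize k • y = z at hc ⊢
  exact ⟨c + ψ y e / ψ e e * l k, by linear_combination (norm := module) -hc⟩

theorem k4d_d (D : K4S q δ W ψ x a e l) {g : G} (hg : g ∈ ptS G W) : δ g ∈ W := by
  simpa [D.l0 g hg] using D.hl g

theorem k4d_C (h : Af F p δ) (H : Hf q G W ψ) (hx : Fx F G x) (D : K4S q δ W ψ x a e l)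
    (h2 : (2 : F) ≠ 0) (he : ψ e e ≠ 0) {g : G} (hg : g ∈ ptS G W) (h3 : ψ (g • a - a) x = 0)
    (h4 : ψ (δ g) x = 0) : ∃ m : F, g • a - a = m • x := by
  obtain ⟨k, hk⟩ := D.lsur 1
  obtain ⟨μ, e1⟩ := k4d_T h H hx D he k (D.mva g) h3
  obtain ⟨m', e2⟩ := k4d_T h H hx D he k (k4d_d D hg) h4
  obtain ⟨m, e3⟩ := K4_E1 h H hx D hg e1
  rw [hk] at e3
  have e4 : g • a - a = (-μ) • e + (m' - m) • x := by
    generalize g • a = z at e3 ⊢
    generalize k • δ g = w at e2 e3
    linear_combination (norm := module) e2 - e3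
  rw [e4, smul_add, smul_comm k, smul_comm k, hx.fix, D.he, hk] at e1
  have e5 : (2 * μ) • x = 0 := by linear_combination (norm := module) -e1
  have e6 := (mul_eq_zero.1 ((smul_eq_zero.1 e5).resolve_right hx.ne)).resolve_left h2
  exact ⟨m' - m, by rw [e4, e6, neg_zero, zero_smul, zero_add]⟩

theorem k4d_GW (h : Af F p δ) (H : Hf q G W ψ) (hx : Fx F G x) (D : K4S q δ W ψ x a e l)
    (h2 : (2 : F) ≠ 0) (he : ψ e e ≠ 0) : Nat.card (ptS G W) ≤ q ^ 6 := by
  have := h.fin
  have ad : ∀ g ∈ ptS G W, ∀ k : G, (g * k) • a - a = (g • a - a) + (k • a - a) := fun g hg k => by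
    rw [← hg _ (D.mva k), smul_sub, mul_smul]; abel
  let B : Subgroup G :=
    { carrier := {g | g ∈ ptS G W ∧ g • a - a ∈ Submodule.span F {x}}
      mul_mem' := fun {g k} hg hk => ⟨mul_mem hg.1 hk.1, ad g hg.1 k ▸ add_mem hg.2 hk.2⟩
      one_mem' := ⟨one_mem _, by simp⟩
      inv_mem' := fun {g} hg => ⟨inv_mem hg.1, by
        have := ad g hg.1 g⁻¹
        rw [mul_inv_cancel, one_smul, sub_self, eq_comm, add_eq_zero_iff_neg_eq] at this
        exact this ▸ neg_mem hg.2⟩ }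
  have h3 := card_le_mul (ptS G W) B (fun g => (ψ (g • a - a) x, ψ (δ g) x)) Set.univ Set.finite_univ
    (fun g hg k hk => by rw [ad g hg, H.addl, h.coc, hg _ (k4d_d D hk), H.addl]; rfl)
    (fun _ _ => trivial) fun g hg e => by
      obtain ⟨m, hm⟩ := k4d_C h H hx D h2 he hg (congrArg Prod.fst e) (congrArg Prod.snd e)
      exact ⟨hg, Submodule.mem_span_singleton.2 ⟨m, hm.symm⟩⟩
  have h4 := card_le_mul B ⊥ (fun g => g • a - a) (Submodule.span F {x} : Submodule F E)
    (by have := two_le_q F q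
        have : Finite E := Nat.finite_of_card_ne_zero (by rw [h.card_E q]; positivity)
        exact Set.toFinite _)
    (fun g hg k _ => ad g hg.1 k) (fun g hg => hg.2) fun g hg e => h.fai g fun y => by
      obtain ⟨c, hc⟩ := D.top y
      have := hg.1 _ hc
      rwa [smul_sub, smul_comm g, sub_eq_zero.1 e, sub_left_inj] at this
  rw [← Nat.card_coe_set_eq, SetLike.coe_sort_coe, card_sub q, finrank_span_singleton hx.ne,
    Subgroup.card_bot, mul_one] at h4
  rw [Set.ncard_univ, Nat.card_prod, UF.card_eq (F := F) (q := q)] at h3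
  exact h3.trans ((Nat.mul_le_mul_left _ h4).trans (le_of_eq (by ring)))

/-- `X = pp (F x)`; `Y = pp ⟨x, e⟩ ∋ x` is invariant of dimension `2`, so `G` is trivial on `Y / F x`
(`triv_of_codim_one`), and `X = Y + F e`: (T) `k y - y ∈ F x` for `y ∈ X`.
(C) if `g ∈ GW = ptS G W`, `π = g a - a ⊥ x` and `δ g ⊥ x` then `π ∈ F x`: by (T) and `K4_E1`,
`l k • π + μ e ∈ F x`; `l k = 1` gives `π = s e + m x`, then `μ = s l k`, `2 s e ∈ F x`, `s = 0`.
So `|GW| ≤ q² q² q²` (`card_le_sq` for `ψ (g a - a) x`, `ψ (δ g) x`, additive on `GW`, then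
`g ↦ g a - a ∈ F x` injective).  The `g` of `K4_g` has `ψ d x ≠ 0`, `d = δ g`, by (C).  If `l k = 0`:
`ψ (k d) (k e) = ψ d e` gives `μ ψ e e = 0`, so `k d = d + m x`, and for `y ∈ X`, `k y = y + m' x`,
`ψ (k y) (k d) = ψ y d` gives `m' = 0`: `k ∈ ptS X`.  So `|G| ≤ q² |ptS X| ≤ q² q |GW| ≤ q^9` (`Hf.tv`,
`card_le_tr`), against `Af.card_ge`. -/
theorem K4d (h : Af F p δ) (H : Hf q G W ψ) (hx : Fx F G x) (D : K4S q δ W ψ x a e l)
    (h2 : (2 : F) ≠ 0) (he : ψ e e ≠ 0) : False := by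
  have := h.fin
  obtain ⟨g, hg, h3, h4, h5⟩ := K4_g h H hx D
  have dW := k4d_d D hg
  have dx : ψ (δ g) x ≠ 0 := fun k => (k4d_C h H hx D h2 he hg h4 k).elim h3
  have xd : ψ x (δ g) ≠ 0 := fun k => dx (H.comm_zero D.xW dW k)
  have mX : ∀ y, y ∈ H.pp (Submodule.span F {x}) ↔ y ∈ W ∧ ψ y x = 0 := fun y => by
    simp [H.mem_pp_span]
  have c1 := card_le_sq q ⊤ (ptS G (H.pp (Submodule.span F {x}))) l (fun s _ t _ => D.ladd s t)
    fun k _ hk y hy => by
      obtain ⟨μ, e1⟩ := h5 k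
      obtain ⟨m, e2⟩ := K4_E1 h H hx D hg e1
      have e3 := H.inv k _ dW _ D.eW
      rw [D.he, e2, hk, zero_smul, zero_smul, add_zero, add_zero, H.addl, H.addl, H.smull, H.smull,
        H.comm_zero D.eW D.xW D.ex, mul_zero, add_zero, add_eq_left] at e3
      rw [hk, (mul_eq_zero.1 e3).resolve_right he, zero_smul, zero_smul, add_zero, add_zero] at e2
      obtain ⟨yW, yx⟩ := (mX y).1 hy
      obtain ⟨m', e4⟩ := k4d_T h H hx D he k yW yx
      have e5 := H.inv k _ yW _ dW
      rw [e2, e4, H.addl, H.addr, H.smulr, yx, H.smull, H.addr, H.smulr, D.xx, mul_zero, add_zero,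
        add_zero, add_eq_left] at e5
      rw [e4, (mul_eq_zero.1 e5).resolve_right xd, zero_smul, add_zero]
  have tv : ∀ k ∈ ptS G (H.pp (Submodule.span F {x})), _ := fun k hk =>
    H.tv D.xW hx.ne D.xx (g := k) fun y hy e => hk y ((mX y).2 ⟨hy, e⟩)
  choose! r r1 r2 using tv
  have c2 := card_le_tr (q := q) (ptS G (H.pp (Submodule.span F {x}))) (ptS G W) r one_ne_zero
    (fun s hs t ht => by
      have e1 := r2 _ (mul_mem hs ht) _ dW
      rw [mul_smul, r2 t ht _ dW, smul_add, smul_comm s, hx.fix, r2 s hs _ dW, add_assoc, ← add_smul,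
        add_right_inj, ← add_mul] at e1
      exact (mul_right_cancel₀ dx (smul_left_injective F hx.ne e1)).symm)
    (fun s hs => by rw [mul_one]; exact r1 s hs)
    fun s hs e y hy => by rw [r2 s hs y hy, e, zero_mul, zero_smul, add_zero]
  have c3 := k4d_GW h H hx D h2 he
  have c4 := h.card_ge q
  rw [Subgroup.card_top] at c1
  have c5 : q ^ 10 ≤ q ^ 9 := c4.trans (c1.trans ((Nat.mul_le_mul_left _
    (c2.trans (Nat.mul_le_mul_left _ c3))).trans (le_of_eq (by ring))))
  exact absurd ((Nat.pow_le_pow_iff_right (two_le_q F q)).1 c5) (by norm_num)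

end Cfsg.Agent.U11
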