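import Cfsg.Agent.U11.K4a
import Cfsg.Agent.U11.K4c
import Cfsg.Agent.U11.K4d

/-!
# Rank four
-/

set_option autoImplicit false
set_option linter.unusedSectionVars false

namespace Cfsg.Agent.U11

open Cfsg.Agent.Class.U Cfsg.Agent.Char

variable {F G E : Type*} [Field F] [Fintype F] {q : ℕ} [UF F q] [Group G] [Finite G]
  [AddCommGroup E] [Module F E] [DistribMulAction G E] [SMulCommClass G F E]
  {p : ℕ} [Fact p.Prime] [CharP F p] {δ : G → E} {W : Submodule F E} {ψ : E → E → F} {x : E}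

theorem K4 (h : Af F p δ) (H : Hf q G W ψ) (hx : Fx F G x) (h4 : Module.finrank F W = 4) :
    (2 : F) = 0 ∧ ∃ z : G, (∀ k, z * k = k * z) ∧
      (∀ y, ∃ k : F, z • y = y + k • x) ∧ z • δ z = δ z ∧ ∀ k : F, δ z ≠ k • x := by
  obtain ⟨a, e, l, D, hz⟩ := K4_struct h H hx h4
  refine ⟨by_contra fun h2 => ?_, hz⟩
  by_cases he : ψ e e = 0
  · exact K4c h H hx D h2 he
  · exact K4d h H hx D h2 he

end Cfsg.Agent.U11
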