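import Cfsg.Agent.U11.LA3

/-!
# Rank four: structure
-/

set_option autoImplicit false
set_option linter.unusedSectionVars false

namespace Cfsg.Agent.U11

open Cfsg.Agent.Class.U Cfsg.Agent.Char

variable {F G E : Type*} [Field F] [Fintype F] {q : ℕ} [UF F q] [Group G] [Finite G]
  [AddCommGroup E] [Module F E] [DistribMulAction G E] [SMulCommClass G F E]
  {p : ℕ} [Fact p.Prime] [CharP F p] {δ : G → E} {W : Submodule F E} {ψ : E → E → F} {x : E} {a e : E} {l : G → F}

theorem k4a_sup [Module.Finite F E] {U₁ U₂ : Submodule F E} (hle : U₁ ≤ U₂)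
    (h : Module.finrank F U₂ ≤ Module.finrank F U₁ + 1) {u : E} (u2 : u ∈ U₂) (u1 : u ∉ U₁) {y : E}
    (hy : y ∈ U₂) : ∃ k : F, y - k • u ∈ U₁ := by
  have e : U₁ ⊔ Submodule.span F {u} = U₂ := Submodule.eq_of_le_of_finrank_le
    (sup_le hle ((Submodule.span_singleton_le_iff_mem _ _).2 u2)) (h.trans (Submodule.finrank_lt_finrank_of_lt
      (left_lt_sup.2 (mt (Submodule.span_singleton_le_iff_mem _ _).1 u1))))
  obtain ⟨z, hz, v, hv, rfl⟩ := Submodule.mem_sup.1 (e ▸ hy)
  obtain ⟨k, rfl⟩ := Submodule.mem_span_singleton.1 hv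
  exact ⟨k, by rwa [add_sub_cancel_right]⟩

theorem k4a_step (q : ℕ) [UF F q] [Module.Finite F E] (hG : IsPGroup p G) {U₁ U₂ : Submodule F E}
    (h1 : ∀ g : G, ∀ y ∈ U₁, g • y ∈ U₁) (h2 : ∀ g : G, ∀ y ∈ U₂, g • y ∈ U₂) (hle : U₁ ≤ U₂)
    (h : Module.finrank F U₂ = Module.finrank F U₁ + 1) :
    Nat.card (ptS G U₁) ≤ q ^ (2 * Module.finrank F U₁) * Nat.card (ptS G U₂) := by
  have : Finite E := Module.finite_of_finite F
  obtain ⟨u, u2, u1⟩ := SetLike.exists_of_lt (Submodule.lt_of_le_of_finrank_lt_finrank hle (by omega))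
  have := card_le_mul' (ptS G U₁) (ptS G U₂) (fun g => g • u - u) U₁ (Set.toFinite _)
    (fun g _ => triv_of_codim_one hG h1 h2 hle h.le g u u2) fun g hg k hk e y hy => by
      obtain ⟨c, hc⟩ := k4a_sup hle h.le u2 u1 hy
      have e' : g • u = k • u := sub_left_injective e
      rw [mul_smul, inv_smul_eq_iff, ← sub_add_cancel y (c • u), smul_add, smul_add, hg _ hc, hk _ hc,
        smul_comm g c, smul_comm k c, e']
  rwa [← Nat.card_coe_set_eq, show Nat.card (U₁ : Set E) = _ from card_sub q U₁] at this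

/-- `X = pp (F x)` has dimension `3` (`Hf.iso`, `finrank_pp`); `y₁ ∈ X \ F x` fixed mod `F x`
(`exists_fix_mod`), `y₂ ∈ X \ ⟨x, y₁⟩` (`triv_of_codim_one`).  `card_le_mul'` for
`g ↦ (g y₁, g y₂) ∈ (y₁ + F x) × (y₂ + F y₁ + F x)` gives `|G| ≤ q^6 |ptS X|`; `Hf.tv` and `card_le_tr`
(`κ = 1`, `g ↦ r = ψ (g y₀ - y₀) y₁'`, or `choose`) give `|ptS X| ≤ q |ptS W|`; `Af.card_ge`. -/
theorem K4_big (h : Af F p δ) (H : Hf q G W ψ) (hx : Fx F G x) (h4 : Module.finrank F W = 4) :
    q ^ 3 ≤ Nat.card (ptS G W) := by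
  have := h.fin
  obtain ⟨xW, xx⟩ := H.iso h.pg hx (by omega)
  have l1 := (Submodule.span_singleton_le_iff_mem x W).2 xW
  have d1 : Module.finrank F (Submodule.span F {x}) = 1 := finrank_span_singleton hx.ne
  have d3 := H.finrank_pp l1
  have f1 : ∀ g : G, ∀ y ∈ Submodule.span F {x}, g • y = y := fun g y hy => by
    obtain ⟨k, rfl⟩ := Submodule.mem_span_singleton.1 hy
    rw [smul_comm, hx.fix]
  have i1 : ∀ g : G, ∀ y ∈ Submodule.span F {x}, g • y ∈ Submodule.span F {x} := fun g y hy => by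
    rwa [f1 g y hy]
  have i3 := H.pp_inv l1 i1
  have l3 : Submodule.span F {x} ≤ H.pp (Submodule.span F {x}) :=
    (Submodule.span_singleton_le_iff_mem _ _).2 (H.mem_pp_span.2 ⟨xW, by rintro _ rfl; exact xx⟩)
  obtain ⟨u, u3, u1, hu⟩ := exists_fix_mod h.pg i1 i3
    (SetLike.exists_of_lt (Submodule.lt_of_le_of_finrank_lt_finrank l3 (by omega))) l3
  have d2 := Submodule.finrank_sup_span_singleton u1
  have i2 : ∀ g : G, ∀ y ∈ Submodule.span F {x} ⊔ Submodule.span F {u},
      g • y ∈ Submodule.span F {x} ⊔ Submodule.span F {u} := fun g y hy => by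
    obtain ⟨z, hz, v, hv, rfl⟩ := Submodule.mem_sup.1 hy
    obtain ⟨k, rfl⟩ := Submodule.mem_span_singleton.1 hv
    rw [smul_add, f1 g z hz, smul_comm g k, ← sub_add_cancel (g • u) u, smul_add, ← add_assoc]
    exact Submodule.add_mem_sup (add_mem hz (Submodule.smul_mem _ _ (hu g))) hv
  have c1 := k4a_step q h.pg i1 i2 le_sup_left d2
  have c2 := k4a_step q h.pg i2 i3
    (sup_le l3 ((Submodule.span_singleton_le_iff_mem _ _).2 u3)) (by omega)
  rw [show ptS G (Submodule.span F {x}) = ⊤ from eq_top_iff.2 fun g _ => f1 g, Subgroup.card_top, d1] at c1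
  rw [d2, d1] at c2
  choose! r hr1 hr2 using fun (g : G) (hg : g ∈ ptS G (H.pp (Submodule.span F {x}))) =>
    H.tv xW hx.ne xx (g := g) fun y hy e => hg y (H.mem_pp_span.2 ⟨hy, by rintro _ rfl; exact e⟩)
  have c3 := card_le_mul' (ptS G (H.pp (Submodule.span F {x}))) (ptS G W) r {t | t + conj F q t = 0}
    (Set.toFinite _) hr1 fun g hg k hk e y hy => by
      rw [mul_smul, inv_smul_eq_iff, hr2 g hg y hy, hr2 k hk y hy, e]
  rw [← Nat.card_coe_set_eq,
    show Nat.card {t | t + conj F q t = 0} = q from card_trace_fiber (map_zero _)] at c3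
  have c4 := (h.card_ge q).trans (c1.trans (Nat.mul_le_mul_left _ (c2.trans (Nat.mul_le_mul_left _ c3))))
  have q2 := two_le_q F q
  refine Nat.le_of_mul_le_mul_left (c := q ^ 7) ?_ (by positivity)
  calc q ^ 7 * q ^ 3 = q ^ 10 := by ring
    _ ≤ _ := c4
    _ = _ := by ring

/-- `a ∉ W`, `E = W ⊕ F a`, `π g = g a - a ∈ W` (`triv_of_codim_one`), `l g` = the `a`-coordinate of
`δ g` (additive by `coc`, onto by `sur`).  On `GW = ptS G W`, `π` is additive and injective (`fai`), so
`GW` is abelian and `Af.comm` reads `l g' • π g = l g • π g'`.  If `l g ≠ 0` for some `g ∈ GW` then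
`π (GW) ⊆ F π g`, `|GW| ≤ q²`, against `K4_big`.  `GW` is normal; `1 ≠ z ∈ GW` central
(`exists_central`): `π z` is fixed by `G` (`k z a = z k a`), so `π z = λ x`, `λ ≠ 0`; `Af.comm`:
`k δ z - δ z = l k λ x`; `e = λ⁻¹ δ z`.  `ψ (k e) (k e) = ψ e e` for all values `l k ∈ F` and
`lin_conj_zero` give `ψ e x = 0`.  `δ z ∉ F x` as it is not fixed. -/
theorem K4_struct (h : Af F p δ) (H : Hf q G W ψ) (hx : Fx F G x) (h4 : Module.finrank F W = 4) :
    ∃ a e l, K4S q δ W ψ x a e l ∧ ∃ z : G, (∀ k, z * k = k * z) ∧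
      (∀ y, ∃ k : F, z • y = y + k • x) ∧ z • δ z = δ z ∧ ∀ k : F, δ z ≠ k • x := by
  have := h.fin
  have big := K4_big h H hx h4
  have q2 := two_le_q F q
  obtain ⟨xW, xx⟩ := H.iso h.pg hx (by omega)
  have d5 : Module.finrank F (⊤ : Submodule F E) = Module.finrank F W + 1 := by rw [finrank_top, h.rk, h4]
  obtain ⟨a, -, aW⟩ := SetLike.exists_of_lt
    (Submodule.lt_of_le_of_finrank_lt_finrank (le_top : W ≤ ⊤) (by omega))
  have top : ∀ y : E, ∃ k : F, y - k • a ∈ W := fun y => k4a_sup le_top d5.le trivial aW trivial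
  have mva : ∀ g : G, g • a - a ∈ W := fun g =>
    triv_of_codim_one h.pg H.invW (W₂ := ⊤) (fun _ _ _ => trivial) le_top d5.le g a trivial
  have uq : ∀ k k' : F, (k - k') • a ∈ W → k = k' := fun k k' e => by
    by_contra c
    exact aW ((W.smul_mem_iff (sub_ne_zero.2 c)).1 e)
  choose l hl using fun g => top (δ g)
  have ext : ∀ g k : G, (∀ y ∈ W, g • y = k • y) → g • a = k • a → g = k := fun g k e1 e2 => by
    refine (inv_mul_eq_one.1 (h.fai _ fun y => ?_))
    obtain ⟨c, hc⟩ := top y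
    rw [mul_smul, inv_smul_eq_iff, ← sub_add_cancel y (c • a), smul_add, smul_add, e1 _ hc,
      smul_comm g c, smul_comm k c, e2]
  have ladd : ∀ g k, l (g * k) = l g + l k := fun g k => uq _ _ (by
    have := sub_mem (add_mem (add_mem (hl g) (H.invW g _ (hl k))) (W.smul_mem (l k) (mva g))) (hl (g * k))
    convert this using 1
    rw [h.coc, smul_sub g, smul_comm g (l k)]
    generalize g • δ k = u
    generalize g • a = v
    module)
  have lsur : Function.Surjective l := fun k => by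
    obtain ⟨g, hg⟩ := h.sur (k • a)
    exact ⟨g, (uq _ _ (by rw [sub_smul, ← hg]; exact hl g)).symm⟩
  have act : ∀ g ∈ ptS G W, ∀ y, ∀ c : F, y - c • a ∈ W → g • y - y = c • (g • a - a) := fun g hg y c hc => by
    have := hg _ hc
    rw [smul_sub, smul_comm g c] at this
    generalize g • y = u at this ⊢
    generalize g • a = v at this ⊢
    linear_combination (norm := module) this
  have cm : ∀ g ∈ ptS G W, ∀ k ∈ ptS G W, g * k = k * g := fun g hg k hk =>
    ext _ _ (fun y hy => by rw [mul_mem hg hk y hy, mul_mem hk hg y hy]) (by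
      have e1 := hg _ (mva k)
      have e2 := hk _ (mva g)
      rw [smul_sub] at e1 e2
      rw [mul_smul, mul_smul]
      generalize g • k • a = u at e1 e2 ⊢
      generalize k • g • a = v at e1 e2 ⊢
      generalize g • a = u' at e1 e2
      generalize k • a = v' at e1 e2
      linear_combination (norm := module) e1 - e2)
  have one : ∀ g ∈ ptS G W, g • a - a = 0 → g = 1 := fun g hg e =>
    ext _ _ (fun y hy => by rw [hg y hy, one_smul]) (by rw [one_smul]; exact sub_eq_zero.1 e)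
  have l0 : ∀ g ∈ ptS G W, l g = 0 := fun g hg => by
    by_contra c
    have := card_le_sq q (ptS G W) ⊥ l (fun a _ b _ => ladd a b) fun k hk e => by
      have e1 := h.comm (cm g hg k hk)
      rw [act g hg _ _ (hl k), act k hk _ _ (hl g), e, zero_smul] at e1
      exact one k hk ((smul_eq_zero.1 e1.symm).resolve_left c)
    rw [Subgroup.card_bot, mul_one] at this
    exact absurd (big.trans this) (not_le.2 (Nat.pow_lt_pow_right (by omega) (by omega)))
  have : (ptS G W).Normal := ⟨fun n hn g y hy => by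
    rw [mul_smul, mul_smul, hn _ (H.invW _ _ hy), smul_inv_smul]⟩
  obtain ⟨z, hz, z1, zc⟩ := exists_central h.pg (ptS G W) (by
    by_contra! c
    rw [(Subgroup.eq_bot_iff_forall _).2 c, Subgroup.card_bot] at big
    exact absurd big (not_le.2 (Nat.one_lt_pow (by omega) (by omega))))
  obtain ⟨m, hm⟩ := hx.uniq (z • a - a) fun k => by
    have e1 := hz _ (mva k)
    rw [smul_sub, ← mul_smul, zc, mul_smul] at e1
    rw [smul_sub]
    generalize k • z • a = u at e1 ⊢
    generalize z • a = u' at e1 ⊢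
    generalize k • a = v' at e1 ⊢
    linear_combination (norm := module) e1
  have m0 : m ≠ 0 := fun c => z1 (one z hz (by rw [hm, c, zero_smul]))
  have dW : δ z ∈ W := by simpa [l0 z hz] using hl z
  have he : ∀ k : G, k • (m⁻¹ • δ z) = m⁻¹ • δ z + l k • x := fun k => by
    have e1 := h.comm (zc k)
    rw [act z hz _ _ (hl k), hm, eq_comm, sub_eq_iff_eq_add'] at e1
    rw [smul_comm k, e1, smul_add, smul_smul, smul_smul, mul_right_comm, inv_mul_cancel₀ m0, one_mul]
  have eW : m⁻¹ • δ z ∈ W := W.smul_mem _ dW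
  have ex : ψ (m⁻¹ • δ z) x = 0 := (lin_conj_zero (q := q) (a := ψ x (m⁻¹ • δ z)) fun c => by
    obtain ⟨k, rfl⟩ := lsur c
    have := H.inv k _ eW _ eW
    rw [he k] at this
    generalize m⁻¹ • δ z = e at this ⊢
    rw [H.addl, H.addr, H.addr, H.smull, H.smull, H.smulr, H.smulr, xx] at this
    linear_combination this).2
  refine ⟨a, _, l, ⟨h4, xW, xx, aW, top, mva, hl, ladd, lsur, l0, big, eW, ex, he⟩, z, zc, fun y => ?_,
    hz _ dW, fun c e => ?_⟩
  · obtain ⟨c, hc⟩ := top y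
    exact ⟨c * m, by rw [← smul_smul, ← hm, ← act z hz y c hc, add_sub_cancel]⟩
  · obtain ⟨k, hk⟩ := lsur 1
    have := he k
    rw [e, smul_comm k, smul_comm k, hx.fix, hk, one_smul] at this
    exact hx.ne (left_eq_add.1 this)

end Cfsg.Agent.U11
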