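import Cfsg.Agent.U11.LA3

/-!
# Rank four: an element central modulo `B`
-/

set_option autoImplicit false
set_option linter.unusedSectionVars false

namespace Cfsg.Agent.U11

open Cfsg.Agent.Class.U Cfsg.Agent.Char

variable {F G E : Type*} [Field F] [Fintype F] {q : ℕ} [UF F q] [Group G] [Finite G]
  [AddCommGroup E] [Module F E] [DistribMulAction G E] [SMulCommClass G F E]
  {p : ℕ} [Fact p.Prime] [CharP F p] {δ : G → E} {W : Submodule F E} {ψ : E → E → F} {x : E} {a e : E} {l : G → F}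

theorem k4b_conj (H : Hf q G W ψ) {g : G} (hg : g ∈ ptS G W) (k : G) : k * g * k⁻¹ ∈ ptS G W :=
  fun y hy => by rw [mul_smul, mul_smul, hg _ (H.invW _ y hy), smul_inv_smul]

theorem k4b_conj_a (D : K4S q δ W ψ x a e l) {g : G} (hg : g ∈ ptS G W) (k : G) :
    (k * g * k⁻¹) • a - a = k • (g • a - a) := by
  have h1 := hg _ (D.mva k⁻¹)
  rw [smul_sub, sub_eq_iff_eq_add] at h1
  rw [mul_smul, mul_smul, h1, smul_add, smul_sub, smul_sub, smul_inv_smul]
  abel

theorem k4b_mul (D : K4S q δ W ψ x a e l) {g : G} (hg : g ∈ ptS G W) (k : G) :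
    (g * k) • a - a = (g • a - a) + (k • a - a) := by
  have h1 := hg _ (D.mva k)
  rw [smul_sub, sub_eq_iff_eq_add] at h1
  rw [mul_smul, h1]
  abel

theorem k4b_inv (D : K4S q δ W ψ x a e l) {g : G} (hg : g ∈ ptS G W) :
    g⁻¹ • a - a = -(g • a - a) := by
  have := k4b_mul D hg g⁻¹
  rw [mul_inv_cancel, one_smul, sub_self] at this
  exact (neg_eq_of_add_eq_zero_right this.symm).symm

theorem k4b_ext (h : Af F p δ) (D : K4S q δ W ψ x a e l) {g g' : G} (hg : g ∈ ptS G W)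
    (hg' : g' ∈ ptS G W) (e' : g • a - a = g' • a - a) : g = g' := by
  refine (inv_mul_eq_one.1 (h.fai _ fun y => ?_)).symm
  obtain ⟨k, hk⟩ := D.top y
  have h1 := (ptS G W).mul_mem ((ptS G W).inv_mem hg') hg _ hk
  have h2 : (g'⁻¹ * g) • a = a := by rw [mul_smul, sub_left_inj.1 e', inv_smul_smul]
  rw [smul_sub, smul_comm, h2] at h1
  exact sub_left_inj.1 h1

theorem k4b_del (D : K4S q δ W ψ x a e l) {b : G} (hb : b ∈ ptS G W) (k : G) :
    b • δ k - δ k = l k • (b • a - a) := by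
  have h1 := hb _ (D.hl k)
  rw [smul_sub, smul_comm, sub_eq_iff_eq_add] at h1
  rw [h1, smul_sub]
  abel

theorem k4b_com (H : Hf q G W ψ) (D : K4S q δ W ψ x a e l) {g : G} (hg : g ∈ ptS G W) (k : G) :
    (k * g * k⁻¹ * g⁻¹) • a - a = k • (g • a - a) - (g • a - a) := by
  rw [k4b_mul D (k4b_conj H hg k), k4b_conj_a D hg, k4b_inv D hg, sub_eq_add_neg (k • _)]

/-- `π = g a - a`, `d = δ g ∈ W` (`hl`, `l0`).  `b = k g k⁻¹ g⁻¹ ∈ GW = ptS G W` has
`b a - a = k π - π = μ x` (`k⁻¹ a - a ∈ W`).  `b` is central (`k' b k'⁻¹` acts as `b` on `W` and `a`;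
`top`, `fai`), so by `Af.comm` and `he`, `δ b - μ e` is fixed by `G`, i.e. in `F x`.
`δ (k g k⁻¹) = k d - l k • k π` (`Af.conj`, `l k⁻¹ = - l k`) and `= δ (b g) = δ b + d`. -/
theorem K4_E1 (h : Af F p δ) (H : Hf q G W ψ) (hx : Fx F G x) (D : K4S q δ W ψ x a e l) {g : G}
    (hg : g ∈ ptS G W) {k : G} {μ : F} (hk : k • (g • a - a) = g • a - a + μ • x) :
    ∃ m : F, k • δ g = δ g + l k • (g • a - a) + μ • e + m • x := by
  set b := k * g * k⁻¹ * g⁻¹ with hb
  have bW : b ∈ ptS G W := mul_mem (k4b_conj H hg k) (inv_mem hg)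
  have ba : b • a - a = μ • x := by rw [hb, k4b_com H D hg, hk]; abel
  have bc : ∀ k', b * k' = k' * b := fun k' => by
    have := k4b_ext h D (k4b_conj H bW k') bW (by rw [k4b_conj_a D bW, ba, smul_comm, hx.fix])
    exact (mul_inv_eq_iff_eq_mul.1 this).symm
  obtain ⟨m, hm⟩ := hx.uniq (δ b - μ • e) fun k' => by
    have h1 := h.comm (bc k')
    rw [k4b_del D bW, ba, eq_sub_iff_add_eq] at h1
    rw [smul_sub, ← h1, smul_comm k' μ, D.he, smul_add, smul_comm μ (l k') x]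
    abel
  have l1 : l 1 = 0 := by simpa using D.ladd 1 1
  have li : l k⁻¹ = -l k := by
    have := D.ladd k k⁻¹
    rw [mul_inv_cancel, l1] at this
    exact (neg_eq_of_add_eq_zero_right this.symm).symm
  have dW : δ g ∈ W := by simpa [D.l0 g hg] using D.hl g
  have h1 := h.conj k g
  have h2 := h.coc b g
  rw [hb, inv_mul_cancel_right, ← hb, bW _ dW, h1, k4b_del D hg, li, smul_comm k, hk,
    sub_eq_iff_eq_add.1 hm] at h2
  refine ⟨m + l k * μ, ?_⟩
  rw [eq_sub_of_add_eq h2]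
  generalize g • a - a = π
  module

/-- `B = {g ∈ GW | g a - a ∈ F x}` is normal of order `≤ q² < q³ ≤ |GW|` (`fai`, `big`);
`exists_central_mod`; for `b = k g k⁻¹ g⁻¹`, `b a - a = k π - π`.  `Hf.perp_of_fix_mod`. -/
theorem K4_g (h : Af F p δ) (H : Hf q G W ψ) (hx : Fx F G x) (D : K4S q δ W ψ x a e l) :
    ∃ g ∈ ptS G W, (∀ m : F, g • a - a ≠ m • x) ∧ ψ (g • a - a) x = 0 ∧
      ∀ k : G, ∃ μ : F, k • (g • a - a) = g • a - a + μ • x := by
  have := h.fin
  let B : Subgroup G :=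
    { carrier := {g | g ∈ ptS G W ∧ ∃ m : F, g • a - a = m • x}
      one_mem' := ⟨one_mem _, 0, by simp⟩
      mul_mem' := by
        rintro g g' ⟨hg, m, hm⟩ ⟨hg', m', hm'⟩
        exact ⟨mul_mem hg hg', m + m', by rw [k4b_mul D hg, hm, hm', add_smul]⟩
      inv_mem' := by
        rintro g ⟨hg, m, hm⟩
        exact ⟨inv_mem hg, -m, by rw [k4b_inv D hg, hm, neg_smul]⟩ }
  have : B.Normal := ⟨by
    rintro g ⟨hg, m, hm⟩ k
    exact ⟨k4b_conj H hg k, m, by rw [k4b_conj_a D hg, hm, smul_comm, hx.fix]⟩⟩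
  have : (ptS G W).Normal := ⟨fun g hg k => k4b_conj H hg k⟩
  have cB : Nat.card B ≤ q ^ 2 := by
    rw [← UF.card_eq (F := F) (q := q)]
    refine Nat.card_le_card_of_injective (fun g : B => g.2.2.choose) fun g g' e' => ?_
    exact Subtype.ext (k4b_ext h D g.2.1 g'.2.1 (by
      rw [g.2.2.choose_spec, g'.2.2.choose_spec]; exact congrArg (· • x) e'))
  have hne : ∃ g ∈ ptS G W, g ∉ B := by
    by_contra hc
    push Not at hc
    have q2 := two_le_q F q
    have := D.big.trans ((Subgroup.card_le_of_le hc).trans cB)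
    exact absurd ((Nat.pow_le_pow_iff_right (by omega)).1 this) (by decide)
  obtain ⟨g, hg, hB, hc⟩ := exists_central_mod h.pg B (ptS G W) hne
  have key : ∀ k : G, ∃ μ : F, k • (g • a - a) = g • a - a + μ • x := fun k => by
    obtain ⟨-, m, hm⟩ := hc k
    rw [k4b_com H D hg] at hm
    exact ⟨m, by rw [← hm]; abel⟩
  exact ⟨g, hg, fun m hm => hB ⟨hg, m, hm⟩,
    H.perp_of_fix_mod h.pg hx (by rw [D.rk]; decide) (D.mva g) key, key⟩

end Cfsg.Agent.U11
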