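import Cfsg.Agent.U11.K5a

/-!
# Rank five is impossible
-/

set_option autoImplicit false
set_option linter.unusedSectionVars false

namespace Cfsg.Agent.U11

open Cfsg.Agent.Class.U Cfsg.Agent.Char

variable {F G E : Type*} [Field F] [Fintype F] {q : ℕ} [UF F q] [Group G] [Finite G]
  [AddCommGroup E] [Module F E] [DistribMulAction G E] [SMulCommClass G F E]
  {p : ℕ} [Fact p.Prime] [CharP F p] {δ : G → E} {W : Submodule F E} {ψ : E → E → F} {x : E}

theorem k5_cen (h : Af F p δ) (H : Hf q G ⊤ ψ) (hx : Fx F G x) {z : G}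
    (hz : ∀ y, ψ y x = 0 → z • y = y) :
    ∃ r : F, (∀ y, z • y = y + (r * ψ y x) • x) ∧ ∀ k : G, k • δ z = δ z + (r * ψ (δ k) x) • x := by
  have := h.fin
  have xx := (H.iso h.pg hx (by rw [finrank_top, h.rk]; omega)).2
  obtain ⟨r, -, hr⟩ := H.tv (Submodule.mem_top) hx.ne xx (g := z) fun y _ => hz y
  refine ⟨r, fun y => hr y trivial, fun k => ?_⟩
  have e : z * k = k * z := by
    refine (inv_mul_eq_one.1 (h.fai _ fun y => ?_))
    rw [mul_smul, inv_smul_eq_iff, mul_smul, mul_smul, hr _ trivial, hr _ trivial, smul_add,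
      smul_comm k, hx.fix k, ← H.inv k y trivial x trivial, hx.fix k]
  have e' := h.comm e
  rw [hr _ trivial, add_sub_cancel_left] at e'
  rw [e', add_sub_cancel]

theorem k5_gq (H : Hf q G ⊤ ψ) (xx : ψ x x = 0) {y₀ u : E} (h0 : ψ y₀ x = 1) (hu : ψ u x = 0) {g : G}
    (hg : g ∈ GQ G ψ x) {k : F} (hk : g • y₀ = y₀ + u + k • x) :
    (∀ y, ψ y x = 0 → g • y = y - ψ y u • x) ∧ ∀ y, ∃ c : F, g • y = y + ψ y x • u + c • x := by
  refine ⟨fun y hy => ?_, fun y => ?_⟩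
  · obtain ⟨c, hc⟩ := hg.2 y hy
    have e := H.inv g y trivial y₀ trivial
    have e1 : ψ x y₀ = 1 := by rw [H.herm y₀ trivial x trivial, h0, one_pow]
    have e2 : ψ x u = 0 := H.comm_zero trivial trivial hu
    simp only [hc, hk, H.addl, H.addr, H.smull, H.smulr, hy, xx, e1, e2] at e
    rw [hc, show c = - ψ y u by linear_combination e, neg_smul, sub_eq_add_neg]
  · obtain ⟨c, hc⟩ := hg.2 (y - ψ y x • y₀) (by rw [H.subl, H.smull, h0, mul_one, sub_self])
    rw [smul_sub, smul_comm g, hk, sub_eq_iff_eq_add] at hc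
    exact ⟨c + ψ y x * k, by rw [hc]; module⟩

/-- `ψ x x = 0` (`Hf.iso`), `ψ y₀ x = 1`.  An element `z` fixing `X = x^⊥` pointwise is
`y ↦ y + r ψ y x • x` (`Hf.tv`), is central (`fai`; `ψ (k y) x = ψ y x`), and `Af.comm` gives
`k δ z - δ z = r ψ (δ k) x • x`.  For `z ≠ 1` (`K5_onto`): `r ≠ 0`, `e = δ z ∉ F x` (`sur`), `e ⊥ x`
(`ψ (k e) (k e) = ψ e e`, `lin_conj_zero`); for another such `z'`, `δ z' - (r'/r) e` is fixed, so
`δ z' ∈ ⟨x, e⟩`.  Take `u ∈ X`, `u ∉ ⟨x, e⟩`, `ψ e u ≠ 0` (one of `u₁, u₂, u₁ + u₂`; `Hf.eq_smul`,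
dimensions `4 > 2`) and `λ^q ≠ λ`; `g, g' ∈ GQ` for `u`, `λ u` (`K5_onto`).  Then
`g y ≡ y + ψ y x • u mod F x` for all `y`, `g y = y - ψ y u • x` for `y ∈ X`
(`ψ (g y) (g y₀) = ψ y y₀`), so `ψ (δ g) x = - ψ e u / r`, `ψ (δ g') x = - λ^q ψ e u / r`.
`z' = g g' (g' g)⁻¹` fixes `X`, `δ (g g') = δ z' + z' δ (g' g) ≡ δ (g' g) mod ⟨x, e⟩`, while
`δ (g g') - δ (g' g) = (g - 1) δ g' - (g' - 1) δ g ≡ (λ - λ^q) (ψ e u / r) u mod F x`. -/
theorem K5 (h : Af F p δ) (H : Hf q G ⊤ ψ) (hx : Fx F G x) : False := by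
  have := h.fin
  have xx := (H.iso h.pg hx (by rw [finrank_top, h.rk]; omega)).2
  obtain ⟨y₀, h0⟩ : ∃ y, ψ y x = 1 := by
    by_contra! c
    refine hx.ne (H.nd x trivial fun y _ => H.comm_zero trivial trivial ?_)
    by_contra e
    exact c ((ψ y x)⁻¹ • y) (by rw [H.smull, inv_mul_cancel₀ e])
  obtain ⟨hon, z, z1, hz⟩ := K5_onto h H hx h0
  obtain ⟨r, hr, he⟩ := k5_cen h H hx hz
  have r0 : r ≠ 0 := fun e => z1 (h.fai z fun y => by rw [hr, e]; simp)
  generalize δ z = e at he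
  have hs : ∀ s : F, ∃ k : G, k • e = e + s • x := fun s => by
    obtain ⟨k, hk⟩ := h.sur ((r⁻¹ * s) • y₀)
    exact ⟨k, by rw [he, hk, H.smull, h0, mul_one, mul_inv_cancel_left₀ r0]⟩
  have ex : ∀ c : F, e ≠ c • x := fun c hc => by
    obtain ⟨k, hk⟩ := hs 1
    rw [hc, smul_comm k, hx.fix k, one_smul, left_eq_add] at hk
    exact hx.ne hk
  have e0 : ψ e x = 0 := (lin_conj_zero (q := q) (a := ψ x e) (b := ψ e x) fun s => by
    obtain ⟨k, hk⟩ := hs s
    have e1 := H.inv k e trivial e trivial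
    simp only [hk, H.addl, H.addr, H.smull, H.smulr, xx] at e1
    linear_combination e1).2
  obtain ⟨u, hu, hue, hsp⟩ : ∃ u, ψ u x = 0 ∧ ψ e u ≠ 0 ∧ u ∉ Submodule.span F {x, e} := by
    obtain ⟨u₁, h1, h2⟩ : ∃ u, ψ u x = 0 ∧ ψ e u ≠ 0 := by
      by_contra! c
      obtain ⟨k, hk⟩ := H.eq_smul (x := x) trivial (z := e) trivial fun y _ => c y
      exact ex k hk
    obtain ⟨u₂, h3, h4⟩ : ∃ u, ψ u x = 0 ∧ u ∉ Submodule.span F {x, e} := by
      by_contra! c
      have h3 := H.finrank_pp (U := Submodule.span F {x}) le_top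
      rw [finrank_span_singleton hx.ne, finrank_top, h.rk] at h3
      have h4 := Submodule.finrank_mono (show H.pp (Submodule.span F {x}) ≤ Submodule.span F {x, e}
        from fun y hy => c y (hy.2 x (Submodule.mem_span_singleton_self x)))
      classical
      have h5 := finrank_span_le_card (R := F) ({x, e} : Set E)
      have h6 : ({x, e} : Set E).toFinset.card ≤ 2 := by
        rw [Set.toFinset_insert, Set.toFinset_singleton]; exact Finset.card_le_two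
      omega
    by_cases c : u₁ ∈ Submodule.span F {x, e}
    · by_cases c' : ψ e u₂ = 0
      · exact ⟨u₁ + u₂, by rw [H.addl, h1, h3, add_zero], by rwa [H.addr, c', add_zero],
          fun c'' => h4 ((Submodule.add_mem_iff_right _ c).1 c'')⟩
      · exact ⟨u₂, h3, c', h4⟩
    · exact ⟨u₁, h1, h2, c⟩
  obtain ⟨l, -, -, hl⟩ := exists_ne_zero_one F q
  have hu' : ψ (l • u) x = 0 := by rw [H.smull, hu, mul_zero]
  obtain ⟨g, hg, k, hk⟩ := hon u hu
  obtain ⟨g', hg', k', hk'⟩ := hon _ hu'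
  obtain ⟨a1, a2⟩ := k5_gq H xx h0 hu hg hk
  obtain ⟨b1, b2⟩ := k5_gq H xx h0 hu' hg' hk'
  have key : ∀ {a b : F}, e - a • x = e + b • x → b = -a := fun {a b} c => by
    rw [sub_eq_add_neg, add_right_inj, ← neg_smul] at c
    exact (smul_left_injective F hx.ne c).symm
  have c1 := key ((a1 e e0).symm.trans (he g))
  have c2 := key ((b1 e e0).symm.trans (he g'))
  rw [H.smulr] at c2
  obtain ⟨r', -, he'⟩ := k5_cen h H hx (z := (g' * g)⁻¹ * (g * g')) fun y hy => by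
    rw [mul_smul, inv_smul_eq_iff, mul_smul, mul_smul, b1 y hy, a1 y hy, smul_sub, smul_sub,
      b1 y hy, a1 y hy, smul_comm g, smul_comm g', hx.fix, hx.fix, sub_right_comm]
  have d1 := h.coc (g' * g) ((g' * g)⁻¹ * (g * g'))
  rw [mul_inv_cancel_left, he', h.coc, h.coc] at d1
  generalize δ ((g' * g)⁻¹ * (g * g')) = e' at he' d1
  obtain ⟨t, ht⟩ := hx.uniq (e' - (r' * r⁻¹) • e) fun k => by
    rw [smul_sub, smul_comm k, he, he', smul_add, smul_smul, mul_assoc, inv_mul_cancel_left₀ r0,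
      add_sub_add_right_eq_sub]
  obtain ⟨s1, hs1⟩ := a2 (δ g')
  obtain ⟨s2, hs2⟩ := b2 (δ g)
  rw [hs1, hs2, sub_eq_iff_eq_add.1 ht] at d1
  have d2 : ψ (δ g') x - ψ (δ g) x * l ≠ 0 := fun c =>
    mul_ne_zero (sub_ne_zero.2 hl) hue (by linear_combination c2 - l * c1 - r * c)
  refine hsp ((Submodule.smul_mem_iff _ d2).1 (Submodule.mem_span_pair.2
    ⟨s2 - s1 + t + r' * ψ (δ g' + (δ g + ψ (δ g) x • l • u + s2 • x)) x, r' * r⁻¹, ?_⟩))
  linear_combination (norm := module) -d1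

end Cfsg.Agent.U11
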