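import Cfsg.Agent.U11.LA3

/-!
# Rank five: counting
-/

set_option autoImplicit false
set_option linter.unusedSectionVars false

namespace Cfsg.Agent.U11

open Cfsg.Agent.Class.U Cfsg.Agent.Char

variable {F G E : Type*} [Field F] [Fintype F] {q : ℕ} [UF F q] [Group G] [Finite G]
  [AddCommGroup E] [Module F E] [DistribMulAction G E] [SMulCommClass G F E]
  {p : ℕ} [Fact p.Prime] [CharP F p] {δ : G → E} {W : Submodule F E} {ψ : E → E → F} {x : E}

theorem k5_pair {a b : E} (h : ∀ s t : F, s • a + t • b = 0 → s = 0 ∧ t = 0) :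
    Module.finrank F (Submodule.span F {a, b}) = 2 := by
  have := finrank_span_eq_card (LinearIndependent.pair_iff.2 h)
  rwa [Matrix.range_cons, Matrix.range_cons, Matrix.range_empty, Set.union_empty, Set.singleton_union,
    Fintype.card_fin] at this

theorem k5_dec [Module.Finite F E] {U V : Submodule F E} (h : U ≤ V)
    (h1 : Module.finrank F V ≤ Module.finrank F U + 1) {w : E} (hw : w ∈ V) (hw' : w ∉ U) {v : E}
    (hv : v ∈ V) : ∃ u ∈ U, ∃ k : F, v = u + k • w := by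
  have a : U < U ⊔ Submodule.span F {w} := left_lt_sup.2 fun k => hw' (k (Submodule.mem_span_singleton_self w))
  have b : U ⊔ Submodule.span F {w} = V := Submodule.eq_of_le_of_finrank_le
    (sup_le h ((Submodule.span_singleton_le_iff_mem _ _).2 hw))
    (h1.trans (Submodule.finrank_lt_finrank_of_lt a))
  obtain ⟨u, hu, z, hz, e⟩ := Submodule.mem_sup.1 (b ▸ hv)
  obtain ⟨k, rfl⟩ := Submodule.mem_span_singleton.1 hz
  exact ⟨u, hu, k, e.symm⟩

theorem k5_ex [Module.Finite F E] {U V : Submodule F E} (h : Module.finrank F U < Module.finrank F V) :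
    ∃ y ∈ V, y ∉ U := by
  by_contra k
  push Not at k
  exact h.not_ge (Submodule.finrank_mono k)

theorem k5_inv {Y : Set E} (h : ∀ g : G, ∀ y ∈ Y, g • y ∈ Submodule.span F Y) :
    ∀ g : G, ∀ y ∈ Submodule.span F Y, g • y ∈ Submodule.span F Y := fun g y hy => by
  induction hy using Submodule.span_induction with
  | mem y hy => exact h g y hy
  | zero => rw [smul_zero]; exact zero_mem _
  | add a b _ _ ha hb => rw [smul_add]; exact add_mem ha hb
  | smul k a _ ha => rw [smul_comm]; exact Submodule.smul_mem _ k ha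

theorem k5_invL (hx : Fx F G x) : ∀ g : G, ∀ y ∈ Submodule.span F {x}, g • y ∈ Submodule.span F {x} :=
  k5_inv fun g y hy => by rw [hy, hx.fix]; exact Submodule.mem_span_singleton_self x

theorem k5_invP (hx : Fx F G x) {y : E} (hy : ∀ g : G, ∃ k : F, g • y = y + k • x) :
    ∀ g : G, ∀ v ∈ Submodule.span F {x, y}, g • v ∈ Submodule.span F {x, y} :=
  k5_inv fun g v hv => by
    rcases hv with rfl | rfl
    · rw [hx.fix]; exact Submodule.subset_span (.inl rfl)
    · obtain ⟨k, e⟩ := hy g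
      exact Submodule.mem_span_pair.2 ⟨k, 1, by rw [e, one_smul, add_comm]⟩

theorem k5_rkP (hx : Fx F G x) {y : E} (hy : ∀ k : F, y ≠ k • x) :
    Module.finrank F (Submodule.span F {x, y}) = 2 := k5_pair fun s t e => by
  have t0 : t = 0 := by
    by_contra t0
    refine hy (-(t⁻¹ * s)) ?_
    rw [neg_smul, mul_smul, ← smul_neg, eq_neg_of_add_eq_zero_left e, neg_neg, inv_smul_smul₀ t0]
  rw [t0, zero_smul, add_zero] at e
  exact ⟨(smul_eq_zero.1 e).resolve_right hx.ne, t0⟩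

theorem k5_pp1 (H : Hf q G ⊤ ψ) {v : E} : v ∈ H.pp (Submodule.span F {x}) ↔ ψ v x = 0 := by
  simp [H.mem_pp_span]

theorem k5_pp2 (H : Hf q G ⊤ ψ) {v y : E} :
    v ∈ H.pp (Submodule.span F {x, y}) ↔ ψ v x = 0 ∧ ψ v y = 0 := by
  simp [H.mem_pp_span]

theorem k5_mod {g : G} {u : E} (h : g • u - u ∈ Submodule.span F {x}) : ∃ k : F, g • u = u + k • x := by
  obtain ⟨k, e⟩ := Submodule.mem_span_singleton.1 h
  exact ⟨k, by rw [e, add_sub_cancel]⟩

/-- `X = pp (F x)` (dimension `4`), `C₂ = {y ∈ X | ∀ g, g y - y ∈ F x}` is a subspace `> F x`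
(`exists_fix_mod`): `y ∈ C₂ \ F x`.  If `ψ y y ≠ 0`: `pp ⟨x, y⟩ > F x` is invariant, so contains
`y' ∈ C₂ \ F x`, `y' ∉ ⟨x, y⟩`; `⟨y, y'⟩` contains an isotropic vector `≠ 0` (`Hf.exists_iso`), which is
in `C₂ \ F x`. -/
theorem K5_iso (h : Af F p δ) (H : Hf q G ⊤ ψ) (hx : Fx F G x) :
    ∃ y, (∀ k : F, y ≠ k • x) ∧ ψ y x = 0 ∧ ψ y y = 0 ∧ ∀ g : G, ∃ k : F, g • y = y + k • x := by
  have := h.fin
  have r : Module.finrank F (⊤ : Submodule F E) = 5 := by rw [finrank_top, h.rk]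
  have r1 := finrank_span_singleton (K := F) hx.ne
  have xx := (H.iso h.pg hx (by omega)).2
  have nL : ∀ {u}, u ∉ Submodule.span F {x} → ∀ k : F, u ≠ k • x := fun hu k e =>
    hu (Submodule.mem_span_singleton.2 ⟨k, e.symm⟩)
  obtain ⟨u, -, u1, u2⟩ := exists_fix_mod h.pg (W₂ := ⊤) (k5_invL hx) (fun _ _ _ => trivial)
    (k5_ex (by omega)) le_top
  have u3 := fun g => k5_mod (u2 g)
  have u4 := H.perp_of_fix_mod h.pg hx (by omega) trivial u3
  by_cases uu : ψ u u = 0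
  · exact ⟨u, nL u1, u4, uu, u3⟩
  have xu := H.comm_zero trivial trivial u4
  have r2 := H.finrank_pp (U := Submodule.span F {x, u}) le_top
  rw [k5_rkP hx (nL u1)] at r2
  obtain ⟨y, y0, y1, y2⟩ := exists_fix_mod h.pg (k5_invL hx) (H.pp_inv le_top (k5_invP hx u3))
    (k5_ex (by omega)) ((Submodule.span_singleton_le_iff_mem _ _).2 ((k5_pp2 H).2 ⟨xx, xu⟩))
  obtain ⟨yx, yu⟩ := (k5_pp2 H).1 y0
  have key : ∀ s t k : F, s • u + t • y = k • x → s = 0 ∧ t = 0 := fun s t k e => by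
    have a := congrArg (ψ · u) e
    simp only [H.addl, H.smull, yu, xu, mul_zero, add_zero] at a
    have s0 := (mul_eq_zero.1 a).resolve_right uu
    refine ⟨s0, by_contra fun t0 => nL y1 (t⁻¹ * k) ?_⟩
    rw [s0, zero_smul, zero_add] at e
    rw [mul_smul, ← e, inv_smul_smul₀ t0]
  obtain ⟨v, hv, v0, vv⟩ := H.exists_iso (U := Submodule.span F {u, y}) le_top
    (k5_pair fun s t e => key s t 0 (by rw [e, zero_smul])).ge
  obtain ⟨s, t, rfl⟩ := Submodule.mem_span_pair.1 hv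
  refine ⟨_, fun k e => v0 ?_, by rw [H.addl, H.smull, H.smull, u4, yx]; ring, vv, fun g => ?_⟩
  · rw [(key s t k e).1, (key s t k e).2, zero_smul, zero_smul, add_zero]
  · obtain ⟨a, ha⟩ := u3 g
    obtain ⟨b, hb⟩ := k5_mod (y2 g)
    exact ⟨s * a + t * b, by rw [smul_add, smul_comm, smul_comm g, ha, hb]; module⟩

/-- the elements trivial on `x^⊥ / F x` -/
def GQ (G : Type*) [Group G] [DistribMulAction G E] [SMulCommClass G F E] (ψ : E → E → F) (x : E) :
    Subgroup G where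
  carrier := {g | g • x = x ∧ ∀ y, ψ y x = 0 → ∃ k : F, g • y = y + k • x}
  one_mem' := ⟨one_smul _ _, fun y _ => ⟨0, by simp⟩⟩
  mul_mem' := by
    rintro a b ⟨a1, a2⟩ ⟨b1, b2⟩
    refine ⟨by rw [mul_smul, b1, a1], fun y hy => ?_⟩
    obtain ⟨k, hk⟩ := a2 y hy
    obtain ⟨l, hl⟩ := b2 y hy
    exact ⟨k + l, by rw [mul_smul, hl, smul_add, smul_comm, a1, hk, add_smul, add_assoc]⟩
  inv_mem' := by
    rintro a ⟨a1, a2⟩
    refine ⟨by rw [inv_smul_eq_iff, a1], fun y hy => ?_⟩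
    obtain ⟨k, hk⟩ := a2 y hy
    exact ⟨-k, by rw [inv_smul_eq_iff, smul_add, smul_comm, a1, hk, neg_smul, add_neg_cancel_right]⟩

/-- `y` from `K5_iso`; `Y = pp ⟨x, y⟩ ∋ x, y` has dimension `3`, `w ∈ Y \ ⟨x, y⟩`, `ψ w w ≠ 0`
(`pp_pp`), `c ∈ X \ Y`, `ψ y c ≠ 0`.  `g w = w + β y + ρ x`, `g c = c + χ w + η y + ζ x`
(`triv_of_codim_one`).  `β` is additive on `G`; if `β g = 0` then `ψ (g c) (g w) = ψ c w` gives `χ = 0`
and `ψ (g c) (g c) = ψ c c` gives `η κ + (η κ)^q = 0`, `κ = ψ y c`; `η` is additive on `ker β` with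
kernel in `GQ`.  `card_le_sq`, `card_le_tr`. -/
theorem K5_index (h : Af F p δ) (H : Hf q G ⊤ ψ) (hx : Fx F G x) :
    Nat.card G ≤ q ^ 3 * Nat.card (GQ G ψ x) := by
  have := h.fin
  have r : Module.finrank F (⊤ : Submodule F E) = 5 := by rw [finrank_top, h.rk]
  have xx := (H.iso h.pg hx (by omega)).2
  obtain ⟨y, y1, yx, yy, y2⟩ := K5_iso h H hx
  have xy := H.comm_zero trivial trivial yx
  have rP := k5_rkP hx y1
  have rY := H.finrank_pp (U := Submodule.span F {x, y}) le_top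
  have rX := H.finrank_pp (U := Submodule.span F {x}) le_top
  rw [finrank_span_singleton hx.ne] at rX
  have iP := k5_invP hx y2
  have iY := H.pp_inv le_top iP
  have iX := H.pp_inv le_top (k5_invL hx)
  have PY : Submodule.span F {x, y} ≤ H.pp (Submodule.span F {x, y}) := Submodule.span_le.2 (by
    rintro _ (rfl | rfl)
    exacts [(k5_pp2 H).2 ⟨xx, xy⟩, (k5_pp2 H).2 ⟨yx, yy⟩])
  have YX : H.pp (Submodule.span F {x, y}) ≤ H.pp (Submodule.span F {x}) := fun v hv =>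
    (k5_pp1 H).2 ((k5_pp2 H).1 hv).1
  obtain ⟨w, w1, w2⟩ := k5_ex (U := Submodule.span F {x, y}) (V := H.pp (Submodule.span F {x, y})) (by omega)
  obtain ⟨c, c1, c2⟩ := k5_ex (U := H.pp (Submodule.span F {x, y})) (V := H.pp (Submodule.span F {x}))
    (by omega)
  have cx := (k5_pp1 H).1 c1
  have xc := H.comm_zero trivial trivial cx
  have yc : ψ y c ≠ 0 := fun e => c2 ((k5_pp2 H).2 ⟨cx, H.comm_zero trivial trivial e⟩)
  have tP : ∀ g : G, ∀ v ∈ Submodule.span F {x, y}, ∃ k : F, g • v = v + k • x := fun g v hv => by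
    obtain ⟨s, t, rfl⟩ := Submodule.mem_span_pair.1 hv
    obtain ⟨a, ha⟩ := y2 g
    exact ⟨t * a, by rw [smul_add, smul_comm, smul_comm g, ha, hx.fix]; module⟩
  have zP : ∀ {g : G} {v : E}, g • v - v ∈ Submodule.span F {x, y} → ψ (g • v - v) c = 0 →
      ∃ k : F, g • v = v + k • x := fun {g v} hv e => by
    obtain ⟨s, t, e1⟩ := Submodule.mem_span_pair.1 hv
    rw [← e1, H.addl, H.smull, H.smull, xc, mul_zero, zero_add] at e
    rw [(mul_eq_zero.1 e).resolve_right yc, zero_smul, add_zero] at e1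
    exact ⟨s, by rw [e1, add_sub_cancel]⟩
  have ad : ∀ (a b : G) (v : E), b • v - v ∈ Submodule.span F {x, y} →
      ψ ((a * b) • v - v) c = ψ (a • v - v) c + ψ (b • v - v) c := fun a b v hv => by
    obtain ⟨k, e⟩ := tP a _ hv
    rw [show (a * b) • v - v = a • v - v + a • (b • v - v) by rw [mul_smul, smul_sub]; abel, e, H.addl, H.addl,
      H.smull, xc, mul_zero, add_zero]
  have tY := triv_of_codim_one h.pg iP iY PY (by omega)
  let K : Subgroup G :=
    { carrier := {g | ∀ v ∈ H.pp (Submodule.span F {x, y}), ∃ k : F, g • v = v + k • x}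
      one_mem' := fun v _ => ⟨0, by simp⟩
      mul_mem' := fun {a b} ha hb v hv => by
        obtain ⟨k, hk⟩ := ha v hv
        obtain ⟨l, hl⟩ := hb v hv
        exact ⟨k + l, by rw [mul_smul, hl, smul_add, smul_comm, hx.fix, hk, add_smul, add_assoc]⟩
      inv_mem' := fun {a} ha v hv => by
        obtain ⟨k, hk⟩ := ha v hv
        exact ⟨-k, by rw [inv_smul_eq_iff, smul_add, smul_comm, hx.fix, hk, neg_smul, add_neg_cancel_right]⟩ }
  have k1 := card_le_sq q ⊤ K (fun g => ψ (g • w - w) c) (fun a _ b _ => ad a b w (tY b w w1))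
    fun g _ e v hv => by
      obtain ⟨u, hu, k, rfl⟩ := k5_dec PY (by omega) w1 w2 hv
      obtain ⟨a, ha⟩ := tP g u hu
      obtain ⟨b, hb⟩ := zP (tY g w w1) e
      exact ⟨a + k * b, by rw [smul_add, smul_comm, ha, hb]; module⟩
  have cP : ∀ g ∈ K, g • c - c ∈ Submodule.span F {x, y} := fun g hg => by
    rw [← H.pp_pp (U := Submodule.span F {x, y}) le_top]
    refine ⟨trivial, fun v hv => ?_⟩
    obtain ⟨k, e⟩ := K.inv_mem hg v hv
    have := H.inv g c trivial (g⁻¹ • v) trivial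
    rw [smul_inv_smul, e, H.addr, H.smulr, cx, mul_zero, add_zero] at this
    rw [H.subl, this, sub_self]
  have k2 := card_le_tr (q := q) K (GQ G ψ x) (fun g => ψ (g • c - c) c) one_ne_zero
    (fun a _ b hb => ad a b c (cP b hb)) (fun g hg => by
      have := H.inv g c trivial c trivial
      rw [← add_sub_cancel c (g • c), H.addl, H.addr, H.addr, (PY (cP g hg)).2 _ (cP g hg),
        H.herm (g • c - c) trivial c trivial] at this
      rw [mul_one]
      linear_combination this)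
    fun g hg e => ⟨hx.fix g, fun v hv => by
      obtain ⟨u, hu, k, rfl⟩ := k5_dec YX (by omega) c1 c2 ((k5_pp1 H).2 hv)
      obtain ⟨a, ha⟩ := hg u hu
      obtain ⟨b, hb⟩ := zP (cP g hg) e
      exact ⟨a + k * b, by rw [smul_add, smul_comm, ha, hb]; module⟩⟩
  rw [Subgroup.card_top] at k1
  calc _ ≤ q ^ 2 * (q * Nat.card (GQ G ψ x)) := k1.trans (Nat.mul_le_mul_left _ k2)
    _ = _ := by ring

/-- `U g = g y₀ - y₀ mod F x` is additive on `GQ` with values in `X / F x` (order `q^6`); its kernel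
fixes `X` pointwise (`g y = y + k x`, `ψ (g y) (g y₀) = ψ y y₀` gives `k = 0`); `|ptS X| ≤ q` (`Hf.tv`,
`card_le_tr` with `K = ⊥`, `fai`).  `q^7 ≤ |GQ|` (`K5_index`, `Af.card_ge`); `onto_of_card`,
`card_le_mul`. -/
theorem K5_onto (h : Af F p δ) (H : Hf q G ⊤ ψ) (hx : Fx F G x) {y₀ : E} (h0 : ψ y₀ x = 1) :
    (∀ u, ψ u x = 0 → ∃ g ∈ GQ G ψ x, ∃ k : F, g • y₀ = y₀ + u + k • x) ∧
      ∃ z : G, z ≠ 1 ∧ ∀ y, ψ y x = 0 → z • y = y := by
  have := h.fin
  have r : Module.finrank F (⊤ : Submodule F E) = 5 := by rw [finrank_top, h.rk]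
  have xx := (H.iso h.pg hx (by omega)).2
  have xy : ψ x y₀ = 1 := by rw [H.herm y₀ trivial x trivial, h0, one_pow]
  have q2 := two_le_q F q
  have rT := H.finrank_pp (U := Submodule.span F {x, y₀}) le_top
  rw [k5_rkP hx fun k e => by rw [e, H.smull, xx, mul_zero] at h0; exact zero_ne_one h0] at rT
  have : Finite E := Nat.finite_of_card_ne_zero (by rw [h.card_E q]; positivity)
  have cT : ((H.pp (Submodule.span F {x, y₀}) : Submodule F E) : Set E).ncard = q ^ 6 := by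
    rw [← Nat.card_coe_set_eq, SetLike.coe_sort_coe, card_sub q, show Module.finrank F
      (H.pp (Submodule.span F {x, y₀})) = 3 by omega]
  have pT : ∀ u, ψ u x = 0 → u - ψ u y₀ • x ∈ H.pp (Submodule.span F {x, y₀}) := fun u hu =>
    (k5_pp2 H).2 ⟨by rw [H.subl, H.smull, hu, xx]; ring, by rw [H.subl, H.smull, xy]; ring⟩
  have mX : ∀ g : G, ψ (g • y₀ - y₀) x = 0 := fun g => by
    have := H.inv g y₀ trivial x trivial
    rw [hx.fix] at this
    rw [H.subl, this, sub_self]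
  have sp : ∀ a b : G, (a * b) • y₀ - y₀ = a • y₀ - y₀ + a • (b • y₀ - y₀) := fun a b => by
    rw [mul_smul, smul_sub]; abel
  have f1 : ∀ a ∈ GQ G ψ x, ∀ b ∈ GQ G ψ x, (a * b) • y₀ - y₀ - ψ ((a * b) • y₀ - y₀) y₀ • x =
      a • y₀ - y₀ - ψ (a • y₀ - y₀) y₀ • x + (b • y₀ - y₀ - ψ (b • y₀ - y₀) y₀ • x) := fun a ha b _ => by
    obtain ⟨k, e⟩ := ha.2 _ (mX b)
    rw [sp, e, H.addl, H.addl, H.smull, xy, mul_one, add_smul, add_smul]
    abel
  have f2 : ∀ a ∈ GQ G ψ x, a • y₀ - y₀ - ψ (a • y₀ - y₀) y₀ • x = 0 →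
      a ∈ ptS G (H.pp (Submodule.span F {x})) := fun a ha e y hy => by
    have yx := (k5_pp1 H).1 hy
    obtain ⟨k, e1⟩ := ha.2 y yx
    rw [sub_eq_zero, sub_eq_iff_eq_add'] at e
    have := H.inv a y trivial y₀ trivial
    rw [e1, e, H.addl, H.smull, H.addr, H.addr, H.smulr, H.smulr, yx, xx, xy] at this
    rw [e1, show k = 0 by linear_combination this, zero_smul, add_zero]
  have tv : ∀ a ∈ ptS G (H.pp (Submodule.span F {x})), ∃ r : F, r + r ^ q = 0 ∧ ψ (a • y₀ - y₀) y₀ = r ∧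
      ∀ y, a • y = y + (r * ψ y x) • x := fun a ha => by
    obtain ⟨r, r1, r2⟩ := H.tv trivial hx.ne xx (g := a) fun y _ hy => ha y ((k5_pp1 H).2 hy)
    exact ⟨r, r1, by rw [r2 y₀ trivial, add_sub_cancel_left, H.smull, h0, xy, mul_one, mul_one],
      fun y => r2 y trivial⟩
  have k1 := card_le_tr (q := q) (ptS G (H.pp (Submodule.span F {x}))) ⊥ (fun g => ψ (g • y₀ - y₀) y₀)
    one_ne_zero (fun a ha b _ => by rw [sp, ha _ ((k5_pp1 H).2 (mX b)), H.addl])
    (fun a ha => by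
      obtain ⟨r, r1, r2, -⟩ := tv a ha
      rw [r2, mul_one, r1])
    fun a ha e => by
      obtain ⟨r, -, r2, r3⟩ := tv a ha
      exact h.fai a fun y => by rw [r3, ← r2, e, zero_mul, zero_smul, add_zero]
  rw [Subgroup.card_bot, mul_one] at k1
  have k2 : q ^ 6 * q ≤ Nat.card (GQ G ψ x) := Nat.le_of_mul_le_mul_left (c := q ^ 3)
    (by rw [show q ^ 3 * (q ^ 6 * q) = q ^ 10 by ring]; exact (h.card_ge q).trans (K5_index h H hx))
    (by positivity)
  refine ⟨fun u hu => ?_, ?_⟩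
  · obtain ⟨g, hg, e⟩ := onto_of_card _ _ _ _ (Set.toFinite _) f1 (fun a _ => pT _ (mX a)) f2
      (by rw [cT]; exact (Nat.mul_le_mul_left _ k1).trans k2) _ (pT u hu)
    exact ⟨g, hg, ψ (g • y₀ - y₀) y₀ - ψ u y₀, by
      rw [sub_smul, ← sub_eq_zero, ← sub_eq_zero.2 e]; abel⟩
  · have k3 := k2.trans (card_le_mul _ _ _ _ (Set.toFinite _) f1 (fun a _ => pT _ (mX a)) f2)
    rw [cT] at k3
    have k4 := Nat.le_of_mul_le_mul_left k3 (by positivity)
    by_contra k
    push Not at k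
    have : ptS G (H.pp (Submodule.span F {x})) = ⊥ := eq_bot_iff.2 fun z hz => by_contra fun z1 => by
      obtain ⟨y, y1, y2⟩ := k z z1
      exact y2 (hz y ((k5_pp1 H).2 y1))
    rw [this, Subgroup.card_bot] at k4
    omega

end Cfsg.Agent.U11
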