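import Cfsg.Prelude.Def_GeometricClasses
import Cfsg.Agent.Class.Max.C2U5
import Cfsg.Agent.Class.Max.C5Inst
import Cfsg.Agent.Class.Max.C1Nd
import Cfsg.Agent.Class.Max.C1Sing

/-!
# `SU_11(q)`: parts (1), (2), (3), (5), (6) of S5855 (general kit: see `S5819`, `S5831`, `S5795`, `S5855` note; `Class/Max/*`)
-/

set_option autoImplicit false

namespace Cfsg.Agent.U11

open Cfsg.Agent.Class Cfsg.Agent.Class.Max

theorem kit_root {F : Type*} [Field F] [Fintype F] (q : ℕ) (hF : Fintype.card F = q ^ 2) :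
    ∃ z : F, z ^ (q + 1) = 1 ∧ z ^ 11 ≠ 1 := by
  have := U.UF.of_card hF
  have h2 := U.two_le_q F q
  have h6 : q ≠ 10 := by
    rintro rfl
    have h := FiniteField.isPrimePow_card F
    rw [hF] at h
    exact absurd h (by decide +kernel)
  obtain ⟨g, hg⟩ := IsCyclic.exists_ofOrder_eq_natCard (α := Fˣ)
  obtain ⟨k, rfl⟩ : ∃ k, q = k + 2 := ⟨q - 2, by omega⟩
  have e : Nat.card Fˣ = (k + 1) * (k + 2 + 1) := by
    rw [Nat.card_units, Nat.card_eq_fintype_card, hF]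
    exact Nat.sub_eq_of_eq_add (by ring)
  refine ⟨((g ^ (k + 1) : Fˣ) : F), ?_, fun h => ?_⟩
  · rw [← Units.val_pow_eq_pow_val, ← pow_mul, ← e, pow_card_eq_one', Units.val_one]
  · rw [← Units.val_pow_eq_pow_val, ← pow_mul, Units.val_eq_one, ← orderOf_dvd_iff_pow_eq_one, hg, e,
      Nat.mul_dvd_mul_iff_left (Nat.succ_pos k)] at h
    rcases (Nat.dvd_prime (by norm_num)).1 h with h | h <;> omega

/-- part (1) of S5855 -/
theorem part1 {F : Type*} [Field F] [Fintype F] (q : ℕ) (hF : Fintype.card F = q ^ 2) :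
    (∀ W : Submodule F (Fin 11 → F), W ≠ ⊥ → Cfsg.Geo.IsTotallySingularFor (Cfsg.hermForm 11 F q) W → Cfsg.Geo.IsMaximalIn (Cfsg.GU 11 F q ⊓ Cfsg.Geo.specialLinear (Fin 11) F) (Cfsg.Geo.subspaceStabilizer W ⊓ (Cfsg.GU 11 F q ⊓ Cfsg.Geo.specialLinear (Fin 11) F))) := by
  exact fun W h0 hW => u_ts_isMaximalIn hF (by omega) h0 hW

/-- part (2) of S5855 -/
theorem part2 {F : Type*} [Field F] [Fintype F] (q : ℕ) (hF : Fintype.card F = q ^ 2) :
    (∀ W : Submodule F (Fin 11 → F), W ≠ ⊥ → Cfsg.Geo.IsNondegenerateOn (Cfsg.hermForm 11 F q) W → 2 * Module.finrank F W < 11 → Cfsg.Geo.IsMaximalIn (Cfsg.GU 11 F q ⊓ Cfsg.Geo.specialLinear (Fin 11) F) (Cfsg.Geo.subspaceStabilizer W ⊓ (Cfsg.GU 11 F q ⊓ Cfsg.Geo.specialLinear (Fin 11) F))) := by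
  exact fun W h0 hW h => u_nd_isMaximalIn hF h0 hW h (by omega)

/-- part (3) of S5855 -/
theorem part3 {F : Type*} [Field F] [Fintype F] (q : ℕ) (hF : Fintype.card F = q ^ 2) :
    (∀ D : Fin 11 → Submodule F (Fin 11 → F), Cfsg.Geo.IsNondegenerateMDecomposition (Cfsg.hermForm 11 F q) 1 D → Cfsg.Geo.IsMaximalIn (Cfsg.GU 11 F q ⊓ Cfsg.Geo.specialLinear (Fin 11) F) (Cfsg.Geo.decompositionStabilizer D ⊓ (Cfsg.GU 11 F q ⊓ Cfsg.Geo.specialLinear (Fin 11) F))) := by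
  intro D hD
  have := U.UF.of_card hF
  have h := isU_fmUStd (F := F) 11 q
  have h7 : Fintype.card (Fin 11) = 11 := Fintype.card_fin 11
  have hn : Module.finrank F (Fin 11 → F) = 11 := by simp
  refine dstab_isMaximalIn_of (mem_SU_iff 11 q) (h.isMaximalIn_one' (u_oDec_of hD) hD.decomp.finrank_eq
    (by omega) (fun u hu N h2 h3 g hg hg' => h.EG_le_of_mon₆ hu h2 (by omega) h3 hg hg')
    fun M u w hu hw hD => ?_)
  obtain ⟨ζ, hζ, h2⟩ := h.exists_mu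
  obtain ⟨z, h3, h4⟩ := kit_root q hF
  exact h.false_of_z1 (h.z1_of_root (h.z2 hζ h2 (Or.inl (by omega))) (by omega) (z := z)
    ((U.mul_conj_eq_pow z).trans h3) (by rwa [hn])) (by omega) hu hw hD

/-- part (5) of S5855 -/
theorem part5 {F : Type*} [Field F] [Fintype F] (q : ℕ) (hF : Fintype.card F = q ^ 2) :
    (∀ (F₀ : Subfield F) (r : ℕ) (P : Matrix.GeneralLinearGroup (Fin 11) F), r.Prime → Odd r → Fintype.card F = Nat.card F₀ ^ r → Cfsg.Geo.IsFormRationalStructure (Cfsg.hermForm 11 F q) F₀ 1 P → Cfsg.Geo.IsMaximalIn (Cfsg.GU 11 F q ⊓ Cfsg.Geo.specialLinear (Fin 11) F) (Cfsg.Geo.subfieldSubgroup F₀ P ⊓ (Cfsg.GU 11 F q ⊓ Cfsg.Geo.specialLinear (Fin 11) F))) := by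
  exact fun F₀ r P hr ho hc hP => subfield_isMaximalIn_su hF (by omega) F₀ hr ho hc P hP

/-- part (6) of S5855 -/
theorem part6 {F : Type*} [Field F] [Fintype F] (q : ℕ) (hF : Fintype.card F = q ^ 2) :
    (Odd q → ∀ (F₀ : Subfield F) (P : Matrix.GeneralLinearGroup (Fin 11) F), Fintype.card F = Nat.card F₀ ^ 2 → Cfsg.Geo.IsFormRationalStructure (Cfsg.hermForm 11 F q) F₀ 1 P → Cfsg.Geo.IsMaximalIn (Cfsg.GU 11 F q ⊓ Cfsg.Geo.specialLinear (Fin 11) F) (Cfsg.Geo.subfieldSubgroup F₀ P ⊓ (Cfsg.GU 11 F q ⊓ Cfsg.Geo.specialLinear (Fin 11) F))) := by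
  exact fun ho F₀ P hc hP => orth_isMaximalIn_su hF (by omega) ho F₀ hc P hP

end Cfsg.Agent.U11
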