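import Cfsg.Agent.U11.LDef

/-!
# Counting and central elements
-/

set_option autoImplicit false
set_option linter.unusedSectionVars false

namespace Cfsg.Agent.U11

open Cfsg.Agent.Class.U Cfsg.Agent.Char

variable {F G E : Type*} [Field F] [Fintype F] {q : ℕ} [UF F q] [Group G] [Finite G]
  [AddCommGroup E] [Module F E] [DistribMulAction G E] [SMulCommClass G F E]
  {p : ℕ} [Fact p.Prime] [CharP F p] {δ : G → E} {W : Submodule F E} {ψ : E → E → F} {x : E}

/-- the fibres of `f` on `H` lie in left cosets of `K` -/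
theorem card_le_mul' {A : Type*} (H K : Subgroup G) (f : G → A) (T : Set A) (hT : T.Finite)
    (h1 : ∀ a ∈ H, f a ∈ T) (h2 : ∀ a ∈ H, ∀ b ∈ H, f a = f b → a⁻¹ * b ∈ K) :
    Nat.card H ≤ T.ncard * Nat.card K := by
  classical
  have := hT.to_subtype
  let r : A → G := fun t => if h : ∃ a ∈ H, f a = t then h.choose else 1
  have hr : ∀ a ∈ H, r (f a) ∈ H ∧ f (r (f a)) = f a := fun a ha => by
    have h : ∃ b ∈ H, f b = f a := ⟨a, ha, rfl⟩
    simp only [r, dif_pos h]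
    exact h.choose_spec
  rw [← Nat.card_coe_set_eq, ← Nat.card_prod]
  refine Nat.card_le_card_of_injective (fun a : H => ((⟨f a, h1 a a.2⟩, ⟨(r (f a))⁻¹ * a,
    h2 _ (hr a a.2).1 _ a.2 (hr a a.2).2⟩) : T × K)) fun a b e => ?_
  simp only [Prod.mk.injEq, Subtype.mk.injEq] at e
  exact Subtype.ext (mul_left_cancel (e.1 ▸ e.2))

/-- `card_le_mul'`: `f b = f a + f (a⁻¹ b)` -/
theorem card_le_mul {A : Type*} [AddGroup A] (H K : Subgroup G) (f : G → A) (T : Set A) (hT : T.Finite)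
    (hf : ∀ a ∈ H, ∀ b ∈ H, f (a * b) = f a + f b) (h1 : ∀ a ∈ H, f a ∈ T)
    (h2 : ∀ a ∈ H, f a = 0 → a ∈ K) : Nat.card H ≤ T.ncard * Nat.card K := by
  refine card_le_mul' H K f T hT h1 fun a ha b hb e => h2 _ (mul_mem (inv_mem ha) hb) ?_
  have := hf a ha _ (mul_mem (inv_mem ha) hb)
  rw [mul_inv_cancel_left, e] at this
  exact left_eq_add.1 this

/-- `T = univ` -/
theorem card_le_sq (q : ℕ) [UF F q] (H K : Subgroup G) (f : G → F)
    (hf : ∀ a ∈ H, ∀ b ∈ H, f (a * b) = f a + f b) (h2 : ∀ a ∈ H, f a = 0 → a ∈ K) :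
    Nat.card H ≤ q ^ 2 * Nat.card K := by
  have := card_le_mul H K f Set.univ Set.finite_univ hf (fun _ _ => trivial) h2
  rwa [Set.ncard_univ, UF.card_eq (F := F) (q := q)] at this

/-- `T` = the solutions of `r κ + (r κ)^q = 0` (`card_trace_fiber`) -/
theorem card_le_tr (H K : Subgroup G) (f : G → F) {κ : F} (hκ : κ ≠ 0)
    (hf : ∀ a ∈ H, ∀ b ∈ H, f (a * b) = f a + f b) (h1 : ∀ a ∈ H, f a * κ + (f a * κ) ^ q = 0)
    (h2 : ∀ a ∈ H, f a = 0 → a ∈ K) : Nat.card H ≤ q * Nat.card K := by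
  have := card_le_mul H K (fun a => f a * κ) {t | t + conj F q t = 0} (Set.toFinite _)
    (fun a ha b hb => by rw [hf a ha b hb, add_mul]) h1 fun a ha e => h2 a ha ((mul_eq_zero.1 e).resolve_right hκ)
  rwa [← Nat.card_coe_set_eq, show Nat.card {t | t + conj F q t = 0} = q from card_trace_fiber (map_zero _)] at this

/-- if `|T| |K| ≤ |H|` and `K` is exactly the kernel then `f` maps `H` onto `T` (else use
`card_le_mul` with `T \ {t}`) -/
theorem onto_of_card {A : Type*} [AddGroup A] (H K : Subgroup G) (f : G → A) (T : Set A) (hT : T.Finite)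
    (hf : ∀ a ∈ H, ∀ b ∈ H, f (a * b) = f a + f b) (h1 : ∀ a ∈ H, f a ∈ T)
    (h2 : ∀ a ∈ H, f a = 0 → a ∈ K) (h3 : T.ncard * Nat.card K ≤ Nat.card H) :
    ∀ t ∈ T, ∃ a ∈ H, f a = t := by
  intro t ht
  by_contra! h
  have h4 := card_le_mul H K f (T \ {t}) hT.diff hf (fun a ha => ⟨h1 a ha, h a ha⟩) h2
  exact absurd (Nat.le_of_mul_le_mul_right (h3.trans h4) Nat.card_pos)
    (not_le.2 (Set.ncard_diff_singleton_lt_of_mem ht hT))

theorem la1_central (hG : IsPGroup p G) (N : Subgroup G) [N.Normal] (h : ∃ g ∈ N, g ≠ 1) :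
    ∃ z ∈ N, z ≠ 1 ∧ ∀ k : G, z * k = k * z := by
  obtain ⟨g, hg, h1⟩ := h
  have : Nontrivial N := ⟨⟨⟨g, hg⟩, 1, fun e => h1 (congrArg Subtype.val e)⟩⟩
  obtain ⟨n, hn, e⟩ := (hG.to_subgroup N).nontrivial_iff_card.1 this
  let _ : MulDistribMulAction G N := MulDistribMulAction.compHom N (MulAut.conjNormal : G →* MulAut N)
  obtain ⟨z, hz, z1⟩ := hG.exists_fixed_point_of_prime_dvd_card_of_fixed_point N
    (e ▸ dvd_pow_self p hn.ne') (a := 1) fun k => smul_one k
  exact ⟨z, z.2, fun e => z1 (Subtype.ext e.symm), fun k =>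
    (mul_inv_eq_iff_eq_mul.1 (congrArg Subtype.val (hz k))).symm⟩

/-- `G` acts on the `p`-group `N / B`; take a non-trivial fixed point -/
theorem exists_central_mod (hG : IsPGroup p G) (B N : Subgroup G) [B.Normal] [N.Normal]
    (h : ∃ g ∈ N, g ∉ B) : ∃ g ∈ N, g ∉ B ∧ ∀ k : G, k * g * k⁻¹ * g⁻¹ ∈ B := by
  obtain ⟨g, hg, hB⟩ := h
  have := Subgroup.Normal.map ‹N.Normal› (QuotientGroup.mk' B) (QuotientGroup.mk'_surjective B)
  obtain ⟨_, ⟨z, hz, rfl⟩, h1, h2⟩ := la1_central (hG.to_quotient B) (N.map (QuotientGroup.mk' B))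
    ⟨g, ⟨g, hg, rfl⟩, fun e => hB ((QuotientGroup.eq_one_iff g).1 e)⟩
  refine ⟨z, hz, fun e => h1 ((QuotientGroup.eq_one_iff z).2 e), fun k => (QuotientGroup.eq_one_iff _).1 ?_⟩
  have := h2 k
  simp only [QuotientGroup.mk'_apply] at this
  simp only [QuotientGroup.mk_mul, QuotientGroup.mk_inv, ← this]
  group

theorem exists_central (hG : IsPGroup p G) (N : Subgroup G) [N.Normal] (h : ∃ g ∈ N, g ≠ 1) :
    ∃ z ∈ N, z ≠ 1 ∧ ∀ k : G, z * k = k * z := by
  exact la1_central hG N h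

theorem Af.fin (h : Af F p δ) : Module.Finite F E := by
  exact Module.finite_of_finrank_eq_succ h.rk

theorem Af.card_E (q : ℕ) [UF F q] (h : Af F p δ) : Nat.card E = q ^ 10 := by
  have := h.fin
  rw [Module.natCard_eq_pow_finrank (K := F), h.rk, UF.card_eq (q := q), ← pow_mul]

theorem Af.card_ge (q : ℕ) [UF F q] (h : Af F p δ) : q ^ 10 ≤ Nat.card G := by
  exact h.card_E q ▸ Nat.card_le_card_of_surjective δ h.sur

theorem Af.one (h : Af F p δ) : δ 1 = 0 := by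
  simpa using h.coc 1 1

theorem Af.inv (h : Af F p δ) (g : G) : g • δ g⁻¹ = -δ g := by
  have := h.coc g g⁻¹
  rw [mul_inv_cancel, h.one] at this
  exact eq_neg_of_add_eq_zero_right this.symm

theorem Af.conj (h : Af F p δ) (k g : G) :
    δ (k * g * k⁻¹) = k • δ g + k • (g • δ k⁻¹ - δ k⁻¹) := by
  rw [h.coc, h.coc, smul_sub, h.inv, mul_smul]
  abel

/-- `δ (z k) = δ (k z)` -/
theorem Af.comm (h : Af F p δ) {z k : G} (e : z * k = k * z) : z • δ k - δ k = k • δ z - δ z := by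
  have := congrArg δ e
  rw [h.coc, h.coc] at this
  rw [sub_eq_sub_iff_add_eq_add, add_comm, this, add_comm]

theorem card_sub (q : ℕ) [UF F q] [Module.Finite F E] (U : Submodule F E) :
    Nat.card U = q ^ (2 * Module.finrank F U) := by
  rw [Module.natCard_eq_pow_finrank (K := F), UF.card_eq (q := q), ← pow_mul]

theorem exists_ne_zero_one (F : Type*) [Field F] (q : ℕ) [UF F q] : ∃ k : F, k ≠ 0 ∧ k ≠ 1 ∧ k ^ q ≠ k := by
  obtain ⟨k, hk⟩ := exists_conj_ne F q
  exact ⟨k, by rintro rfl; exact hk (map_zero _), by rintro rfl; exact hk (map_one _), hk⟩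

/-- `k = 1` and `k` with `k^q ≠ k` -/
theorem lin_conj_zero {a b : F} (h : ∀ k : F, k * a + k ^ q * b = 0) : a = 0 ∧ b = 0 := by
  obtain ⟨k, -, -, hk⟩ := exists_ne_zero_one F q
  have h1 := h 1
  rw [one_pow] at h1
  have h2 : (k ^ q - k) * b = 0 := by linear_combination h k - k * h1
  have h3 := (mul_eq_zero.1 h2).resolve_left (sub_ne_zero.2 hk)
  exact ⟨by linear_combination h1 - h3, h3⟩

/-- for `k ≠ 0`: `a + k^(q-1) b + k^q c = 0`, a polynomial of degree `≤ q < q² - 1` -/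
theorem quad_conj_zero {a b c : F} (h : ∀ k : F, k * a + k ^ q * b + k * k ^ q * c = 0) :
    a = 0 ∧ b = 0 ∧ c = 0 := by
  obtain ⟨t, ht⟩ := exists_trace_ne_zero F q
  have h1 := h (t + 1)
  have h2 := h 1
  rw [add_pow_q, one_pow] at h1
  rw [one_pow] at h2
  have h3 : (t + t ^ q) * c = 0 := by linear_combination h1 - h t - h2
  obtain rfl := (mul_eq_zero.1 h3).resolve_left ht
  have := lin_conj_zero (q := q) (a := a) (b := b) fun k => by simpa using h k
  exact ⟨this.1, this.2, rfl⟩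

end Cfsg.Agent.U11
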