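import Cfsg.Agent.U11.LA1

/-!
# Invariant flags and coordinates
-/

set_option autoImplicit false
set_option linter.unusedSectionVars false

namespace Cfsg.Agent.U11

open Cfsg.Agent.Class.U Cfsg.Agent.Char

variable {F G E : Type*} [Field F] [Fintype F] {q : ℕ} [UF F q] [Group G] [Finite G]
  [AddCommGroup E] [Module F E] [DistribMulAction G E] [SMulCommClass G F E]
  {p : ℕ} [Fact p.Prime] [CharP F p] {δ : G → E} {W : Submodule F E} {ψ : E → E → F} {x : E}

theorem la2_fix {V : Type*} [AddCommGroup V] [Module F V] [Module.Finite F V] [Nontrivial V]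
    (hG : IsPGroup p G) (ρ : Representation F G V) : ∃ v, v ≠ 0 ∧ ∀ g, ρ g v = v := by
  let _ : MulAction G V := MulAction.compHom V ρ
  have : Finite V := Module.finite_of_finite F
  obtain ⟨b, hb, b0⟩ := hG.exists_fixed_point_of_prime_dvd_card_of_fixed_point V (a := 0) (by
    rw [Module.natCard_eq_pow_finrank (K := F), Nat.card_eq_fintype_card]
    exact ((CharP.cast_eq_zero_iff F p _).1 (FiniteField.cast_card_eq_zero F)).trans
      (dvd_pow_self _ Module.finrank_pos.ne')) fun g => map_zero (ρ g)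
  exact ⟨b, b0.symm, hb⟩

/-- the `p`-group `G` acts on the `p`-group `W₂ / W₁`, fixing `0`, hence another point -/
theorem exists_fix_mod [Module.Finite F E] (hG : IsPGroup p G) {W₁ W₂ : Submodule F E}
    (h1 : ∀ g : G, ∀ y ∈ W₁, g • y ∈ W₁) (h2 : ∀ g : G, ∀ y ∈ W₂, g • y ∈ W₂)
    (h : ∃ y ∈ W₂, y ∉ W₁) (hle : W₁ ≤ W₂) : ∃ u ∈ W₂, u ∉ W₁ ∧ ∀ g : G, g • u - u ∈ W₁ := by
  obtain ⟨y, y2, y1⟩ := h
  have : Nontrivial (W₂ ⧸ W₁.comap W₂.subtype) :=
    ⟨⟨Submodule.Quotient.mk ⟨y, y2⟩, 0, mt (Submodule.Quotient.mk_eq_zero _).1 y1⟩⟩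
  obtain ⟨v, v0, hv⟩ := la2_fix hG (((Representation.ofDistribMulAction F G E).subrepresentation W₂
    fun g y hy => h2 g y hy).quotient (W₁.comap W₂.subtype) fun g y hy => h1 g y hy)
  obtain ⟨u, rfl⟩ := Submodule.Quotient.mk_surjective _ v
  exact ⟨u, u.2, mt (Submodule.Quotient.mk_eq_zero (W₁.comap W₂.subtype)).2 v0,
    fun g => (Submodule.Quotient.eq (W₁.comap W₂.subtype)).1 (hv g)⟩

theorem exists_fix_ne [Module.Finite F E] (hG : IsPGroup p G) {U : Submodule F E}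
    (h2 : ∀ g : G, ∀ y ∈ U, g • y ∈ U) (h : U ≠ ⊥) : ∃ u ∈ U, u ≠ 0 ∧ ∀ g : G, g • u = u := by
  obtain ⟨u, h3, h4, h5⟩ := exists_fix_mod hG (W₁ := ⊥) (fun g y hy => by simp [(Submodule.mem_bot F).1 hy]) h2
    (U.ne_bot_iff.1 h) bot_le
  exact ⟨u, h3, h4, fun g => sub_eq_zero.1 (h5 g)⟩

/-- `W₂ = W₁ + F u` for the `u` of `exists_fix_mod` -/
theorem triv_of_codim_one [Module.Finite F E] (hG : IsPGroup p G) {W₁ W₂ : Submodule F E}
    (h1 : ∀ g : G, ∀ y ∈ W₁, g • y ∈ W₁) (h2 : ∀ g : G, ∀ y ∈ W₂, g • y ∈ W₂) (hle : W₁ ≤ W₂)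
    (h : Module.finrank F W₂ ≤ Module.finrank F W₁ + 1) : ∀ g : G, ∀ y ∈ W₂, g • y - y ∈ W₁ := by
  intro g y hy
  by_cases y1 : y ∈ W₁
  · exact W₁.sub_mem (h1 g y y1) y1
  obtain ⟨u, u2, u1, hu⟩ := exists_fix_mod hG h1 h2 ⟨y, hy, y1⟩ hle
  have e : W₁ ⊔ Submodule.span F {u} = W₂ := Submodule.eq_of_le_of_finrank_le
    (sup_le hle ((Submodule.span_singleton_le_iff_mem _ _).2 u2)) (h.trans (Submodule.finrank_lt_finrank_of_lt
      (left_lt_sup.2 (mt (Submodule.span_singleton_le_iff_mem _ _).1 u1))))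
  obtain ⟨z, hz, v, hv, rfl⟩ := Submodule.mem_sup.1 (e ▸ hy)
  obtain ⟨k, rfl⟩ := Submodule.mem_span_singleton.1 hv
  rw [smul_add, smul_comm g, add_sub_add_comm, ← smul_sub]
  exact W₁.add_mem (W₁.sub_mem (h1 g z hz) hz) (W₁.smul_mem _ (hu g))

/-- the five vectors are a basis (`finrank = 5`); read off the coordinates (`choose`), the product
rules come from `mul_smul`, `coc` and uniqueness of coordinates, `ext` from `fai` for `h⁻¹ g` -/
theorem Af.exists_U6 (h : Af F p δ) {x y w c a : E}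
    (li : ∀ k₁ k₂ k₃ k₄ k₅ : F, k₁ • a + k₂ • c + k₃ • w + k₄ • y + k₅ • x = 0 →
      k₁ = 0 ∧ k₂ = 0 ∧ k₃ = 0 ∧ k₄ = 0 ∧ k₅ = 0)
    (hx : ∀ g : G, g • x = x) (hy : ∀ g : G, ∃ k : F, g • y = y + k • x)
    (hw : ∀ g : G, ∃ k l : F, g • w = w + k • y + l • x)
    (hc : ∀ g : G, ∃ k l m : F, g • c = c + k • w + l • y + m • x)
    (ha : ∀ g : G, ∃ k l m n : F, g • a = a + k • c + l • w + m • y + n • x) :
    ∃ D : U6 F G, ∀ g : G, g • y = y + D.α g • x ∧ g • w = w + D.β g • y + D.ρ g • x := by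
  have := h.fin
  have sp : ∀ v : E, ∃ k₁ k₂ k₃ k₄ k₅ : F, v = k₁ • a + k₂ • c + k₃ • w + k₄ • y + k₅ • x := fun v => by
    obtain ⟨k, hk⟩ := (LinearMap.injective_iff_surjective_of_finrank_eq_finrank
      (f := Fintype.linearCombination F ![a, c, w, y, x]) (by simp [h.rk])).1
      ((injective_iff_map_eq_zero _).2 fun k hk => by
        obtain ⟨h1, h2, h3, h4, h5⟩ := li (k 0) (k 1) (k 2) (k 3) (k 4)
          (by simpa [Fintype.linearCombination_apply, Fin.sum_univ_five] using hk)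
        ext i
        fin_cases i <;> assumption) v
    exact ⟨k 0, k 1, k 2, k 3, k 4, by simpa [Fintype.linearCombination_apply, Fin.sum_univ_five] using hk.symm⟩
  have uq : ∀ {k₁ k₂ k₃ k₄ k₅ l₁ l₂ l₃ l₄ l₅ : F}, k₁ • a + k₂ • c + k₃ • w + k₄ • y + k₅ • x =
      l₁ • a + l₂ • c + l₃ • w + l₄ • y + l₅ • x → k₁ = l₁ ∧ k₂ = l₂ ∧ k₃ = l₃ ∧ k₄ = l₄ ∧ k₅ = l₅ :=
    fun e => by
      simpa only [sub_eq_zero] using li (_ - _) (_ - _) (_ - _) (_ - _) (_ - _)
        (by linear_combination (norm := module) e)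
  have sc : ∀ (g : G) (k : F) (v : E), g • k • v = k • g • v := fun g k v => smul_comm g k v
  choose α hy using hy
  choose β ρ hw using hw
  choose χw χy χx hc using hc
  choose t πw πy πx ha using ha
  choose da dc dw dy dx hd using fun g => sp (δ g)
  have my : ∀ g k, α (g * k) = α g + α k := fun g k => by
    have e := mul_smul g k y
    simp only [hx, hy, sc, smul_add] at e
    exact (uq (k₁ := 0) (k₂ := 0) (k₃ := 0) (k₄ := 0) (l₁ := 0) (l₂ := 0) (l₃ := 0) (l₄ := 0)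
      (by linear_combination (norm := module) e)).2.2.2.2
  have mw : ∀ g k, β (g * k) = β g + β k ∧ ρ (g * k) = ρ g + ρ k + α g * β k := fun g k => by
    have e := mul_smul g k w
    simp only [hx, hy, hw, sc, smul_add] at e
    exact (uq (k₁ := 0) (k₂ := 0) (k₃ := 0) (l₁ := 0) (l₂ := 0) (l₃ := 0)
      (by linear_combination (norm := module) e)).2.2.2
  have mc : ∀ g k, χw (g * k) = χw g + χw k ∧ χy (g * k) = χy g + χy k + β g * χw k ∧
      χx (g * k) = χx g + χx k + ρ g * χw k + α g * χy k := fun g k => by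
    have e := mul_smul g k c
    simp only [hx, hy, hw, hc, sc, smul_add] at e
    exact (uq (k₁ := 0) (k₂ := 0) (l₁ := 0) (l₂ := 0) (by linear_combination (norm := module) e)).2.2
  have ma : ∀ g k, t (g * k) = t g + t k ∧ πw (g * k) = πw g + πw k + χw g * t k ∧
      πy (g * k) = πy g + πy k + χy g * t k + β g * πw k ∧
      πx (g * k) = πx g + πx k + χx g * t k + ρ g * πw k + α g * πy k := fun g k => by
    have e := mul_smul g k a
    simp only [hx, hy, hw, hc, ha, sc, smul_add] at e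
    exact (uq (k₁ := 0) (l₁ := 0) (by linear_combination (norm := module) e)).2
  have md : ∀ g k, da (g * k) = da g + da k ∧ dc (g * k) = dc g + dc k + t g * da k ∧
      dw (g * k) = dw g + dw k + χw g * dc k + πw g * da k ∧
      dy (g * k) = dy g + dy k + β g * dw k + χy g * dc k + πy g * da k ∧
      dx (g * k) = dx g + dx k + α g * dy k + ρ g * dw k + χx g * dc k + πx g * da k := fun g k => by
    have e := h.coc g k
    simp only [hd, hx, hy, hw, hc, ha, sc, smul_add] at e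
    exact uq (by linear_combination (norm := module) e)
  refine ⟨⟨α, β, ρ, χw, χy, χx, t, πw, πy, πx, da, dc, dw, dy, dx, my, fun g k => (mw g k).1,
    fun g k => (mw g k).2, fun g k => (mc g k).1, fun g k => (mc g k).2.1, fun g k => (mc g k).2.2,
    fun g k => (ma g k).1, fun g k => (ma g k).2.1, fun g k => (ma g k).2.2.1, fun g k => (ma g k).2.2.2,
    fun g k => (md g k).1, fun g k => (md g k).2.1, fun g k => (md g k).2.2.1, fun g k => (md g k).2.2.2.1,
    fun g k => (md g k).2.2.2.2, fun g k e1 e2 e3 e4 e5 e6 e7 e8 e9 e10 => ?_, fun k₁ k₂ k₃ k₄ k₅ => ?_⟩,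
    fun g => ⟨hy g, hw g⟩⟩
  · refine (inv_mul_eq_one.1 (h.fai _ fun v => ?_)).symm
    obtain ⟨k₁, k₂, k₃, k₄, k₅, rfl⟩ := sp v
    rw [mul_smul, inv_smul_eq_iff]
    simp only [hx, hy, hw, hc, ha, sc, smul_add, e1, e2, e3, e4, e5, e6, e7, e8, e9, e10]
  · obtain ⟨g, hg⟩ := h.sur (k₁ • a + k₂ • c + k₃ • w + k₄ • y + k₅ • x)
    exact ⟨g, uq ((hd g).symm.trans hg)⟩

end Cfsg.Agent.U11
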