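import Cfsg.Agent.U11.LA3
import Cfsg.Agent.U11.E4

/-!
# Invariant subspaces and central elements of `S`
-/

set_option autoImplicit false
set_option linter.unusedSectionVars false

namespace Cfsg.Agent.U11

open Cfsg.Agent.Class.U Cfsg.Agent.Char

variable {F : Type*} [Field F] [Fintype F] {q : ℕ} [UF F q] {L S : Subgroup (GU 11 F q)}
  {E : Submodule F (Fin 11 → F)} {v x : Fin 11 → F} {p : ℕ} [Fact p.Prime] [CharP F p]

local notation "𝐡" => hermForm 11 F q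

/-- If `U ∩ E^⊥ ⊄ E` then `U ∋ v + y`, `y ∈ E` (`perp`), and `tr` gives `v + E ⊆ U` (some `s` maps
`v + y`: the `S`-orbit of `v` is `v + E`), so `v ∈ U`, `E ≤ U`.  Otherwise, if `U ⊄ E^⊥`,
`exists_fix_mod` (group `S`) gives `u ∈ U \ E^⊥` with all `s u - u ∈ U ∩ E^⊥ ≤ E`; then
`0 = 𝐡 (s u - u) v = 𝐡 u (s⁻¹ v - v)`, so `u ⊥ E` by `tr`. -/
theorem Ev.dich (h : Ev L S E v) (hp : IsPGroup p S) (hS : S ≤ L) {U : Submodule F (Fin 11 → F)}
    (hU : ∀ s ∈ S, ∀ y ∈ U, s • y ∈ U) : U ≤ E ∨ (v ∈ U ∧ E ≤ U) := by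
  by_cases h1 : ∃ w ∈ U, w ∈ pp q E ∧ w ∉ E
  · obtain ⟨w, wU, wp, wE⟩ := h1
    obtain ⟨c, y, yE, rfl⟩ := h.perp w wp
    have c0 : c ≠ 0 := by
      rintro rfl
      exact wE (by simpa using yE)
    obtain ⟨s, hs, e⟩ := h.tr (c⁻¹ • y) (E.smul_mem _ yE)
    have h2 : s • v ∈ U := by
      have := U.smul_mem c⁻¹ wU
      rwa [smul_add, inv_smul_smul₀ c0, ← e] at this
    have h3 : v ∈ U := by simpa using hU s⁻¹ (inv_mem hs) _ h2
    refine .inr ⟨h3, fun x hx => ?_⟩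
    obtain ⟨t, ht, e⟩ := h.tr x hx
    have := hU t ht v h3
    rw [e] at this
    exact (U.add_mem_iff_right h3).1 this
  · push Not at h1
    left
    by_contra h2
    have : SMulCommClass S F (Fin 11 → F) := ⟨fun g c y => GU_smul_comm g.1 c y⟩
    obtain ⟨u, uU, u1, u2⟩ := exists_fix_mod (F := F) hp (W₁ := U ⊓ pp q E) (W₂ := U)
      (fun g y hy => ⟨hU g g.2 y hy.1, fun w hw => by
        have := hy.2 _ (h.inv hS (inv_mem g.2) w hw)
        rwa [← GU_herm g.1, smul_inv_smul] at this⟩) (fun g y hy => hU g g.2 y hy)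
      (by
        by_contra! r
        exact h2 fun y hy => h1 y hy (r y hy).2) inf_le_left
    refine u1 ⟨uU, fun x hx => ?_⟩
    obtain ⟨s, hs, e⟩ := h.tr x hx
    have h3 := u2 ⟨s⁻¹, inv_mem hs⟩
    have h4 := h.ov _ (h1 _ h3.1 h3.2)
    rw [herm_sub_left, ← GU_herm s] at h4
    have h5 : s • ((⟨s⁻¹, inv_mem hs⟩ : S) • u) = u := smul_inv_smul s u
    rw [h5, e, herm_add_right] at h4
    linear_combination h4

/-- `N = nm z`; `range N` is `S`-invariant; `dich`.  If `range N ≤ E` then `E, v ⊥ range N`,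
`mem_pp_range`.  Otherwise `v = N u`, `E ≤ range N`, `ker N ⊥ range N ∋ v, E`, so `ker N ≤ E` (`perp`).
`Q y = 𝐡 y (N y)` is `S`-invariant.  For `N u' ∈ E` take `s` with `s v = v + N u'` (`tr`):
`k = s u - u - u' ∈ ker N ≤ E`, so `Q u = Q (s u) = 𝐡 (u + u' + k) (v + N u') = Q (u + u')`.  Replace
`u'` by `λ u'`: `λ 𝐡 u' v + λ^q 𝐡 u (N u') + λ λ^q 𝐡 u' (N u') = 0`; `quad_conj_zero`: `u ⊥ E`, so
`u = c v + y` and `v = N u ∈ E` (`mv`, `Ev.inv`), against `nv`. -/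
theorem Ev.cen_fix (h : Ev L S E v) (hp : IsPGroup p S) (hS : S ≤ L) {z : GU 11 F q} (hz : z ∈ S)
    (zc : ∀ s ∈ S, z * s = s * z) : Kq E v z := by
  have hN : ∀ s ∈ S, ∀ y, nm z (s • y) = s • nm z y := fun s hs y => by
    rw [nm_apply, nm_apply, smul_sub, ← mul_smul, zc s hs, mul_smul]
  rcases h.dich hp hS (U := LinearMap.range (nm z)) (by
    rintro s hs _ ⟨y, rfl⟩
    exact ⟨_, hN s hs y⟩) with h1 | ⟨⟨u, hu⟩, h2⟩
  · exact ⟨fun x hx => mem_pp_range.1 fun w hw => h.ti x hx w (h1 hw),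
      mem_pp_range.1 fun w hw => herm_comm_zero (h.ov w (h1 hw))⟩
  exfalso
  have hk : ∀ k, nm z k = 0 → k ∈ E := fun k hk => by
    have k1 : k ∈ pp q (LinearMap.range (nm z)) := mem_pp_range.2 (sub_eq_zero.1 hk)
    obtain ⟨c, y, yE, rfl⟩ := h.perp k fun x hx => k1 x (h2 hx)
    have k2 := k1 v ⟨u, hu⟩
    rw [herm_add_left, herm_smul_left, h.ov y yE, add_zero] at k2
    rw [(mul_eq_zero.1 k2).resolve_right h.nv, zero_smul, zero_add]
    exact yE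
  have hQ : ∀ u', nm z u' ∈ E → 𝐡 u' v + 𝐡 u (nm z u') + 𝐡 u' (nm z u') = 0 := fun u' hu' => by
    obtain ⟨s, hs, e⟩ := h.tr _ hu'
    have k1 := hk (s • u - (u + u')) (by rw [map_sub, map_add, hN s hs, hu, e, sub_self])
    have k2 := GU_herm s u v
    have k3 := h.ov _ k1
    have k4 := h.ti _ k1 _ hu'
    rw [herm_sub_left, herm_add_left] at k3 k4
    rw [e, herm_add_right] at k2
    linear_combination k2 - k3 - k4
  obtain ⟨c, y, yE, rfl⟩ := h.perp u fun x hx => by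
    obtain ⟨u', rfl⟩ := h2 hx
    refine (quad_conj_zero (q := q) (a := 𝐡 u' v) (c := 𝐡 u' (nm z u')) fun k => ?_).2.1
    have := hQ (k • u') (by rw [map_smul]; exact E.smul_mem k hx)
    rw [map_smul, herm_smul_left, herm_smul_left, herm_smul_right, herm_smul_right,
      conj_apply] at this
    linear_combination this
  have h3 : v ∈ E := by
    rw [← hu, map_add, map_smul]
    exact E.add_mem (E.smul_mem c (h.mv z hz)) (E.sub_mem (h.inv hS hz y yE) yE)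
  exact h.nv (h.ti v h3 v h3)

/-- `range (nm g) ⊥ E^⊥` (`mem_pp_range`, `perp`), and `(E^⊥)^⊥ = E` (`pp_pp`) -/
theorem Ev.range_le (h : Ev L S E v) {g : GU 11 F q} (hg : Kq E v g) : LinearMap.range (nm g) ≤ E := by
  intro w hw
  rw [← pp_pp (q := q) E]
  intro y hy
  obtain ⟨c, x, xE, rfl⟩ := h.perp y hy
  refine herm_comm_zero (mem_pp_range.2 ?_ w hw)
  rw [smul_add, GU_smul_comm, hg.2, hg.1 x xE]

/-- `range = F u`; `g y = y` iff `y ⊥ u` (`mem_pp_range`); take `𝐡 y₀ u = 1`, `g y₀ - y₀ = c u` -/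
theorem tv_of_rank_one {g : GU 11 F q} (h1 : Module.finrank F (LinearMap.range (nm g)) = 1)
    (h2 : ∀ y ∈ LinearMap.range (nm g), 𝐡 y y = 0) :
    ∃ u c, u ≠ 0 ∧ 𝐡 u u = 0 ∧ c ≠ 0 ∧ Tv g u c := by
  obtain ⟨⟨u, hu⟩, u0, h3⟩ := finrank_eq_one_iff'.1 h1
  have u1 : u ≠ 0 := fun r => u0 (Subtype.ext r)
  obtain ⟨y, hy⟩ := exists_herm_ne_zero (q := q) u1
  replace hy := herm_comm_ne hy
  obtain ⟨c, hc⟩ := h3 ⟨_, (𝐡 y u)⁻¹ • y, rfl⟩
  replace hc : c • u = nm g ((𝐡 y u)⁻¹ • y) := congrArg Subtype.val hc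
  have h4 : Tv g u c := fun x => by
    have h5 : g • (x - 𝐡 x u • (𝐡 y u)⁻¹ • y) = x - 𝐡 x u • (𝐡 y u)⁻¹ • y :=
      mem_pp_range.1 fun w hw => by
        obtain ⟨d, hd⟩ := h3 ⟨w, hw⟩
        obtain rfl : d • u = w := congrArg Subtype.val hd
        rw [herm_smul_right, herm_sub_left, herm_smul_left, herm_smul_left, inv_mul_cancel₀ hy,
          mul_one, sub_self, mul_zero]
    rw [smul_sub, GU_smul_comm, sub_eq_iff_eq_add] at h5
    rw [h5, mul_comm, mul_smul, hc, nm_apply, smul_sub]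
    abel
  refine ⟨u, c, u1, h2 u hu, ?_, h4⟩
  rintro rfl
  obtain ⟨x, rfl⟩ := hu
  exact u1 (by rw [nm_apply, h4 x]; simp)

end Cfsg.Agent.U11
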