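import Cfsg.Agent.U11.LZ1

/-!
# From `S` to the affine group
-/

set_option autoImplicit false
set_option linter.unusedSectionVars false

namespace Cfsg.Agent.U11

open Cfsg.Agent.Class.U Cfsg.Agent.Char

variable {F : Type*} [Field F] [Fintype F] {q : ℕ} [UF F q] {L S : Subgroup (GU 11 F q)}
  {E : Submodule F (Fin 11 → F)} {v x : Fin 11 → F} {p : ℕ} [Fact p.Prime] [CharP F p]

local notation "𝐡" => hermForm 11 F q

theorem Ev.exists_ind (h : Ev L S E v) (hS : S ≤ L) {s : GU 11 F q} (hs : s ∈ S) :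
    ∃ φ : EG S E, Ind φ s := by
  let e : E ≃ₗ[F] E :=
    { toFun := fun y => ⟨s • (y : Fin 11 → F), h.inv hS hs _ y.2⟩
      invFun := fun y => ⟨s⁻¹ • (y : Fin 11 → F), h.inv hS (inv_mem hs) _ y.2⟩
      map_add' := fun a b => Subtype.ext (smul_add s (a : Fin 11 → F) b)
      map_smul' := fun c a => Subtype.ext (GU_smul_comm s c (a : Fin 11 → F))
      left_inv := fun y => Subtype.ext (inv_smul_smul s (y : Fin 11 → F))
      right_inv := fun y => Subtype.ext (smul_inv_smul s (y : Fin 11 → F)) }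
  exact ⟨⟨e, s, hs, fun _ => rfl⟩, fun _ => rfl⟩

theorem exists_of_EG (φ : EG S E) : ∃ s ∈ S, Ind φ s := by
  obtain ⟨s, hs, h⟩ := φ.2
  exact ⟨s, hs, h⟩

theorem Ind.mul {φ φ' : EG S E} {s s' : GU 11 F q} (h : Ind φ s) (h' : Ind φ' s') : Ind (φ * φ') (s * s') := by
  intro y
  rw [mul_smul, h, h', mul_smul]

theorem Ind.inv {φ : EG S E} {s : GU 11 F q} (h : Ind φ s) : Ind φ⁻¹ s⁻¹ := by
  intro y
  rw [eq_inv_smul_iff, ← h, smul_inv_smul]

theorem Ind.ext {φ φ' : EG S E} {s : GU 11 F q} (h : Ind φ s) (h' : Ind φ' s) : φ = φ' := by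
  exact Subtype.ext (LinearEquiv.ext fun y => Subtype.ext ((h y).trans (h' y).symm))

instance finEG : Finite (EG S E) := by
  refine Finite.of_injective (fun φ : EG S E => fun y : E => φ • y) fun a b e => ?_
  exact Subtype.ext (LinearEquiv.ext fun y => congrFun e y)

theorem lz2_ind_one : Ind (1 : EG S E) (1 : GU 11 F q) := by
  intro y
  rw [one_smul, one_smul]

theorem lz2_ind_pow {φ : EG S E} {s : GU 11 F q} (h : Ind φ s) (n : ℕ) : Ind (φ ^ n) (s ^ n) := by
  induction n with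
  | zero => rw [pow_zero, pow_zero]; exact lz2_ind_one
  | succ n ih => rw [pow_succ, pow_succ]; exact ih.mul h

theorem lz2_pg (hp : IsPGroup p S) : IsPGroup p (EG S E) := by
  intro φ
  obtain ⟨s, hs, h⟩ := exists_of_EG φ
  obtain ⟨k, hk⟩ := hp ⟨s, hs⟩
  have hk' : s ^ p ^ k = 1 := congrArg Subtype.val hk
  refine ⟨k, Ind.ext (s := 1) ?_ lz2_ind_one⟩
  rw [← hk']
  exact lz2_ind_pow h _

/-- `δ φ = s v - v` for a chosen `s` inducing `φ`; independent of `s` by `hT` for `s'⁻¹ s` -/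
theorem Ev.conv (h : Ev L S E v) (hp : IsPGroup p S) (hS : S ≤ L)
    (hT : ∀ s ∈ S, (∀ y ∈ E, s • y = y) → s • v = v) :
    ∃ δ : EG S E → E, Af F p δ ∧ ∀ φ, ∀ s ∈ S, Ind φ s → (δ φ : Fin 11 → F) = s • v - v := by
  choose σ h1 h2 using (exists_of_EG : ∀ φ : EG S E, ∃ s ∈ S, Ind φ s)
  have key : ∀ φ, ∀ s ∈ S, Ind φ s → σ φ • v = s • v := by
    intro φ s hs H
    have := hT (s⁻¹ * σ φ) (mul_mem (inv_mem hs) (h1 φ)) fun y hy => by
      have e1 := h2 φ ⟨y, hy⟩
      have e2 := H ⟨y, hy⟩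
      rw [mul_smul, inv_smul_eq_iff]
      exact e1.symm.trans e2
    rw [mul_smul, inv_smul_eq_iff] at this
    exact this
  refine ⟨fun φ => ⟨σ φ • v - v, h.mv _ (h1 φ)⟩, ⟨h.rk, lz2_pg hp, ?_, ?_, ?_⟩, ?_⟩
  · intro a b
    apply Subtype.ext
    rw [Submodule.coe_add, h2 a]
    change σ (a * b) • v - v = σ a • v - v + σ a • (σ b • v - v)
    rw [key (a * b) (σ a * σ b) (mul_mem (h1 a) (h1 b)) ((h2 a).mul (h2 b)), mul_smul, smul_sub]
    abel
  · intro e
    obtain ⟨s, hs, hv⟩ := h.tr e e.2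
    obtain ⟨φ, hφ⟩ := h.exists_ind hS hs
    refine ⟨φ, Subtype.ext ?_⟩
    change σ φ • v - v = e
    rw [key φ s hs hφ, hv, add_sub_cancel_left]
  · intro a ha
    exact Subtype.ext (LinearEquiv.ext ha)
  · intro φ s hs H
    change σ φ • v - v = s • v - v
    rw [key φ s hs H]

/-- `N = nm z`, `range N ≤ E` (`range_le`), `ε ≠ 0` with `ε + ε^q = 0` (`exists_trace_zero`),
`σ : E → V` linear with `N (σ a) = a` for `a ∈ range N` (`LinearMap.exists_rightInverse_of_surjective`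
for `rangeRestrict`, `LinearMap.exists_extend`), `ψ a b = ε 𝐡 (σ a) b`.  `ker N ⊥ range N`
(`mem_pp_range`), so `ψ (N y) b = ε 𝐡 y b` for `b ∈ range N`; `𝐡 (z y) (z y') = 𝐡 y y'` and
`𝐡 (N y) (N y') = 0` give `𝐡 y (N y') = - 𝐡 (N y) y'`; `s N = N s`. -/
theorem Ev.exists_hf (h : Ev L S E v) (hS : S ≤ L) {z : GU 11 F q} (hz : Kq E v z)
    (zc : ∀ s ∈ S, z * s = s * z) : ∃ (ψ : E → E → F) (ε : F), ε ≠ 0 ∧
      Hf q (EG S E) ((LinearMap.range (nm z)).comap E.subtype) ψ ∧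
      ∀ (y : Fin 11 → F) (a b : E), (a : Fin 11 → F) = z • y - y →
        (b : Fin 11 → F) ∈ LinearMap.range (nm z) → ψ a b = ε * 𝐡 y b := by
  obtain ⟨ε, e0, he⟩ := exists_trace_zero F q
  have hε : ε ^ q = -ε := by rw [← conj_apply]; linear_combination he
  obtain ⟨g, hg⟩ := LinearMap.exists_rightInverse_of_surjective (nm z).rangeRestrict
    (LinearMap.range_rangeRestrict _)
  obtain ⟨σ, hσ⟩ := LinearMap.exists_extend g
  have hN : ∀ a ∈ LinearMap.range (nm z), z • σ a - σ a = a := by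
    intro a ha
    have e1 : σ a = g ⟨a, ha⟩ := LinearMap.congr_fun hσ ⟨a, ha⟩
    have e2 := congrArg Subtype.val (LinearMap.congr_fun hg ⟨a, ha⟩)
    rw [e1]
    exact e2
  have hle := h.range_le hz
  have key : ∀ y b : Fin 11 → F, b ∈ LinearMap.range (nm z) → 𝐡 (σ (z • y - y)) b = 𝐡 y b := by
    intro y b hb
    have e1 : z • (σ (z • y - y) - y) = σ (z • y - y) - y := by
      have := hN (z • y - y) ⟨y, rfl⟩
      rw [smul_sub]
      linear_combination (exp := 1) this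
    have e2 := (mem_pp_range.2 e1) b hb
    rw [herm_sub_left] at e2
    exact sub_eq_zero.1 e2
  have skew : ∀ y y' : Fin 11 → F, 𝐡 y (z • y' - y') = -𝐡 (z • y - y) y' := by
    intro y y'
    have e1 := GU_herm z y y'
    have e2 : 𝐡 (z • y - y) (z • y' - y') = 0 := h.ti _ (hle ⟨y, rfl⟩) _ (hle ⟨y', rfl⟩)
    simp only [herm_sub_left, herm_sub_right] at e2 ⊢
    linear_combination e1 - e2
  have cm : ∀ s ∈ S, ∀ y : Fin 11 → F, s • (z • y - y) = z • (s • y) - s • y := by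
    intro s hs y
    rw [smul_sub, ← mul_smul, ← zc s hs, mul_smul]
  refine ⟨fun a b => ε * 𝐡 (σ a) b, ε, e0, ⟨?_, ?_, ?_, ?_, ?_, ?_, ?_, ?_⟩, ?_⟩
  · intro a b c
    rw [Submodule.coe_add, map_add, herm_add_left, mul_add]
  · intro k a b
    rw [Submodule.coe_smul, map_smul, herm_smul_left]
    ring
  · intro a b c
    rw [Submodule.coe_add, herm_add_right, mul_add]
  · intro k a b
    rw [Submodule.coe_smul, herm_smul_right, conj_apply]
    ring
  · rintro a ⟨y, hy⟩ b ⟨y', hy'⟩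
    have ea : (a : Fin 11 → F) = z • y - y := hy.symm
    have eb : (b : Fin 11 → F) = z • y' - y' := hy'.symm
    rw [ea, eb, key y' (z • y - y) ⟨y, rfl⟩, key y (z • y' - y') ⟨y', rfl⟩, mul_pow, hε, ← conj_apply (𝐡 y (z • y' - y')),
      herm_conj, skew y' y]
    ring
  · rintro a ⟨y, hy⟩ H
    have ea : (a : Fin 11 → F) = z • y - y := hy.symm
    have e1 : z • y = y := mem_pp_range.1 fun b hb => by
      have := H ⟨b, hle hb⟩ hb
      rw [ea, key y b hb] at this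
      exact (mul_eq_zero.1 this).resolve_left e0
    apply Subtype.ext
    rw [ea, e1, sub_self]
    rfl
  · rintro φ a ⟨y, hy⟩
    obtain ⟨s, hs, H⟩ := exists_of_EG φ
    have ea : (a : Fin 11 → F) = z • y - y := hy.symm
    refine ⟨s • y, ?_⟩
    change z • (s • y) - s • y = ((φ • a : E) : Fin 11 → F)
    rw [H a, ea, cm s hs]
  · rintro φ a ⟨y, hy⟩ b ⟨y', hy'⟩
    obtain ⟨s, hs, H⟩ := exists_of_EG φ
    have ea : (a : Fin 11 → F) = z • y - y := hy.symm
    have eb : (b : Fin 11 → F) = z • y' - y' := hy'.symm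
    rw [H a, H b, ea, cm s hs, key y _ (by rw [eb]; exact ⟨y', rfl⟩),
      key (s • y) _ (by rw [eb, cm s hs]; exact ⟨s • y', rfl⟩), GU_herm]
  · intro y a b ea hb
    change ε * 𝐡 (σ a) b = _
    rw [ea, key y _ hb]

/-- `exists_hf`, `Hf.iso`: `x ∈ W`, `ψ x x = 0`, `pp (F x) = F x` by dimension; for `y ⊥ x`,
`ψ (N y) x = ε 𝐡 y x = 0` -/
theorem Ev.rank_two (h : Ev L S E v) (hp : IsPGroup p S) (hS : S ≤ L) {z : GU 11 F q} (hz : Kq E v z)
    (zc : ∀ s ∈ S, z * s = s * z) {x : E} (hx : Fx F (EG S E) x)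
    (h2 : Module.finrank F (LinearMap.range (nm z)) = 2) :
    ∀ y, 𝐡 y x = 0 → ∃ c : F, z • y = y + c • (x : Fin 11 → F) := by
  obtain ⟨ψ, ε, e0, H, hψ⟩ := h.exists_hf hS hz zc
  have hle := h.range_le hz
  have hW : Module.finrank F ((LinearMap.range (nm z)).comap E.subtype) = 2 :=
    (Submodule.comapSubtypeEquivOfLe hle).finrank_eq.trans h2
  obtain ⟨xW, xx⟩ := H.iso (lz2_pg hp) hx hW.ge
  have hU : Submodule.span F {x} ≤ (LinearMap.range (nm z)).comap E.subtype :=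
    (Submodule.span_singleton_le_iff_mem _ _).2 xW
  have d1 : Module.finrank F (Submodule.span F {x}) = 1 := finrank_span_singleton hx.ne
  have d2 := H.finrank_pp hU
  have hle' : Submodule.span F {x} ≤ H.pp (Submodule.span F {x}) :=
    (Submodule.span_singleton_le_iff_mem _ _).2 (H.mem_pp_span.2 ⟨xW, fun u hu => by
      rw [Set.mem_singleton_iff.1 hu]; exact xx⟩)
  have heq : Submodule.span F {x} = H.pp (Submodule.span F {x}) :=
    Submodule.eq_of_le_of_finrank_eq hle' (by omega)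
  intro y hy
  have ha : (⟨z • y - y, hle ⟨y, rfl⟩⟩ : E) ∈ H.pp (Submodule.span F {x}) :=
    H.mem_pp_span.2 ⟨⟨y, rfl⟩, fun u hu => by
      rw [Set.mem_singleton_iff.1 hu, hψ y _ x rfl xW, hy, mul_zero]⟩
  rw [← heq, Submodule.mem_span_singleton] at ha
  obtain ⟨c, hc⟩ := ha
  have hc' : c • (x : Fin 11 → F) = z • y - y := congrArg Subtype.val hc
  exact ⟨c, by rw [hc', add_sub_cancel]⟩

end Cfsg.Agent.U11
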