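import Cfsg.Agent.U11.LZ1

/-!
# The square of a lift of a central transvection
-/

set_option autoImplicit false
set_option linter.unusedSectionVars false

namespace Cfsg.Agent.U11

open Cfsg.Agent.Class.U Cfsg.Agent.Char

variable {F : Type*} [Field F] [Fintype F] {q : ℕ} [UF F q] {L S : Subgroup (GU 11 F q)}
  {E : Submodule F (Fin 11 → F)} {v x : Fin 11 → F} {p : ℕ} [Fact p.Prime] [CharP F p]

local notation "𝐡" => hermForm 11 F q

theorem lz3_adj (z : GU 11 F q) (y a : Fin 11 → F) : 𝐡 (z • y - y) a = 𝐡 y (z⁻¹ • a - a) := by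
  rw [herm_sub_left, herm_sub_right, ← GU_herm z y (z⁻¹ • a), smul_inv_smul]

theorem lz3_two (h2 : (2 : F) = 0) (y : Fin 11 → F) : y + y = 0 := by
  rw [← two_smul F y, h2, zero_smul]

theorem Ev.lz3_perp (h : Ev L S E v) {z : GU 11 F q} (zx : z • x = x)
    (z1 : ∀ y ∈ E, ∃ c : F, z • y = y + c • x) {y : Fin 11 → F} (hy : 𝐡 y x = 0) :
    ∃ c : F, ∃ a ∈ E, z • y - y = c • v + a := by
  refine h.perp _ fun a ha => ?_
  obtain ⟨c, hc⟩ := z1 a ha
  have : z⁻¹ • a - a = -(c • x) := by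
    rw [sub_eq_iff_eq_add, inv_smul_eq_iff, smul_add, smul_neg, GU_smul_comm, zx, hc]; abel
  rw [lz3_adj, this, herm_neg_right, herm_smul_right, hy, mul_zero, neg_zero]

theorem Ev.lz3_sq (h : Ev L S E v) (h2 : (2 : F) = 0) {k : GU 11 F q} (hk : Kq E v k) :
    k * k = 1 := by
  refine GU_ext fun y => ?_
  have h1 : k • y - y ∈ E := h.range_le hk ⟨y, rfl⟩
  have h3 := hk.1 _ h1
  rw [smul_sub, sub_eq_iff_eq_add] at h3
  rw [mul_smul, one_smul, h3]
  have a := lz3_two h2 (k • y)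
  have b := lz3_two h2 y
  calc k • y - y + k • y = (k • y + k • y) - (y + y) + y := by abel
    _ = y := by rw [a, b]; simp

theorem lz3_inv {k : GU 11 F q} (hk : Kq E v k) : Kq E v k⁻¹ :=
  ⟨fun a ha => by rw [inv_smul_eq_iff, hk.1 a ha], by rw [inv_smul_eq_iff, hk.2]⟩

/-- Characteristic two.  `N = nm z`, `e = z v - v`.  `z²` fixes `E` (`z y = y + c x`, `z x = x`) and
`z² v = v + 2 e = v`.  `K = {k ∈ S | Kq k}` is normalised by `S` (`mv`, `Ev.inv`), `k² = 1`
(`(k - 1)² = 0` by `range_le`).  `z` commutes with `k ∈ K`: `g = z⁻¹ k⁻¹ z k ∈ K`; for `y, y' ⊥ x`,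
`z y - y ⊥ E` (`𝐡 (z y - y) a = 𝐡 y (z⁻¹ a - a)`, `z⁻¹ a - a ∈ F x`), so `k` fixes `z y - y`, and
`k y - y ∈ E` gives `z k y - k z y = z (k y - y) - (k y - y) ∈ F x`; hence `g y - y ∈ F x`, `hA`.
For `s ∈ S`: `s z s⁻¹ = z k`, `k ∈ K` (`zc`), so `s z² s⁻¹ = z k z k = z²`.  `z² - 1 = N²`.  For `y ⊥ x`:
`N y = c v + a` (`perp`), `N² y = c e + m x`, `c 𝐡 v v = 𝐡 (N y) v = 𝐡 y (z⁻¹ v - v) = - 𝐡 y e`.  So
`range N² ≤ ⟨e, x, N² y₀⟩` (`𝐡 y₀ x = 1`), and `N² y ≠ 0` for `y ⊥ x`, `𝐡 y e ≠ 0` (exists as `e ∉ F x`,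
`pp_pp`). -/
theorem Ev.sq (h : Ev L S E v) (hS : S ≤ L) (h2 : (2 : F) = 0) (hx : x ∈ E) (x0 : x ≠ 0)
    (fx : ∀ s ∈ S, s • x = x)
    (hA : ∀ g ∈ S, Kq E v g → (∀ y, 𝐡 y x = 0 → ∃ c : F, g • y = y + c • x) → g = 1)
    {z : GU 11 F q} (hz : z ∈ S) (z1 : ∀ y ∈ E, ∃ c : F, z • y = y + c • x)
    (z2 : z • (z • v - v) = z • v - v) (z3 : ∀ c : F, z • v - v ≠ c • x)
    (zc : ∀ s ∈ S, Kq E v (z⁻¹ * (s * z * s⁻¹))) :
    z * z ≠ 1 ∧ (∀ s ∈ S, z * z * s = s * (z * z)) ∧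
      Module.finrank F (LinearMap.range (nm (z * z))) ≤ 3 := by
  have zx : z • x = x := fx z hz
  have eE : z • v - v ∈ E := h.mv z hz
  have zv : z • v = v + (z • v - v) := by abel
  have hcomm : ∀ k ∈ S, Kq E v k → z * k = k * z := by
    intro k hk hK
    have hK' := lz3_inv hK
    have hg : z⁻¹ * k⁻¹ * z * k = 1 := by
      refine hA _ (mul_mem (mul_mem (mul_mem (inv_mem hz) (inv_mem hk)) hz) hk) ⟨fun a ha => ?_, ?_⟩
        fun y hy => ?_
      · rw [mul_smul, mul_smul, mul_smul, hK.1 a ha, hK'.1 _ (h.inv hS hz a ha), inv_smul_smul]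
      · rw [mul_smul, mul_smul, mul_smul, hK.2, inv_smul_eq_iff, zv, smul_add, hK'.2, hK'.1 _ eE]
      · obtain ⟨c, a, ha, e1⟩ := h.lz3_perp zx z1 hy
        have b1 : k • y - y ∈ E := h.range_le hK ⟨y, rfl⟩
        obtain ⟨m, hm⟩ := z1 _ b1
        have k1 : k • (z • y - y) = z • y - y := by
          rw [e1, smul_add, GU_smul_comm, hK.2, hK.1 a ha]
        refine ⟨m, ?_⟩
        rw [mul_smul, mul_smul, mul_smul, inv_smul_eq_iff, inv_smul_eq_iff, smul_add, smul_add,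
          GU_smul_comm z m, zx, GU_smul_comm k m, hK.1 x hx]
        rw [smul_sub, sub_eq_iff_eq_add] at k1 hm
        rw [hm, k1]; abel
    calc z * k = k * z * (z⁻¹ * k⁻¹ * z * k) := by group
      _ = k * z := by rw [hg, mul_one]
  have key : ∀ y, 𝐡 y x = 0 → ∃ c m : F, c * 𝐡 v v = -𝐡 y (z • v - v) ∧
      (z * z) • y - y = c • (z • v - v) + m • x := by
    intro y hy
    obtain ⟨c, a, ha, e1⟩ := h.lz3_perp zx z1 hy
    obtain ⟨m, hm⟩ := z1 a ha
    refine ⟨c, m, ?_, ?_⟩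
    · have e2 : z⁻¹ • v - v = -(z • v - v) := by
        rw [sub_eq_iff_eq_add, inv_smul_eq_iff, smul_add, smul_neg, z2]; abel
      have e3 := lz3_adj z y v
      rw [e1, e2, herm_add_left, herm_smul_left, h.ov a ha, add_zero, herm_neg_right] at e3
      exact e3
    · have e4 : z • y = y + (c • v + a) := by rw [← e1]; abel
      have e5 := lz3_two h2 (c • v + a)
      have e6 : z • (z • y) = z • y + (c • (z • v) + (a + m • x)) := by
        conv_lhs => rw [e4, smul_add, smul_add, GU_smul_comm, hm]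
      rw [mul_smul, e6, e4, smul_sub]
      calc y + (c • v + a) + (c • z • v + (a + m • x)) - y
          = (c • v + a + (c • v + a)) + (c • z • v - c • v + m • x) := by abel
        _ = _ := by rw [e5, zero_add]
  refine ⟨fun h1 => ?_, fun s hs => ?_, ?_⟩
  · have : z • v - v ∈ pp q (pp q (Submodule.span F {x})) := by
      rw [mem_pp]
      intro y hy
      have hy' : 𝐡 y x = 0 := mem_pp.1 hy x (Submodule.mem_span_singleton_self x)
      obtain ⟨c, m, e1, e2⟩ := key y hy'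
      rw [h1, one_smul, sub_self] at e2
      by_cases c0 : c = 0
      · rw [c0, zero_mul, eq_comm, neg_eq_zero] at e1
        exact herm_comm_zero e1
      · refine absurd ?_ (z3 (-(c⁻¹ * m)))
        have e3 : c • (z • v - v) = -(m • x) := eq_neg_of_add_eq_zero_left e2.symm
        rw [neg_smul, mul_smul, ← smul_neg, ← e3, inv_smul_smul₀ c0]
    rw [pp_pp, Submodule.mem_span_singleton] at this
    obtain ⟨c, hc⟩ := this
    exact z3 c hc.symm
  · have hk := zc s hs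
    have kS : z⁻¹ * (s * z * s⁻¹) ∈ S := mul_mem (inv_mem hz) (mul_mem (mul_mem hs hz) (inv_mem hs))
    have c1 := hcomm _ kS hk
    have c2 := h.lz3_sq h2 hk
    set k := z⁻¹ * (s * z * s⁻¹) with hkd
    have e1 : s * z * s⁻¹ = z * k := by rw [hkd]; group
    have e2 : s * (z * z) * s⁻¹ = z * z := by
      calc s * (z * z) * s⁻¹ = (s * z * s⁻¹) * (s * z * s⁻¹) := by group
        _ = z * (k * z) * k := by rw [e1]; group
        _ = z * z * (k * k) := by rw [← c1]; group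
        _ = z * z := by rw [c2, mul_one]
    calc z * z * s = s * (z * z) * s⁻¹ * s := by rw [e2]
      _ = s * (z * z) := by group
  · obtain ⟨w, hw⟩ := exists_herm_ne_zero (q := q) x0
    have hw' := herm_comm_ne hw
    have hle : LinearMap.range (nm (z * z)) ≤
        Submodule.span F (Set.range ![z • v - v, x, nm (z * z) w]) := by
      rintro _ ⟨y, rfl⟩
      have hy : 𝐡 (y - (𝐡 y x / 𝐡 w x) • w) x = 0 := by
        rw [herm_sub_left, herm_smul_left, div_mul_cancel₀ _ hw', sub_self]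
      obtain ⟨c, m, -, e2⟩ := key _ hy
      rw [← nm_apply, map_sub, map_smul, sub_eq_iff_eq_add] at e2
      rw [e2]
      refine add_mem (add_mem (Submodule.smul_mem _ _ (Submodule.subset_span ⟨0, rfl⟩))
        (Submodule.smul_mem _ _ (Submodule.subset_span ⟨1, rfl⟩)))
        (Submodule.smul_mem _ _ (Submodule.subset_span ⟨2, rfl⟩))
    exact (Submodule.finrank_mono hle).trans
      ((finrank_range_le_card (R := F) ![z • v - v, x, nm (z * z) w]).trans (by simp))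

end Cfsg.Agent.U11
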