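import Cfsg.Agent.U11.R2b
import Cfsg.Agent.U11.LZ1

/-!
# No element of rank two in `A(x)`
-/

set_option autoImplicit false
set_option linter.unusedSectionVars false

namespace Cfsg.Agent.U11

open Cfsg.Agent.Class.U Cfsg.Agent.Char

variable {F : Type*} [Field F] [Fintype F] {q : ℕ} [UF F q] {L S : Subgroup (GU 11 F q)}
  {E : Submodule F (Fin 11 → F)} {v x : Fin 11 → F} {p : ℕ} [Fact p.Prime] [CharP F p]

local notation "𝐡" => hermForm 11 F q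

/-- mod `q² + 1` the right side is `2 (q - 1)`, mod `q² + q + 1` it is `2 q + 1` -/
theorem not_dvd_blocks {u : ℕ} (hq : 2 ≤ q) (hu : u = 2 ∨ u = 3) :
    ¬ q ^ (2 * u) - 1 ∣ (q ^ 11 + 1) * (q ^ 10 - 1) := by
  intro h
  have h1 : ∀ k, 1 ≤ q ^ k := fun k => Nat.one_le_pow _ _ (by omega)
  have h2 : ((q : ℤ) ^ (2 * u) - 1) ∣ ((q : ℤ) ^ 11 + 1) * ((q : ℤ) ^ 10 - 1) := by
    have := Int.natCast_dvd_natCast.2 h
    push_cast [h1] at this
    exact this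
  have hq' : (2 : ℤ) ≤ q := by exact_mod_cast hq
  generalize (q : ℤ) = r at h2 hq'
  rcases hu with rfl | rfl
  · have a : r ^ 2 + 1 ∣ (r ^ 11 + 1) * (r ^ 10 - 1) := Dvd.dvd.trans ⟨r ^ 2 - 1, by ring⟩ h2
    have b : r ^ 2 + 1 ∣ (r ^ 11 + 1) * (r ^ 10 - 1) - 2 * (r - 1) :=
      ⟨(1) * r ^ 0 + (-2) * r ^ 1 + (-1) * r ^ 2 + (2) * r ^ 3 + (1) * r ^ 4 + (-2) * r ^ 5 + (-1) * r ^ 6 + (2) * r ^ 7 + (1) * r ^ 8 + (-2) * r ^ 9 + (1) * r ^ 11 + (-1) * r ^ 13 + (1) * r ^ 15 + (-1) * r ^ 17 + (1) * r ^ 19, by ring⟩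
    have c : r ^ 2 + 1 ∣ 2 * (r - 1) := by simpa using dvd_sub a b
    have := Int.le_of_dvd (by omega) c
    nlinarith
  · have a : r ^ 2 + r + 1 ∣ (r ^ 11 + 1) * (r ^ 10 - 1) :=
      Dvd.dvd.trans ⟨(r - 1) * (r ^ 3 + 1), by ring⟩ h2
    have b : r ^ 2 + r + 1 ∣ (r ^ 11 + 1) * (r ^ 10 - 1) - (2 * r + 1) :=
      ⟨(-2) * r ^ 0 + (2) * r ^ 2 + (-2) * r ^ 3 + (2) * r ^ 5 + (-2) * r ^ 6 + (2) * r ^ 8 + (-2) * r ^ 9 + (1) * r ^ 10 + (-1) * r ^ 12 + (1) * r ^ 13 + (-1) * r ^ 15 + (1) * r ^ 16 + (-1) * r ^ 18 + (1) * r ^ 19, by ring⟩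
    have c : r ^ 2 + r + 1 ∣ 2 * r + 1 := by simpa using dvd_sub a b
    have := Int.le_of_dvd (by omega) c
    nlinarith

theorem r2c_card {g : GU 11 F q} (hg : g ∈ L) : Nat.card (Um L (g • x)) = Nat.card (Um L x) :=
  (Nat.card_congr (Equiv.subtypeEquiv (MulAction.toPerm g) fun _ => (Um_smul hg).symm)).symm

theorem r2c_card' {g : GU 11 F q} (hg : g ∈ L) : Nat.card (Ut L (g • x)) = Nat.card (Ut L x) :=
  (Nat.card_congr (Equiv.subtypeEquiv (MulAction.toPerm g) fun _ => (Ut_smul hg).symm)).symm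

theorem r2c_rk {g : GU 11 F q} (hg : g ∈ L) :
    Module.finrank F (Um L (g • x)) = Module.finrank F (Um L x) := by
  have := r2c_card (x := x) hg
  rw [card_sub q, card_sub q] at this
  have := Nat.pow_right_injective (two_le_q F q) this
  omega

theorem r2c_inv {g : GU 11 F q} (hg : g ∈ L) {a : Fin 11 → F} (ha : a ∈ Um L (g • x)) :
    g⁻¹ • a ∈ Um L x := (Um_smul hg).1 (by rwa [smul_inv_smul])

/-- if `Um x` is totally isotropic, the sets `Um y \ 0` partition `VV q 0` (`Um_eq`, `Um_smul`, `Tr`)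
into blocks of equal size; `card_VV_zero`, `card_sub` -/
theorem blocks_dvd (h : Tr L) (x0 : x ≠ 0) (xx : 𝐡 x x = 0) (ti : ∀ a ∈ Um L x, 𝐡 a a = 0) :
    q ^ (2 * Module.finrank F (Um L x)) - 1 ∣ (q ^ 11 + 1) * (q ^ 10 - 1) := by
  classical
  rw [← card_VV_zero (F := F), Finset.card_eq_sum_card_image (fun y => Um L y)]
  refine Finset.dvd_sum fun U hU => ?_
  obtain ⟨y, hy, rfl⟩ := Finset.mem_image.1 hU
  obtain ⟨y0, yy⟩ := mem_VV.1 hy
  obtain ⟨g, hg, rfl⟩ := h x y x0 y0 (xx.trans yy.symm)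
  have e : (VV q (0 : F)).filter (fun z => Um L z = Um L (g • x)) =
      (Finset.univ.filter (· ∈ Um L (g • x))).erase 0 := by
    ext z
    simp only [Finset.mem_filter, mem_VV, Finset.mem_erase, Finset.mem_univ, true_and]
    refine ⟨fun ⟨⟨z0, _⟩, e⟩ => ⟨z0, e ▸ mem_Um⟩, fun ⟨z0, hz⟩ => ?_⟩
    have zz : 𝐡 z z = 0 := by rw [← GU_herm g⁻¹]; exact ti _ (r2c_inv hg hz)
    exact ⟨⟨z0, zz⟩, Um_eq h y0 yy z0 zz hz⟩
  rw [e, Finset.card_erase_of_mem (by simp), ← Fintype.card_subtype, ← Nat.card_eq_fintype_card,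
    r2c_card hg, card_sub q]

/-- `W = range (nm b) ≤ Ut x ≤ U = Um x`, `W ≤ E`.  `|Ut y| ≤ q^10` for all isotropic `y ≠ 0` (`Tr`,
`Ut_smul`), so `U ≠ ⊤` (`card_iso_pp`, `Um_ne_top`).  `dim U ≤ 6`: otherwise `U ⊓ Um y` has dimension
`≥ 3` for every isotropic `y ≠ 0`, contains an isotropic vector (`exists_iso`), `Um y = U` (`Um_eq`),
`eq_top_of_iso`.  So `|U| ≤ q^12 < q^15 (q² - 1)` and there is an isotropic `0 ≠ y ∈ W^⊥`, `y ∉ U`;
`y = g x`, `U' = Um y = g U`, `U' ⊓ W = ⊥` (`Um_eq`), `b` fixes `y`, so `(b - 1) U' ≤ U' ⊓ W` and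
`U' ≤ W^⊥` (`mem_pp_range`).  `dich` for `U`.  If `v ∈ U`, `E ≤ U`: for `w ∈ W`, `g⁻¹ w ⊥ U`, so
`g⁻¹ w ∈ E ≤ U` (`perp`, `nv`), `w ∈ U'`, `W = ⊥`.  If `U ≤ E`: `U' ⊔ W` is totally isotropic of
dimension `dim U + 2 ≤ 5` (`finrank_pp`), `dim U ≥ 2`; `blocks_dvd`, `not_dvd_blocks`. -/
theorem Ev.no_rank_two (h : Ev L S E v) (hp : IsPGroup p S) (hS : S ≤ L) (hT : Tr L) (hx : x ∈ E)
    (x0 : x ≠ 0) (fx : ∀ s ∈ S, s • x = x) (hU : Ut L x ≤ E) {b : GU 11 F q} (hb : Ax L x b) :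
    Module.finrank F (LinearMap.range (nm b)) ≠ 2 := by
  intro h2
  have hq := two_le_q F q
  have xx : 𝐡 x x = 0 := h.ti x hx x hx
  have WT : LinearMap.range (nm b) ≤ Ut L x := by
    rintro _ ⟨y, rfl⟩
    exact Submodule.subset_span ⟨b, hb, y, rfl⟩
  have WE := WT.trans hU
  have WU : LinearMap.range (nm b) ≤ Um L x := WT.trans (Cl_Um x mem_Um x0 xx)
  have hc : ∀ y, y ≠ 0 → 𝐡 y y = 0 → Nat.card (Ut L y) ≤ q ^ 10 := fun y y0 yy => by
    obtain ⟨g, hg, rfl⟩ := hT x y x0 y0 (xx.trans yy.symm)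
    rw [r2c_card' hg, card_sub q]
    have := Submodule.finrank_mono hU
    rw [h.rk] at this
    exact Nat.pow_le_pow_right (by omega) (by omega)
  have hf := card_iso_pp h.rk h.ti WE h2
  have hne := Um_ne_top hT hc hb.1 h2 (fun a ha => h.ti a (WE ha) a (WE ha)) hf x0 xx
  have h6 : Module.finrank F (Um L x) ≤ 6 := by
    by_contra h7
    refine hne (eq_top_of_iso (q := q) fun y yy => ?_)
    by_cases y0 : y = 0
    · exact y0 ▸ zero_mem _
    obtain ⟨g, hg, rfl⟩ := hT x y x0 y0 (xx.trans yy.symm)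
    have e1 := Submodule.finrank_sup_add_finrank_inf_eq (Um L x) (Um L (g • x))
    have e2 := Submodule.finrank_le (Um L x ⊔ Um L (g • x))
    rw [Module.finrank_fin_fun] at e2
    rw [r2c_rk hg] at e1
    obtain ⟨z, hz, z0, zz⟩ := exists_iso (q := q) (U := Um L x ⊓ Um L (g • x)) (by omega)
    rw [← Um_eq hT x0 xx z0 zz hz.1, Um_eq hT y0 yy z0 zz hz.2]
    exact mem_Um
  obtain ⟨y, hy, y0, yy, yU⟩ : ∃ y, y ∈ pp q (LinearMap.range (nm b)) ∧ y ≠ 0 ∧ 𝐡 y y = 0 ∧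
      y ∉ Um L x := by
    by_contra hn
    push Not at hn
    have e1 : {z | z ∈ pp q (LinearMap.range (nm b)) ∧ z ≠ 0 ∧ 𝐡 z z = 0}.ncard ≤
        (Um L x : Set (Fin 11 → F)).ncard :=
      Set.ncard_le_ncard (fun z hz => hn z hz.1 hz.2.1 hz.2.2) (Set.toFinite _)
    have e2 : (Um L x : Set (Fin 11 → F)).ncard = q ^ (2 * Module.finrank F (Um L x)) :=
      card_sub q (Um L x)
    have e3 : q ^ (2 * Module.finrank F (Um L x)) < q ^ 15 := Nat.pow_lt_pow_right hq (by omega)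
    have e4 : 1 ≤ q ^ 2 - 1 := by
      have : 2 ^ 2 ≤ q ^ 2 := Nat.pow_le_pow_left hq 2
      omega
    have e5 := Nat.mul_le_mul_left (q ^ 15) e4
    omega
  obtain ⟨g, hg, rfl⟩ := hT x y x0 y0 (xx.trans yy.symm)
  have dj : ∀ w ∈ Um L (g • x), w ∈ LinearMap.range (nm b) → w = 0 := fun w hw hw' => by
    by_contra w0
    have ww := h.ti w (WE hw') w (WE hw')
    apply yU
    rw [← Um_eq hT x0 xx w0 ww (WU hw'), Um_eq hT y0 yy w0 ww hw]
    exact mem_Um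
  have up : Um L (g • x) ≤ pp q (LinearMap.range (nm b)) := fun z hz => by
    have e1 : b • z ∈ Um L (b • g • x) := (Um_smul hb.1).2 hz
    rw [mem_pp_range.1 hy] at e1
    exact mem_pp_range.2 (sub_eq_zero.1 (dj _ (sub_mem e1 hz) ⟨z, rfl⟩))
  rcases h.dich hp hS (U := Um L x) (fun s hs y hy => by
    have e1 : s • y ∈ Um L (s • x) := (Um_smul (hS hs)).2 hy
    rwa [fx s hs] at e1) with hE | ⟨hv, hE⟩
  · have e1 := Submodule.finrank_sup_add_finrank_inf_eq (Um L (g • x)) (LinearMap.range (nm b))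
    have e2 : Um L (g • x) ⊓ LinearMap.range (nm b) = ⊥ :=
      eq_bot_iff.2 fun w hw => dj w hw.1 hw.2
    have e3 : Um L (g • x) ⊔ LinearMap.range (nm b) ≤
        pp q (Um L (g • x) ⊔ LinearMap.range (nm b)) := fun a ha c hc => by
      obtain ⟨a1, ha1, a2, ha2, rfl⟩ := Submodule.mem_sup.1 ha
      obtain ⟨c1, hc1, c2, hc2, rfl⟩ := Submodule.mem_sup.1 hc
      have k1 : 𝐡 a1 c1 = 0 := by
        rw [← GU_herm g⁻¹]
        exact h.ti _ (hE (r2c_inv hg ha1)) _ (hE (r2c_inv hg hc1))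
      rw [herm_add_left, herm_add_right, herm_add_right, k1, up ha1 c2 hc2,
        herm_comm_zero (up hc1 a2 ha2), h.ti a2 (WE ha2) c2 (WE hc2)]
      simp
    have e4 := Submodule.finrank_mono e3
    have e5 := finrank_pp (q := q) (Um L (g • x) ⊔ LinearMap.range (nm b))
    have e6 := Submodule.finrank_mono WU
    rw [e2, finrank_bot, r2c_rk hg, h2] at e1
    exact not_dvd_blocks hq (by omega) (blocks_dvd hT x0 xx fun a ha => h.ti a (hE ha) a (hE ha))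
  · have e1 : LinearMap.range (nm b) = ⊥ := eq_bot_iff.2 fun w hw => by
      obtain ⟨c, e, he, k⟩ := h.perp (g⁻¹ • w) fun u hu => by
        rw [← GU_herm g, smul_inv_smul]
        exact herm_comm_zero (up ((Um_smul hg).2 (hE hu)) w hw)
      have k2 : g⁻¹ • w ∈ Um L x := k ▸ add_mem (Submodule.smul_mem _ c hv) (hE he)
      have k3 := (Um_smul hg).2 k2
      rw [smul_inv_smul] at k3
      exact dj w k3 hw
    rw [e1, finrank_bot] at h2
    omega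

end Cfsg.Agent.U11
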