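import Cfsg.Agent.U11.R2a

/-!
# `A(x)` lies in the Sylow subgroup
-/

set_option autoImplicit false
set_option linter.unusedSectionVars false

namespace Cfsg.Agent.U11

open Cfsg.Agent.Class.U Cfsg.Agent.Char

variable {F : Type*} [Field F] [Fintype F] {q : ℕ} [UF F q] {L S : Subgroup (GU 11 F q)}
  {E : Submodule F (Fin 11 → F)} {v x : Fin 11 → F} {p : ℕ} [Fact p.Prime] [CharP F p]

local notation "𝐡" => hermForm 11 F q

theorem r2d_pow {g : GU 11 F q} {y w : Fin 11 → F} (h1 : g • w = w) (h2 : g • y = y + w) :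
    g ^ p • y = y := by
  have k : ∀ n : ℕ, g ^ n • y = y + (n : F) • w := by
    intro n
    induction n with
    | zero => simp
    | succ n ih => rw [pow_succ', mul_smul, ih, smul_add, GU_smul_comm, h1, h2, Nat.cast_succ, add_smul,
        one_smul]; abel
  rw [k, CharP.cast_eq_zero, zero_smul, add_zero]

/-- `A(x)` as a subgroup -/
def r2dA (L : Subgroup (GU 11 F q)) (x : Fin 11 → F) : Subgroup (GU 11 F q) where
  carrier := {b | Ax L x b}
  one_mem' := ⟨one_mem _, one_smul _ _, fun y _ => ⟨0, by simp⟩⟩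
  mul_mem' := by
    rintro a b ⟨a1, a2, a3⟩ ⟨b1, b2, b3⟩
    refine ⟨mul_mem a1 b1, by rw [mul_smul, b2, a2], fun y hy => ?_⟩
    obtain ⟨c, hc⟩ := a3 y hy
    obtain ⟨d, hd⟩ := b3 y hy
    exact ⟨c + d, by rw [mul_smul, hd, smul_add, GU_smul_comm, a2, hc, add_smul, add_assoc]⟩
  inv_mem' := by
    rintro b ⟨b1, b2, b3⟩
    refine ⟨inv_mem b1, inv_smul_eq_iff.2 b2.symm, fun y hy => ?_⟩
    obtain ⟨c, hc⟩ := b3 y hy
    exact ⟨-c, by rw [inv_smul_eq_iff, smul_add, GU_smul_comm, b2, hc, neg_smul, add_neg_cancel_right]⟩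

theorem r2d_perp {g : GU 11 F q} (h : g • x = x) (y : Fin 11 → F) : 𝐡 (g • y - y) x = 0 := by
  rw [herm_sub_left, ← GU_herm g y x, h, sub_self]

/-- `A = {b | Ax L x b}` is a subgroup of `L` normalised by `S` (`Ax.conj`).  For `b ∈ A`, `N = nm b`:
`N y ⊥ x` (`𝐡 (b y) x = 𝐡 (b y) (b x)`), `N x^⊥ ≤ F x`, `N x = 0`; by induction
`b^n y = y + n N y + C(n,2) N² y`, so `b^(p²) = 1` (`p ∣ C(p², 2)`) and `A` is a `p`-group;
`IsSyl.le_of_le_normalizer`. -/
theorem Ax.mem (hS : PLocal.Amb.IsSyl p S L) (fx : ∀ s ∈ S, s • x = x) {b : GU 11 F q}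
    (hb : Ax L x b) : b ∈ S := by
  have pg : IsPGroup p (r2dA L x) := PLocal.Amb.isPGroup_iff.2 fun a ha => ⟨2, GU_ext fun y => by
    obtain ⟨-, a2, a3⟩ := ha
    have h1 : a ^ p • x = x := r2d_pow (w := 0) (smul_zero _) (by rw [a2, add_zero])
    have h2 : ∀ z, 𝐡 z x = 0 → a ^ p • z = z := fun z hz => by
      obtain ⟨c, hc⟩ := a3 z hz
      exact r2d_pow (by rw [GU_smul_comm, a2]) hc
    rw [pow_two, pow_mul, one_smul]
    exact r2d_pow (h2 _ (r2d_perp h1 y)) (by abel)⟩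
  refine hS.le_of_le_normalizer pg (fun a ha => ha.1) ?_ hb
  refine PLocal.Amb.le_normalizer_iff_cj.2 fun s hs => PLocal.Amb.cj_le_iff_forall.2 fun a ha => ?_
  have := Ax.conj ha (hS.le hs)
  rwa [fx s hs] at this

/-- `range ≤ ⟨x, N y₀⟩` for `𝐡 y₀ x = 1` -/
theorem Ax.rank_le (x0 : x ≠ 0) {b : GU 11 F q} (hb : Ax L x b) :
    Module.finrank F (LinearMap.range (nm b)) ≤ 2 := by
  classical
  obtain ⟨y₁, h1⟩ := exists_herm_ne_zero (q := q) x0
  have h2 := herm_comm_ne h1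
  have le : LinearMap.range (nm b) ≤ Submodule.span F ({x, nm b y₁} : Finset (Fin 11 → F)) := by
    rintro _ ⟨y, rfl⟩
    obtain ⟨c, hc⟩ := hb.2.2 (y - (𝐡 y x / 𝐡 y₁ x) • y₁) (by
      rw [herm_sub_left, herm_smul_left, div_mul_cancel₀ _ h2, sub_self])
    have e : nm b y = c • x + (𝐡 y x / 𝐡 y₁ x) • nm b y₁ := by
      rw [← map_smul, ← sub_eq_iff_eq_add, ← map_sub, nm_apply, hc, add_sub_cancel_left]
    rw [e]
    exact add_mem (Submodule.smul_mem _ _ (Submodule.subset_span (by simp)))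
      (Submodule.smul_mem _ _ (Submodule.subset_span (by simp)))
  exact (Submodule.finrank_mono le).trans ((finrank_span_finset_le_card _).trans Finset.card_le_two)

theorem eq_one_of_rank {b : GU 11 F q} (h : Module.finrank F (LinearMap.range (nm b)) = 0) : b = 1 := by
  rw [Submodule.finrank_eq_zero, LinearMap.range_eq_bot] at h
  refine GU_ext fun y => ?_
  have := LinearMap.congr_fun h y
  rwa [nm_apply, LinearMap.zero_apply, sub_eq_zero, ← one_smul (GU 11 F q) y, smul_smul, mul_one] at this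

end Cfsg.Agent.U11
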