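import Cfsg.Agent.U11.K3
import Cfsg.Agent.U11.K4
import Cfsg.Agent.U11.K5
import Cfsg.Agent.U11.Dc
import Cfsg.Agent.U11.LZ2
import Cfsg.Agent.U11.LZ3
import Cfsg.Agent.U11.R2c
import Cfsg.Agent.U11.R2d

/-!
# The local step for `SU_11(q)`
-/

set_option autoImplicit false
set_option linter.unusedSectionVars false

namespace Cfsg.Agent.U11

open Cfsg.Agent.Class.U

variable {F : Type*} [Field F] [Fintype F] {q : ℕ} [UF F q] {L : Subgroup (GU 11 F q)}

section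

variable {S : Subgroup (GU 11 F q)} {E : Submodule F (Fin 11 → F)} {v : Fin 11 → F}
  {p : ℕ} [Fact p.Prime] [CharP F p] {δ : EG S E → E}

theorem loc_fix (ev : Ev L S E v) (hS : S ≤ L) {y : E} :
    (∀ k : EG S E, k • y = y) ↔ ∀ s ∈ S, s • (y : Fin 11 → F) = y := by
  refine ⟨fun h s hs => ?_, fun h k => ?_⟩
  · obtain ⟨k, hk⟩ := ev.exists_ind hS hs
    rw [← hk, h]
  · obtain ⟨s, hs, hk⟩ := exists_of_EG k
    exact Subtype.ext (by rw [hk, h s hs])

theorem loc_C2 (ev : Ev L S E v) (hS : S ≤ L) {y : E} :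
    (∀ k k' : EG S E, k' • (k • y - y) = k • y - y) ↔
      ∀ s ∈ S, ∀ s' ∈ S, s' • (s • (y : Fin 11 → F) - y) = s • (y : Fin 11 → F) - y := by
  refine ⟨fun h s hs => ?_, fun h k => ?_⟩
  · obtain ⟨k, hk⟩ := ev.exists_ind hS hs
    have := (loc_fix ev hS).1 (h k)
    rwa [Submodule.coe_sub, hk] at this
  · obtain ⟨s, hs, hk⟩ := exists_of_EG k
    refine (loc_fix ev hS).2 ?_
    rw [Submodule.coe_sub, hk]
    exact h s hs

theorem loc_fx (ev : Ev L S E v) (h : Tr L) (hS : PLocal.Amb.IsSyl p S L) (A : Af F p δ) :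
    ∃ x : E, Fx F (EG S E) x := by
  refine (A.Dc q).resolve_right ?_
  rintro ⟨c, c', c0, cc, f1, f2, h1, y, k, hy, e⟩
  have c0' : c' ≠ 0 := fun e => cc 0 (by rw [e, zero_smul])
  obtain ⟨n, hn, nk, ne⟩ := exists_norm h hS (e := c) (e' := c') (fun e => c0 (Subtype.ext e))
    (fun e => c0' (Subtype.ext e)) (by rw [ev.ti _ c.2 _ c.2, ev.ti _ c'.2 _ c'.2])
    ((loc_fix ev hS.le).1 f1) ((loc_fix ev hS.le).1 f2)
  have i : ∀ s ∈ S, n⁻¹ * s * n ∈ S := fun s hs => (nk _).2 (by simpa [mul_assoc] using hs)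
  rw [loc_C2 ev hS.le] at hy
  obtain ⟨s, hs, hk⟩ := exists_of_EG k
  obtain ⟨k', hk'⟩ := ev.exists_ind hS.le ((nk s).1 hs)
  obtain ⟨m, hm⟩ := h1 ⟨n • y, ev.nrm n hn nk _ y.2⟩ ((loc_C2 ev hS.le).2 fun s hs s' hs' => by
    have := congrArg (n • ·) (hy _ (i s hs) _ (i s' hs'))
    simpa [mul_smul, smul_sub] using this) k'
  refine cc m (Subtype.ext ?_)
  rw [← hm, ← ne, ← e, Submodule.coe_sub, Submodule.coe_sub, hk, hk']
  simp [mul_smul, smul_sub]

theorem loc_tv (ev : Ev L S E v) (hN : NoTv L) {g : GU 11 F q} (hg : g ∈ L) (hK : Kq E v g) :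
    Module.finrank F (LinearMap.range (nm g)) ≠ 1 := fun h1 => by
  obtain ⟨u, c, u0, uu, c0, t⟩ := tv_of_rank_one h1 fun y hy =>
    ev.ti _ (ev.range_le hK hy) _ (ev.range_le hK hy)
  exact hN g hg u c u0 uu c0 t

theorem loc_noA (ev : Ev L S E v) (h : Tr L) (hN : NoTv L) (hS : PLocal.Amb.IsSyl p S L) (A : Af F p δ)
    (hδ : ∀ φ, ∀ s ∈ S, Ind φ s → (δ φ : Fin 11 → F) = s • v - v) {x : E} (hx : Fx F (EG S E) x) :
    ∀ g ∈ S, Kq E v g → (∀ y, hermForm 11 F q y x = 0 → ∃ c : F, g • y = y + c • (x : Fin 11 → F)) →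
      g = 1 := by
  have fx := (loc_fix ev hS.le).1 hx.fix
  have x0 : (x : Fin 11 → F) ≠ 0 := fun e => hx.ne (Subtype.ext e)
  have hU : Ut L (x : Fin 11 → F) ≤ E := by
    refine Submodule.span_le.2 ?_
    rintro _ ⟨b, hb, y, rfl⟩
    have bS := hb.mem hS fx
    obtain ⟨φ, hφ⟩ := ev.exists_ind hS.le bS
    have xC : ∀ c : F, c • x ∈ fixS F (EG S E) E := fun c => Submodule.smul_mem _ c hx.fix
    have e : φ = 1 := by
      refine A.lemF (fun a => ?_) ?_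
      · obtain ⟨c, hc⟩ := hb.2.2 a (ev.ti _ a.2 _ x.2)
        have : φ • a - a = c • x := Subtype.ext (by
          rw [Submodule.coe_sub, hφ, hc, add_sub_cancel_left, Submodule.coe_smul])
        exact this ▸ xC c
      · obtain ⟨c, hc⟩ := hb.2.2 v (herm_comm_zero (ev.ov _ x.2))
        have : δ φ = c • x := Subtype.ext (by
          rw [hδ φ b bS hφ, hc, add_sub_cancel_left, Submodule.coe_smul])
        exact this ▸ xC c
    have hK : Kq E v b := by
      refine ⟨fun a ha => ?_, ?_⟩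
      · rw [← hφ ⟨a, ha⟩, e, one_smul]
      · have := hδ φ b bS hφ
        rw [e, A.one] at this
        exact sub_eq_zero.1 this.symm
    exact ev.range_le hK ⟨y, rfl⟩
  intro g hg hK h1
  have hb : Ax L (x : Fin 11 → F) g := ⟨hS.le hg, fx g hg, h1⟩
  have r1 := hb.rank_le x0
  have r2 := ev.no_rank_two hS.pgrp hS.le h x.2 x0 fx hU hb
  have r3 := loc_tv ev hN (hS.le hg) hK
  exact eq_one_of_rank (by omega)

theorem loc_rk (ev : Ev L S E v) {z : GU 11 F q} (hK : Kq E v z) :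
    Module.finrank F ((LinearMap.range (nm z)).comap E.subtype) =
      Module.finrank F (LinearMap.range (nm z)) :=
  (Submodule.comapSubtypeEquivOfLe (ev.range_le hK)).finrank_eq

end

theorem exists_tv (h : Tr L) : ∃ g ∈ L, ∃ u c, u ≠ 0 ∧ hermForm 11 F q u u = 0 ∧ c ≠ 0 ∧ Tv g u c := by
  by_contra hn
  have hN : NoTv L := fun g hg u c u0 uu c0 t => hn ⟨g, hg, u, c, u0, uu, c0, t⟩
  obtain ⟨p, k, hp, hc, -, -⟩ := exists_prime_pow F q
  have := Fact.mk hp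
  obtain ⟨P⟩ : Nonempty (Sylow p L) := inferInstance
  obtain ⟨E, v, ev⟩ := exists_ev h P
  have hS := PLocal.Amb.isSyl_map_subtype P
  generalize (P : Subgroup L).map L.subtype = S at ev hS
  have hT := ev.no_tl h hN hS
  obtain ⟨δ, A, hδ⟩ := ev.conv hS.pgrp hS.le hT
  obtain ⟨x, hx⟩ := loc_fx ev h hS A
  have hA := loc_noA ev h hN hS A hδ hx
  have fx := (loc_fix ev hS.le).1 hx.fix
  have x0 : (x : Fin 11 → F) ≠ 0 := fun e => hx.ne (Subtype.ext e)
  have low : ∀ z ∈ S, z ≠ 1 → (∀ s ∈ S, z * s = s * z) →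
      3 < Module.finrank F (LinearMap.range (nm z)) := by
    intro z hz z1 zc
    have hK := ev.cen_fix hS.pgrp hS.le hz zc
    have r0 : Module.finrank F (LinearMap.range (nm z)) ≠ 0 := fun e => z1 (eq_one_of_rank e)
    have r1 := loc_tv ev hN (hS.le hz) hK
    have r2 : Module.finrank F (LinearMap.range (nm z)) ≠ 2 := fun e =>
      z1 (hA z hz hK (ev.rank_two hS.pgrp hS.le hK zc hx e))
    have r3 : Module.finrank F (LinearMap.range (nm z)) ≠ 3 := fun e => by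
      obtain ⟨ψ, ε, -, H, -⟩ := ev.exists_hf hS.le hK zc
      exact K3 A H hx ((loc_rk ev hK).trans e)
    omega
  obtain ⟨s₀, hs₀, e₀⟩ := ev.tr x x.2
  obtain ⟨z, -, z1, zc⟩ := exists_central hS.pgrp ⊤ ⟨⟨s₀, hs₀⟩, trivial, fun e => x0 (by
    rw [show s₀ = 1 from congrArg Subtype.val e, one_smul] at e₀
    exact left_eq_add.1 e₀)⟩
  have zc' : ∀ s ∈ S, z.1 * s = s * z.1 := fun s hs => congrArg Subtype.val (zc ⟨s, hs⟩)
  have hK := ev.cen_fix hS.pgrp hS.le z.2 zc'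
  obtain ⟨ψ, ε, -, H, -⟩ := ev.exists_hf hS.le hK zc'
  have r1 := low z z.2 (fun e => z1 (Subtype.ext e)) zc'
  have r2 := loc_rk ev hK
  have r3 := Submodule.finrank_le ((LinearMap.range (nm z.1)).comap E.subtype)
  rw [ev.rk] at r3
  by_cases r5 : Module.finrank F ((LinearMap.range (nm z.1)).comap E.subtype) = 5
  · rw [Submodule.eq_top_of_finrank_eq (r5.trans ev.rk.symm)] at H
    exact K5 A H hx
  obtain ⟨h2, φ, φc, f1, f2, f3⟩ := K4 A H hx (by omega)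
  obtain ⟨w, hw, hφ⟩ := exists_of_EG φ
  have dw := hδ φ w hw hφ
  obtain ⟨a1, a2, a3⟩ := ev.sq hS.le h2 x.2 x0 fx hA hw (fun y hy => by
      obtain ⟨c, e⟩ := f1 ⟨y, hy⟩
      exact ⟨c, by rw [← hφ ⟨y, hy⟩, e]; rfl⟩)
    (by rw [← dw, ← hφ, f2]) (fun c e => f3 c (Subtype.ext (dw.trans e))) fun s hs => by
      obtain ⟨χ, hχ⟩ := ev.exists_ind hS.le hs
      have i := hφ.inv.mul ((hχ.mul hφ).mul hχ.inv)
      rw [← φc, mul_inv_cancel_right, inv_mul_cancel] at i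
      have f : ∀ y ∈ E, (w⁻¹ * (s * w * s⁻¹)) • y = y := fun y hy => by
        rw [← i ⟨y, hy⟩, one_smul]
      exact ⟨f, hT _ (mul_mem (inv_mem hw) (mul_mem (mul_mem hs hw) (inv_mem hs))) f⟩
  exact absurd (low _ (mul_mem hw hw) a1 a2) (not_lt.2 a3)

end Cfsg.Agent.U11
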