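import Cfsg.Agent.U11.Bas

/-!
# Counting orbits on vectors
-/

set_option autoImplicit false
set_option linter.unusedSectionVars false

namespace Cfsg.Agent.U11

open Cfsg.Agent.Class.U Cfsg.Agent.Char
open scoped ComplexConjugate

variable {F : Type*} [Field F] [Fintype F] {q : ℕ} [UF F q]

/-- multiplication by `c` with `c c^q = a` (`exists_norm_eq`) maps `VV 1` onto `VV a` and orbits
onto orbits -/
theorem nO_eq (L : Subgroup (GU 11 F q)) {a : F} (h0 : a ≠ 0) (ha : a ^ q = a) :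
    nO L a = nO L (1 : F) := by
  obtain ⟨c, hc⟩ := exists_norm_eq (q := q) ha
  have c0 : c ≠ 0 := by rintro rfl; exact h0 (by rw [← hc, zero_mul])
  have o : ∀ v : Fin 11 → F, (c • ·) '' MulAction.orbit L v = MulAction.orbit L (c • v) := fun v => by
    rw [MulAction.orbit, MulAction.orbit, ← Set.range_comp]
    exact congrArg Set.range (funext fun g => (GU_smul_comm g.1 c v).symm)
  have n : ∀ v : Fin 11 → F, hermForm 11 F q (c • v) (c • v) = a * hermForm 11 F q v v := fun v => by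
    rw [herm_smul_left, herm_smul_right, ← mul_assoc, hc]
  rw [nO, nO, ← Set.ncard_image_of_injective {O : Set (Fin 11 → F) | ∃ v ∈ VV q (1 : F), O = MulAction.orbit L v}
    (Set.image_injective.2 (smul_right_injective (Fin 11 → F) c0))]
  congr 1
  ext O
  constructor
  · rintro ⟨v, hv, rfl⟩
    obtain ⟨w, rfl⟩ : ∃ w, v = c • w := ⟨c⁻¹ • v, (smul_inv_smul₀ c0 v).symm⟩
    rw [mem_VV, n] at hv
    exact ⟨_, ⟨w, mem_VV.2 ⟨right_ne_zero_of_smul hv.1, (mul_eq_left₀ h0).1 hv.2⟩, rfl⟩, o w⟩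
  · rintro ⟨_, ⟨w, hw, rfl⟩, rfl⟩
    rw [mem_VV] at hw
    exact ⟨c • w, mem_VV.2 ⟨smul_ne_zero c0 hw.1, by rw [n, hw.2, mul_one]⟩, o w⟩

theorem nO_pos (L : Subgroup (GU 11 F q)) {a : F} (ha : a ^ q = a) : 0 < nO L a := by
  have h2 := two_le_q F q
  obtain ⟨v, hv⟩ : (VV q a).Nonempty := by
    rw [← Finset.card_pos]
    by_cases h : a = 0
    · rw [h, card_VV_zero]
      exact Nat.mul_pos (Nat.succ_pos _) (Nat.sub_pos_of_lt (Nat.one_lt_pow (by norm_num) h2))
    · rw [card_VV_ne h ha]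
      positivity
  exact (Set.ncard_pos (Set.toFinite _)).2 ⟨_, v, hv, rfl⟩

/-- one orbit means transitive -/
theorem tr_of_nO {L : Subgroup (GU 11 F q)} (h0 : nO L (0 : F) = 1) (h1 : nO L (1 : F) = 1) : Tr L := by
  intro v w hv hw e
  have h : nO L (hermForm 11 F q v v) = 1 := by
    by_cases k : hermForm 11 F q v v = 0
    · rwa [k]
    · rwa [nO_eq L k (herm_conj v v)]
  obtain ⟨O, hO⟩ := Set.ncard_eq_one.1 h
  have k : MulAction.orbit L v = MulAction.orbit L w :=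
    (hO.le ⟨v, mem_VV.2 ⟨hv, rfl⟩, rfl⟩).trans (hO.le ⟨w, mem_VV.2 ⟨hw, e.symm⟩, rfl⟩).symm
  obtain ⟨g, hg⟩ := k.ge (MulAction.mem_orbit_self w)
  exact ⟨g, g.2, hg⟩

/-- Burnside's lemma for an action through a homomorphism -/
theorem orb_burn {Γ G X : Type*} [Group Γ] [Group G] [MulAction G X] [Fintype Γ] [Finite X] (φ : Γ →* G) :
    ∑ x : Γ, Nat.card {v : X // φ x • v = v} =
      (Set.range (MulAction.orbit φ.range : X → Set X)).ncard * Nat.card Γ := by
  classical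
  letI := MulAction.compHom X φ
  have := Fintype.ofFinite X
  have := Fintype.ofFinite (MulAction.orbitRel.Quotient Γ X)
  have h := MulAction.sum_card_fixedBy_eq_card_orbits_mul_card_group Γ X
  simp only [← Nat.card_eq_fintype_card] at h
  refine h.trans (congrArg (· * _) ?_)
  refine (Set.ncard_range_of_injective MulAction.orbitRel.Quotient.orbit_injective).symm.trans ?_
  have o : ∀ v : X, MulAction.orbit Γ v = MulAction.orbit φ.range v := fun v =>
    Set.ext fun w => ⟨fun ⟨g, e⟩ => ⟨⟨φ g, g, rfl⟩, e⟩, fun ⟨⟨_, g, rfl⟩, e⟩ => ⟨g, e⟩⟩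
  congr 1
  ext O
  exact ⟨fun ⟨x, e⟩ => Quotient.inductionOn' x (fun v e => ⟨v, (o v).symm.trans e⟩) e,
    fun ⟨v, e⟩ => ⟨Quotient.mk'' v, (o v).trans e⟩⟩

theorem orb_count (L : Subgroup (GU 11 F q)) :
    (Set.range (MulAction.orbit L : (Fin 11 → F) → Set (Fin 11 → F))).ncard =
      1 + nO L (0 : F) + (q - 1) * nO L (1 : F) := by
  classical
  have e : Set.range (MulAction.orbit L : (Fin 11 → F) → Set (Fin 11 → F)) = insert (MulAction.orbit L 0)
      (⋃ a : F, {O : Set (Fin 11 → F) | ∃ v ∈ VV q a, O = MulAction.orbit L v}) := by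
    ext O
    simp only [Set.mem_range, Set.mem_insert_iff, Set.mem_iUnion, Set.mem_setOf_eq, mem_VV]
    constructor
    · rintro ⟨v, rfl⟩
      by_cases h : v = 0
      exacts [.inl (by rw [h]), .inr ⟨_, v, ⟨h, rfl⟩, rfl⟩]
    · rintro (rfl | ⟨_, v, -, rfl⟩) <;> exact ⟨_, rfl⟩
  rw [e, Set.ncard_insert_of_notMem, Set.ncard_iUnion_of_finite (fun _ => Set.toFinite _), finsum_eq_sum_of_fintype,
    ← Finset.add_sum_erase _ _ (Finset.mem_univ 0), add_comm, add_assoc]
  · congr 2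
    rw [← card_fixed_ne_zero F q, Nat.subtype_card ((Finset.univ.erase 0).filter fun a : F => a ^ q = a)
      (by simp [conj_apply]), ← smul_eq_mul, ← Finset.sum_const, Finset.sum_filter]
    refine Finset.sum_congr rfl fun a ha => ?_
    split_ifs with h
    · exact nO_eq L (Finset.ne_of_mem_erase ha) h
    · simp [VV_eq_empty h]
  · refine fun a b hab => Set.disjoint_left.2 ?_
    rintro _ ⟨v, hv, rfl⟩ ⟨w, hw, k⟩
    obtain ⟨g, rfl⟩ := k.le (MulAction.mem_orbit_self v)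
    exact hab ((mem_VV.1 hv).2.symm.trans ((GU_herm g.1 w w).trans (mem_VV.1 hw).2))
  · simp only [Set.mem_iUnion, not_exists]
    rintro a ⟨v, hv, k⟩
    obtain ⟨g, rfl⟩ := k.ge (MulAction.mem_orbit_self v)
    exact (mem_VV.1 hv).1 (smul_zero g)

theorem orb_pars (g : GU 11 F q) : ∑ θ : IrrCharacter (ZZ F q), omt θ g * conj (omt θ g) =
    ((q : ℂ) + 1)⁻¹ * ∑ z : ZZ F q, om ((z : GU 11 F q) * g) ^ 2 := by
  have k : ∀ θ : IrrCharacter (ZZ F q), omt θ g * conj (omt θ g) =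
      ((q : ℂ) + 1)⁻¹ * ∑ z : ZZ F q, omt θ (z * g) * om ((z : GU 11 F q) * g) := fun θ => by
    nth_rewrite 2 [omt]
    simp only [map_mul, map_inv₀, map_add, map_natCast, map_one, map_sum, conj_om, Complex.conj_conj, omt_mul,
      Finset.mul_sum]
    exact Finset.sum_congr rfl fun z _ => by ring
  simp only [k]
  rw [← Finset.mul_sum, Finset.sum_comm]
  simp only [← Finset.sum_mul, sum_omt, pow_two]

/-- Parseval on `ZZ`: `∑_θ |omt θ g|² = (q+1)⁻¹ ∑_z om(z g)²` (`om` is real; column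
orthogonality, or `IsClassFunction.inner_eq_sum` for `z ↦ om (z g)`), so the left side is
`|H × ZZ|⁻¹ ∑_{(g,z)} |Fix (z g)|` (`om_sq`), the number of orbits of `H × ZZ` acting through
`(g,z) ↦ z g` (`MulAction.compHom`, `MulAction.sum_card_fixedBy_eq_card_orbits_mul_card_group`);
these orbits are the orbits of `H ⊔ ZZ` (`ZZ` is normal: `Subgroup.mul_normal`).  Orbits are
`{0}`, those in `VV 0`, and those in `VV a` for the `q - 1` elements `0 ≠ a = a^q`
(`card_fixed_ne_zero`, `nO_eq`). -/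
theorem sum_inner (H : Subgroup (GU 11 F q)) :
    ∑ θ : IrrCharacter (ZZ F q), classInner (res H θ) (res H θ) =
      ((1 + nO (H ⊔ ZZ F q) (0 : F) + (q - 1) * nO (H ⊔ ZZ F q) (1 : F) : ℕ) : ℂ) := by
  let φ : H × ZZ F q →* GU 11 F q := MonoidHom.mk' (fun x => (x.2 : GU 11 F q) * x.1) fun x y => by
    rw [Prod.fst_mul, Prod.snd_mul, Subgroup.coe_mul, Subgroup.coe_mul, mul_assoc, mul_assoc, ← mul_assoc (y.2 : GU 11 F q),
      ZZ_comm y.2.2, mul_assoc]
  have r : φ.range = H ⊔ ZZ F q := le_antisymm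
    (by rintro _ ⟨x, rfl⟩; exact mul_mem (Subgroup.mem_sup_right x.2.2) (Subgroup.mem_sup_left x.1.2))
    (sup_le (fun g hg => ⟨(⟨g, hg⟩, 1), one_mul g⟩) fun z hz => ⟨(1, ⟨z, hz⟩), mul_one z⟩)
  have b := orb_burn (X := Fin 11 → F) φ
  rw [r, orb_count, Nat.card_prod, card_ZZ, Fintype.sum_prod_type] at b
  have h0 : (Nat.card H : ℂ) ≠ 0 := Nat.cast_ne_zero.2 Nat.card_pos.ne'
  have h1 : (q : ℂ) + 1 ≠ 0 := by exact_mod_cast q.succ_ne_zero
  simp only [classInner, res]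
  rw [← Finset.mul_sum, Finset.sum_comm]
  simp only [orb_pars, om_sq, ← Finset.mul_sum, ← Nat.cast_sum]
  rw [show ∑ g : H, ∑ z : ZZ F q, Nat.card {v : Fin 11 → F // ((z : GU 11 F q) * g) • v = v} = _ from b, Nat.cast_mul,
    Nat.cast_mul, Nat.cast_add_one]
  field_simp

end Cfsg.Agent.U11
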