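import Cfsg.Agent.U11.LA3

/-!
# Closed subspaces are proper
-/

set_option autoImplicit false
set_option linter.unusedSectionVars false

namespace Cfsg.Agent.U11

open Cfsg.Agent.Class.U Cfsg.Agent.Char

variable {F : Type*} [Field F] [Fintype F] {q : ℕ} [UF F q] {L S : Subgroup (GU 11 F q)}
  {E : Submodule F (Fin 11 → F)} {v x : Fin 11 → F} {p : ℕ} [Fact p.Prime] [CharP F p]

local notation "𝐡" => hermForm 11 F q

theorem Ax.conj {b g : GU 11 F q} (h : Ax L x b) (hg : g ∈ L) : Ax L (g • x) (g * b * g⁻¹) := by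
  obtain ⟨h1, h2, h3⟩ := h
  refine ⟨mul_mem (mul_mem hg h1) (inv_mem hg), by rw [mul_smul, mul_smul, inv_smul_smul, h2],
    fun y hy => ?_⟩
  obtain ⟨c, hc⟩ := h3 (g⁻¹ • y) (by rw [← GU_herm g, smul_inv_smul, hy])
  exact ⟨c, by rw [mul_smul, mul_smul, hc, smul_add, smul_inv_smul, GU_smul_comm]⟩

theorem r2a_Ut {g : GU 11 F q} (hg : g ∈ L) {y : Fin 11 → F} (hy : y ∈ Ut L x) :
    g • y ∈ Ut L (g • x) := by
  induction hy using Submodule.span_induction with
  | mem w hw =>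
    obtain ⟨b, hb, z, rfl⟩ := hw
    exact Submodule.subset_span ⟨g * b * g⁻¹, hb.conj hg, g • z, by
      rw [mul_smul, mul_smul, inv_smul_smul, smul_sub]⟩
  | zero => rw [smul_zero]; exact zero_mem _
  | add a b _ _ ha hb => rw [smul_add]; exact add_mem ha hb
  | smul c a _ ha => rw [GU_smul_comm]; exact Submodule.smul_mem _ c ha

/-- `Ax.conj`, `Submodule.span_induction` -/
theorem Ut_smul {g : GU 11 F q} (hg : g ∈ L) {y : Fin 11 → F} : g • y ∈ Ut L (g • x) ↔ y ∈ Ut L x := by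
  refine ⟨fun h => ?_, r2a_Ut hg⟩
  have := r2a_Ut (inv_mem hg) h
  rwa [inv_smul_smul, inv_smul_smul] at this

theorem Cl_Um : Cl L (Um L x) := by
  intro y hy y0 yy
  exact le_sInf fun U hU => hU.1 y (Submodule.mem_sInf.1 hy U hU) y0 yy

theorem mem_Um : x ∈ Um L x := by
  exact Submodule.mem_sInf.2 fun U hU => hU.2

theorem Um_le {U : Submodule F (Fin 11 → F)} (h : Cl L U) (hx : x ∈ U) : Um L x ≤ U := by
  exact sInf_le ⟨h, hx⟩

theorem r2a_Um {g : GU 11 F q} (hg : g ∈ L) {y : Fin 11 → F} (hy : y ∈ Um L x) :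
    g • y ∈ Um L (g • x) := by
  let U : Submodule F (Fin 11 → F) :=
    { carrier := {z | g • z ∈ Um L (g • x)}
      add_mem' := fun {a b} ha hb => by
        change g • (a + b) ∈ Um L (g • x)
        rw [smul_add]; exact add_mem ha hb
      zero_mem' := by
        change g • (0 : Fin 11 → F) ∈ Um L (g • x)
        rw [smul_zero]; exact zero_mem _
      smul_mem' := fun c a ha => by
        change g • (c • a) ∈ Um L (g • x)
        rw [GU_smul_comm]; exact Submodule.smul_mem _ c ha }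
  have hU : Cl L U := fun z hz z0 zz w hw =>
    Cl_Um (g • z) hz (fun e => z0 ((smul_eq_zero_iff_eq g).1 e)) (by rw [GU_herm, zz]) (r2a_Ut hg hw)
  exact Um_le hU (mem_Um (x := g • x)) hy

/-- `g⁻¹ U` is closed when `U` is -/
theorem Um_smul {g : GU 11 F q} (hg : g ∈ L) {y : Fin 11 → F} : g • y ∈ Um L (g • x) ↔ y ∈ Um L x := by
  refine ⟨fun h => ?_, r2a_Um hg⟩
  have := r2a_Um (inv_mem hg) h
  rwa [inv_smul_smul, inv_smul_smul] at this

/-- `Um y ≤ Um x`, and both have the same cardinality (`Tr`, `Um_smul`) -/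
theorem Um_eq (h : Tr L) (x0 : x ≠ 0) (xx : 𝐡 x x = 0) {y : Fin 11 → F} (y0 : y ≠ 0) (yy : 𝐡 y y = 0)
    (hy : y ∈ Um L x) : Um L y = Um L x := by
  obtain ⟨g, hg, e⟩ := h x y x0 y0 (xx.trans yy.symm)
  refine SetLike.coe_injective (Set.eq_of_subset_of_ncard_le (Um_le Cl_Um hy) ?_)
  exact Set.ncard_le_ncard_of_injOn (fun z => g • z) (fun z hz => e ▸ r2a_Um hg hz)
    (fun a _ b _ hab => MulAction.injective g hab)

/-- Fix `y ∈ E \ W`, `Z = {z ∈ W^⊥ | 𝐡 z y ≠ 0}`, `|Z| = q^18 - q^16` (`finrank_pp` for `W` and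
`W + F y`).  For `z ∈ Z` exactly `q` values `λ` make `z + λ y` isotropic (`card_trace_fiber`);
`(z, λ) ↦ (z + λ y, λ)` is injective, so `q |Z| ≤ q² · #`. -/
theorem card_iso_pp (hE : Module.finrank F E = 5) (ti : ∀ a ∈ E, ∀ b ∈ E, 𝐡 a b = 0)
    {W : Submodule F (Fin 11 → F)} (hW : W ≤ E) (h2 : Module.finrank F W = 2) :
    q ^ 15 * (q ^ 2 - 1) ≤ {z | z ∈ pp q W ∧ z ≠ 0 ∧ 𝐡 z z = 0}.ncard := by
  obtain ⟨y, yE, yW⟩ : ∃ y ∈ E, y ∉ W := by
    by_contra hc
    push Not at hc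
    have := Submodule.finrank_mono (show E ≤ W from hc)
    omega
  have yy : 𝐡 y y = 0 := ti y yE y yE
  have yP : y ∈ pp q W := fun w hw => ti y yE w (hW hw)
  have r3 : Module.finrank F ↥(W ⊔ Submodule.span F {y}) = 3 := by
    rw [Submodule.finrank_sup_span_singleton yW, h2]
  have c1 : (pp q W : Set (Fin 11 → F)).ncard = q ^ 18 := by
    have := finrank_pp (q := q) W
    rw [← Nat.card_coe_set_eq]
    refine (card_sub q (pp q W)).trans ?_
    congr 1
    omega
  have c2 : (pp q (W ⊔ Submodule.span F {y}) : Set (Fin 11 → F)).ncard = q ^ 16 := by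
    have := finrank_pp (q := q) (W ⊔ Submodule.span F {y})
    rw [← Nat.card_coe_set_eq]
    refine (card_sub q (pp q (W ⊔ Submodule.span F {y}))).trans ?_
    congr 1
    omega
  have c3 : {t : F | conj F q t = t}.ncard = q := by
    rw [← Nat.card_coe_set_eq]
    exact card_fixed F q
  have hz : ∀ z ∈ (pp q W : Set (Fin 11 → F)) \ (pp q (W ⊔ Submodule.span F {y}) : Set (Fin 11 → F)),
      𝐡 z y ≠ 0 := fun z hz h0 => hz.2 fun w hw => by
    obtain ⟨a, ha, b, hb, rfl⟩ := Submodule.mem_sup.1 hw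
    obtain ⟨c, rfl⟩ := Submodule.mem_span_singleton.1 hb
    rw [herm_add_right, herm_smul_right, hz.1 a ha, h0, mul_zero, add_zero]
  obtain ⟨θ, hθ⟩ := exists_trace_eq_one F q
  have key := Set.ncard_le_ncard_of_injOn
    (s := (pp q W : Set (Fin 11 → F)) \ (pp q (W ⊔ Submodule.span F {y}) : Set (Fin 11 → F)))
    (t := {z | z ∈ pp q W ∧ z ≠ 0 ∧ 𝐡 z z = 0} ×ˢ {t : F | conj F q t = t})
    (fun z => (z - (θ * 𝐡 z z / 𝐡 y z) • y, 𝐡 z z)) (fun z hzz => by
      have a0 := hz z hzz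
      have a1 := herm_comm_ne a0
      refine ⟨⟨sub_mem hzz.1 (Submodule.smul_mem _ _ yP), fun e => a0 ?_, ?_⟩, herm_conj z z⟩
      · rw [sub_eq_zero.1 e, herm_smul_left, yy, mul_zero]
      · simp only [herm_sub_left, herm_sub_right, herm_smul_left, herm_smul_right, yy, map_div₀,
          map_mul, herm_conj]
        field_simp
        linear_combination (-(𝐡 z z * 𝐡 y z * 𝐡 z y)) * hθ)
    (fun a _ b _ hab => by
      obtain ⟨e1, e2⟩ := Prod.mk.inj hab
      have e3 : 𝐡 y a = 𝐡 y b := by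
        have := congrArg (𝐡 y) e1
        simpa only [herm_sub_right, herm_smul_right, yy, mul_zero, sub_zero] using this
      rw [e2, e3] at e1
      exact sub_left_injective e1)
  rw [Set.ncard_sdiff (pp_anti le_sup_left), Set.ncard_prod, c1, c2, c3] at key
  have h2q := two_le_q F q
  refine Nat.le_of_mul_le_mul_right (le_trans (le_of_eq ?_) key) (show 0 < q by omega)
  rw [Nat.mul_sub, Nat.sub_mul]
  congr 1 <;> ring

end Cfsg.Agent.U11
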