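import Cfsg.Agent.U11.R2a

/-!
# The least closed subspace is proper
-/

set_option autoImplicit false
set_option linter.unusedSectionVars false

namespace Cfsg.Agent.U11

open Cfsg.Agent.Class.U Cfsg.Agent.Char

variable {F : Type*} [Field F] [Fintype F] {q : ℕ} [UF F q] {L S : Subgroup (GU 11 F q)}
  {E : Submodule F (Fin 11 → F)} {v x : Fin 11 → F} {p : ℕ} [Fact p.Prime] [CharP F p]

local notation "𝐡" => hermForm 11 F q

/-- induction on `k`: if `U` is not closed add `Ut L y` for a witness `y`; the rank grows -/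
theorem exists_chain (x0 : x ≠ 0) (k : ℕ) : ∃ (Y : Finset (Fin 11 → F)) (U : Submodule F (Fin 11 → F)),
    Y.card ≤ k ∧ (∀ y ∈ Y, y ≠ 0 ∧ 𝐡 y y = 0) ∧ x ∈ U ∧ (Cl L U ∨ k + 1 ≤ Module.finrank F U) ∧
      ∀ M : Submodule F (Fin 11 → F), x ∈ M → (∀ y ∈ Y, y ∈ M → Ut L y ≤ M) → U ≤ M := by
  classical
  induction k with
  | zero =>
    refine ⟨∅, Submodule.span F {x}, le_rfl, by simp, Submodule.mem_span_singleton_self x,
      Or.inr (finrank_span_singleton x0).ge, fun M hM _ => ?_⟩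
    exact (Submodule.span_singleton_le_iff_mem _ _).2 hM
  | succ k ih =>
    obtain ⟨Y, U, h1, h2, h3, h4, h5⟩ := ih
    by_cases hc : Cl L U
    · exact ⟨Y, U, h1.trans k.le_succ, h2, h3, Or.inl hc, h5⟩
    have h6 := h4.resolve_left hc
    simp only [Cl, not_forall] at hc
    obtain ⟨y, hy, y0, yy, hn⟩ := hc
    have hlt : U < U ⊔ Ut L y := lt_of_le_of_ne le_sup_left fun e => hn (e ▸ le_sup_right)
    refine ⟨insert y Y, U ⊔ Ut L y, (Finset.card_insert_le _ _).trans (Nat.succ_le_succ h1),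
      fun z hz => ?_, Submodule.mem_sup_left h3,
      Or.inr (Nat.succ_le_of_lt (h6.trans_lt (Submodule.finrank_lt_finrank_of_lt hlt))),
      fun M hM hY => ?_⟩
    · rcases Finset.mem_insert.1 hz with rfl | hz
      · exact ⟨y0, yy⟩
      · exact h2 z hz
    · have hU := h5 M hM fun z hz => hY z (Finset.mem_insert_of_mem hz)
      exact sup_le hU (hY y (Finset.mem_insert_self _ _) (hU hy))

/-- `b` fixes `y` (`mem_pp_range`), so `(b - 1) Ut y ≤ Ut y ⊓ range = ⊥` (`Ut_smul`) -/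
theorem Ut_le_pp {b : GU 11 F q} (hb : b ∈ L) {y : Fin 11 → F} (hy : y ∈ pp q (LinearMap.range (nm b)))
    (h : ∀ w ∈ Ut L y, w ∈ LinearMap.range (nm b) → w = 0) : Ut L y ≤ pp q (LinearMap.range (nm b)) := by
  intro w hw
  have e := mem_pp_range.1 hy
  have h1 : b • w ∈ Ut L y := by
    have := (Ut_smul (x := y) hb).2 hw
    rwa [e] at this
  have h2 := h _ (sub_mem h1 hw) ⟨w, rfl⟩
  exact mem_pp_range.2 (sub_eq_zero.1 h2)

open Classical in
theorem r2b_fib (h : Tr L) (x0 : x ≠ 0) (xx : 𝐡 x x = 0) {u w : Fin 11 → F} (u0 : u ≠ 0)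
    (uu : 𝐡 u u = 0) (w0 : w ≠ 0) (ww : 𝐡 w w = 0) :
    (Finset.univ.filter fun g : GU 11 F q => g ∈ L ∧ g • u = w).card =
      (Finset.univ.filter fun g : GU 11 F q => g ∈ L ∧ g • x = x).card := by
  obtain ⟨a, ha, e1⟩ := h x u x0 u0 (xx.trans uu.symm)
  obtain ⟨c, hc, e2⟩ := h x w x0 w0 (xx.trans ww.symm)
  refine Finset.card_nbij' (fun g => c⁻¹ * g * a) (fun g => c * g * a⁻¹) (fun g hg => ?_)
    (fun g hg => ?_) (fun g _ => by group) (fun g _ => by group)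
  · simp only [Finset.coe_filter, Finset.mem_univ, true_and, Set.mem_ofPred_eq] at hg ⊢
    refine ⟨mul_mem (mul_mem (inv_mem hc) hg.1) ha, ?_⟩
    rw [mul_smul, mul_smul, e1, hg.2, ← e2, inv_smul_smul]
  · simp only [Finset.coe_filter, Finset.mem_univ, true_and, Set.mem_ofPred_eq] at hg ⊢
    refine ⟨mul_mem (mul_mem hc hg.1) (inv_mem ha), ?_⟩
    rw [mul_smul, mul_smul, ← e1, inv_smul_smul, hg.2, e2]

open Classical in
theorem r2b_fib_le (h : Tr L) (x0 : x ≠ 0) (xx : 𝐡 x x = 0) (u : Fin 11 → F) {w : Fin 11 → F}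
    (w0 : w ≠ 0) (ww : 𝐡 w w = 0) :
    (Finset.univ.filter fun g : GU 11 F q => g ∈ L ∧ g • u = w).card ≤
      (Finset.univ.filter fun g : GU 11 F q => g ∈ L ∧ g • x = x).card := by
  rcases (Finset.univ.filter fun g : GU 11 F q => g ∈ L ∧ g • u = w).eq_empty_or_nonempty with
    e | ⟨g, hg⟩
  · rw [e]; exact Nat.zero_le _
  have e := (Finset.mem_filter.1 hg).2.2
  refine (r2b_fib h x0 xx (fun e0 => w0 ?_) ?_ w0 ww).le
  · rw [← e, e0, smul_zero]
  · rw [← GU_herm g, e, ww]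

theorem r2b_reps {W : Submodule F (Fin 11 → F)} (h2 : Module.finrank F W = 2) :
    ∃ R : Finset (Fin 11 → F), R.card ≤ q ^ 2 + 1 ∧ (∀ r ∈ R, r ∈ W ∧ r ≠ 0) ∧
      ∀ w ∈ W, w ≠ 0 → ∃ c : F, c • w ∈ R := by
  classical
  let B := Module.finBasisOfFinrankEq F W h2
  have hc : Fintype.card F = q ^ 2 := by rw [← Nat.card_eq_fintype_card, UF.card_eq (q := q)]
  refine ⟨insert (B 0 : Fin 11 → F) (Finset.univ.image fun l : F => (B 1 : Fin 11 → F) + l • B 0),
    (Finset.card_insert_le _ _).trans (Nat.succ_le_succ (Finset.card_image_le.trans (by simp [hc]))),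
    fun r hr => ?_, fun w hw w0 => ?_⟩
  · rcases Finset.mem_insert.1 hr with rfl | hr
    · exact ⟨(B 0).2, fun e => B.ne_zero 0 (Subtype.ext e)⟩
    · obtain ⟨l, -, rfl⟩ := Finset.mem_image.1 hr
      refine ⟨add_mem (B 1).2 (W.smul_mem _ (B 0).2), fun e => ?_⟩
      have e' : B 1 + l • B 0 = 0 := Subtype.ext e
      have := congrArg (fun z => B.repr z 1) e'
      simp at this
  · have e := congrArg Subtype.val (B.sum_repr ⟨w, hw⟩)
    simp only [Fin.sum_univ_two, Submodule.coe_add, Submodule.coe_smul] at e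
    generalize B.repr ⟨w, hw⟩ 0 = a at e
    generalize B.repr ⟨w, hw⟩ 1 = c at e
    by_cases c0 : c = 0
    · have a0 : a ≠ 0 := by
        rintro rfl
        exact w0 (by rw [← e, c0]; simp)
      refine ⟨a⁻¹, ?_⟩
      rw [← e, c0, zero_smul, add_zero, inv_smul_smul₀ a0]
      exact Finset.mem_insert_self _ _
    · refine ⟨c⁻¹, Finset.mem_insert_of_mem (Finset.mem_image.2 ⟨c⁻¹ * a, Finset.mem_univ _, ?_⟩)⟩
      rw [← e, smul_add, inv_smul_smul₀ c0, mul_smul, add_comm]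

theorem r2b_num (hq : 2 ≤ q) : 10 * ((q ^ 2 + 1) * (q ^ 10 - 1)) < q ^ 15 * (q ^ 2 - 1) := by
  have h1 : 4 ≤ q ^ 2 := Nat.pow_le_pow_left hq 2
  have h2 : 32 ≤ q ^ 5 := Nat.pow_le_pow_left hq 5
  have h3 : 0 < q ^ 10 := by positivity
  have e : q ^ 15 = q ^ 5 * q ^ 10 := by ring
  rw [e]
  obtain ⟨a, ha⟩ : ∃ a, q ^ 2 = a + 1 := ⟨q ^ 2 - 1, by omega⟩
  obtain ⟨c, hc⟩ : ∃ c, q ^ 10 = c + 1 := ⟨q ^ 10 - 1, by omega⟩
  rw [ha, hc, Nat.add_sub_cancel, Nat.add_sub_cancel]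
  have h4 : 3 ≤ a := by omega
  calc 10 * ((a + 1 + 1) * c) ≤ 10 * ((2 * a) * c) := by gcongr; omega
    _ < 32 * (c + 1) * a := by nlinarith
    _ ≤ q ^ 5 * (c + 1) * a := by gcongr

/-- `W = range (nm b) = ⟨w₀, w₁⟩`; `R = {w₀} ∪ {w₁ + λ w₀}` has `≤ q² + 1` elements, all non-zero
isotropic, and every non-zero subspace of `W` meets `R`.  All stabilisers `L_w` of non-zero isotropic
vectors have the same order `m > 0` (`Tr`), `#{g ∈ L | g w = w'} = m`.  Take `Y, U` from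
`exists_chain 10` (`U` is closed: rank `11` means `⊤`).  `#{g ∈ L | g x ∈ W^⊥} ≥ f m`,
`f = q^15 (q² - 1)`; `#{g ∈ L | ∃ y ∈ Y, ∃ w ∈ R, g⁻¹ w ∈ Ut y} ≤ 10 (q² + 1) (q^10 - 1) m < f m`
(`g⁻¹ w ≠ 0`; for `q = 2`: `51150 < 98304`).  For a good `g`, `M = g⁻¹ W^⊥ ∋ x` satisfies the last
clause (`Ut_smul`, `Ut_le_pp` for `g y`), so `Um x ≤ U ≤ M ≠ ⊤`. -/
theorem Um_ne_top (h : Tr L) (hU : ∀ y, y ≠ 0 → 𝐡 y y = 0 → Nat.card (Ut L y) ≤ q ^ 10)
    {b : GU 11 F q} (hb : b ∈ L) (h2 : Module.finrank F (LinearMap.range (nm b)) = 2)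
    (ti : ∀ a ∈ LinearMap.range (nm b), 𝐡 a a = 0)
    (hf : q ^ 15 * (q ^ 2 - 1) ≤ {z | z ∈ pp q (LinearMap.range (nm b)) ∧ z ≠ 0 ∧ 𝐡 z z = 0}.ncard)
    (x0 : x ≠ 0) (xx : 𝐡 x x = 0) : Um L x ≠ ⊤ := by
  classical
  intro htop
  have hq : 2 ≤ q := by
    have h1 : 1 < Nat.card F := Finite.one_lt_card
    rw [UF.card_eq (q := q)] at h1
    by_contra hlt
    have : q ^ 2 ≤ 1 ^ 2 := Nat.pow_le_pow_left (by omega) 2
    omega
  set W := LinearMap.range (nm b) with hW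
  set m := (Finset.univ.filter fun g : GU 11 F q => g ∈ L ∧ g • x = x).card with hm
  have m0 : 0 < m := Finset.card_pos.2 ⟨1, by simp [one_mem]⟩
  obtain ⟨R, hR, hR1, hR2⟩ := r2b_reps (q := q) h2
  obtain ⟨Y, U, hY, hY1, hxU, hcl, hmin⟩ := exists_chain (L := L) x0 10
  let Z := Finset.univ.filter fun z : Fin 11 → F => z ∈ pp q W ∧ z ≠ 0 ∧ 𝐡 z z = 0
  have hZ : q ^ 15 * (q ^ 2 - 1) ≤ Z.card := by
    refine hf.trans_eq ?_
    rw [← Set.ncard_coe_finset]
    congr 1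
    ext z
    simp [Z]
  let A := Finset.univ.filter fun g : GU 11 F q => g ∈ L ∧ g • x ∈ Z
  have hA : A.card = Z.card * m := by
    rw [Finset.card_eq_sum_card_fiberwise (f := fun g : GU 11 F q => g • x) (t := Z)
      fun g hg => (Finset.mem_filter.1 hg).2.2, ← smul_eq_mul, ← Finset.sum_const]
    refine Finset.sum_congr rfl fun z hz => ?_
    have hz' := (Finset.mem_filter.1 hz).2
    rw [hm, ← r2b_fib h x0 xx x0 xx hz'.2.1 hz'.2.2]
    congr 1
    ext g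
    simp only [A, Finset.mem_filter, Finset.mem_univ, true_and]
    exact ⟨fun e => ⟨e.1.1, e.2⟩, fun e => ⟨⟨e.1, e.2 ▸ hz⟩, e.2⟩⟩
  let T := fun y : Fin 11 → F => (Finset.univ.filter fun u : Fin 11 → F => u ∈ Ut L y).erase 0
  have hT : ∀ y ∈ Y, (T y).card ≤ q ^ 10 - 1 := fun y hy => by
    rw [Finset.card_erase_of_mem (by simp)]
    refine Nat.sub_le_sub_right (le_of_eq_of_le ?_ (hU y (hY1 y hy).1 (hY1 y hy).2)) 1
    rw [Nat.card_eq_fintype_card, Fintype.card_subtype]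
  let B := Y.biUnion fun y => R.biUnion fun w => (T y).biUnion fun u =>
    Finset.univ.filter fun g : GU 11 F q => g ∈ L ∧ g • u = w
  have hB : B.card ≤ 10 * ((q ^ 2 + 1) * ((q ^ 10 - 1) * m)) := by
    refine (Finset.card_biUnion_le_card_mul _ _ _ fun y hy => ?_).trans (Nat.mul_le_mul_right _ hY)
    refine (Finset.card_biUnion_le_card_mul _ _ _ fun w hw => ?_).trans (Nat.mul_le_mul_right _ hR)
    exact (Finset.card_biUnion_le_card_mul _ _ _ fun u _ =>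
      r2b_fib_le h x0 xx u (hR1 w hw).2 (ti w (hR1 w hw).1)).trans (Nat.mul_le_mul_right _ (hT y hy))
  have hlt : B.card < A.card := by
    refine hB.trans_lt ?_
    rw [hA, ← mul_assoc (q ^ 2 + 1), ← mul_assoc]
    exact Nat.mul_lt_mul_of_pos_right ((r2b_num hq).trans_le hZ) m0
  obtain ⟨g, hgA, hgB⟩ := Finset.exists_mem_notMem_of_card_lt_card hlt
  have hg := (Finset.mem_filter.1 hgA).2
  have hgx := (Finset.mem_filter.1 hg.2).2.1
  let M := (pp q W).comap (DistribSMul.toLinearMap F (Fin 11 → F) g)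
  have hUM : U ≤ M := hmin M hgx fun y hy hyM u hu => by
    refine Ut_le_pp hb (y := g • y) hyM (fun w hw hwW => ?_) ((Ut_smul hg.1).2 hu)
    by_contra w0
    obtain ⟨c, hc⟩ := hR2 w hwW w0
    refine hgB (Finset.mem_biUnion.2 ⟨y, hy, Finset.mem_biUnion.2 ⟨_, hc, Finset.mem_biUnion.2
      ⟨g⁻¹ • c • w, Finset.mem_erase.2 ⟨fun e => (hR1 _ hc).2 ?_, Finset.mem_filter.2
        ⟨Finset.mem_univ _, (Ut_smul hg.1).1 ?_⟩⟩, Finset.mem_filter.2
          ⟨Finset.mem_univ _, hg.1, smul_inv_smul _ _⟩⟩⟩⟩)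
    · rw [← smul_inv_smul g (c • w), e, smul_zero]
    · rw [smul_inv_smul]
      exact Submodule.smul_mem _ _ hw
  have hUt : U = ⊤ := by
    rcases hcl with hc | hc
    · exact top_le_iff.1 (htop ▸ Um_le hc hxU)
    · exact Submodule.eq_top_of_finrank_eq (le_antisymm (Submodule.finrank_le _) (by simpa using hc))
  have hb0 : nm b = 0 := by
    refine LinearMap.ext fun y => ?_
    have h1 : g⁻¹ • y ∈ M := hUM (hUt ▸ Submodule.mem_top)
    have h3 : g • g⁻¹ • y ∈ pp q W := h1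
    rw [smul_inv_smul] at h3
    exact sub_eq_zero.2 (mem_pp_range.1 h3)
  rw [hW, hb0, LinearMap.range_zero, finrank_bot] at h2
  exact absurd h2 (by norm_num)

end Cfsg.Agent.U11
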