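import Cfsg.Agent.U11.Defs
import Cfsg.Agent.Sing.ChA

/-!
# Characters and a TI-subgroup modulo the centre: basics (port of `Sing/ChA`)
-/

set_option autoImplicit false
set_option linter.unusedSectionVars false

namespace Cfsg.Agent.U11

open Cfsg.Agent.Class.U Cfsg.Agent.Char
open scoped ComplexConjugate

variable {H : Type*} [Group H] [Fintype H] {Z S : Subgroup H} {σ : H} {h : ℕ}

open Finset
open scoped commutatorElement

theorem TZ.inf (D : TZ Z S σ h) {s : H} (hs : s ∈ S) (hz : s ∈ Z) : s = 1 :=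
  D.fpf 1 one_pos (by norm_num) s hs (by simp [← D.cen s hz])

theorem TZ.l1 (D : TZ Z S σ h) (l : IrrCharacter S) : (l : S → ℂ) 1 = 1 :=
  l.2.one_eq_one_of_comm fun a b => Subtype.ext (D.comm _ a.2 _ b.2)

/-- Conjugation on `S`. -/
def TZ.cj (D : TZ Z S σ h) (i : ℕ) : S →* S where
  toFun s := ⟨σ ^ i * s * (σ ^ i)⁻¹, by
    induction i with
    | zero => simp
    | succ i ih => simpa [pow_succ', mul_assoc] using D.norm _ ih⟩
  map_one' := by simp
  map_mul' a b := Subtype.ext (by simp [mul_assoc])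

theorem TZ.cj_surj (D : TZ Z S σ h) (i : ℕ) : Function.Surjective (D.cj i) :=
  Finite.surjective_of_injective fun a b e => by simpa [TZ.cj] using e

theorem TZ.surj (D : TZ Z S σ h) (i : ℕ) (h0 : 0 < i) (h7 : i < 11) :
    Function.Surjective fun u : S => D.cj i u * u⁻¹ :=
  Finite.surjective_of_injective fun a b e => by
    have e1 := congrArg Subtype.val e
    have := D.fpf i h0 h7 _ (b⁻¹ * a).2 (by
      simp only [TZ.cj, MonoidHom.coe_mk, OneHom.coe_mk, Subgroup.coe_mul, Subgroup.coe_inv] at e1 ⊢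
      convert Z.one_mem using 1
      calc _ = (σ ^ i * b * (σ ^ i)⁻¹)⁻¹ * (σ ^ i * a * (σ ^ i)⁻¹ * (a : H)⁻¹) * b := by group
        _ = _ := by rw [e1]; group)
    exact (inv_mul_eq_one.1 (Subtype.ext this)).symm

/-- Port of `Sing.TId.ti_bound` (`Sing/ChA`).  Let `N = {z u σ^i}`, a subgroup with
`|N| ≤ 11 h |Z|`.  The map `(x, z, s) ↦ x z s x⁻¹` on `H × Z × (S \ 1)` has fibres of size `≤ |N|`
(`ti`: `x'⁻¹ x ∈ N`; `(z, s)` is determined by `x` since `S ⊓ Z = ⊥` by `fpf 1`).  So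
`|H| |Z| ∑_{s ≠ 1} g s ≤ |H| ∑_{z, s ≠ 1} f (z s) ≤ 11 h |Z| ∑ f`. -/
theorem TZ.bound [Fintype S] [DecidableEq S] (D : TZ Z S σ h) {f : H → ℝ} (h0 : ∀ x, 0 ≤ f x)
    (hf : ∀ x y, f (y * x * y⁻¹) = f x) {g : S → ℝ}
    (hg : ∀ z ∈ Z, ∀ s : S, s ≠ 1 → g s ≤ f (z * s)) :
    Nat.card H * ∑ s ∈ Finset.univ.erase (1 : S), g s ≤ 11 * h * ∑ x, f x := by
  classical
  have := Fintype.ofFinite Z
  have hZ : (0 : ℝ) < Nat.card Z := by exact_mod_cast Nat.card_pos
  let T : Finset (H × Z × S) := univ ×ˢ univ ×ˢ univ.erase 1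
  let m : H × Z × S → H := fun p => p.1 * (p.2.1 * p.2.2) * p.1⁻¹
  have e1 : Nat.card Z * (Nat.card H * ∑ s ∈ univ.erase (1 : S), g s) ≤ ∑ p ∈ T, f (m p) := by
    rw [mul_left_comm, sum_product]
    simp only [m, hf, sum_const, card_univ, nsmul_eq_mul, Nat.card_eq_fintype_card]
    refine mul_le_mul_of_nonneg_left ?_ (by positivity)
    rw [sum_product, ← nsmul_eq_mul, ← card_univ, ← sum_const]
    exact sum_le_sum fun z _ => sum_le_sum fun s hs => hg _ z.2 _ (ne_of_mem_erase hs)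
  have e2 : ∀ y : H, (#{p ∈ T | m p = y} : ℝ) ≤ Nat.card Z * (11 * h) := fun y => by
    rcases (T.filter fun p => m p = y).eq_empty_or_nonempty with k | ⟨q, hq⟩
    · rw [k]; simp; positivity
    have : #{p ∈ T | m p = y} ≤ #(univ.image fun r : Z × Fin 11 × S => (r.1 : H) * r.2.2 * σ ^ (r.2.1 : ℕ)) := by
      refine card_le_card_of_injOn (fun p => q.1⁻¹ * p.1) (fun p hp => ?_) fun p hp p' hp' e => ?_
      · simp only [coe_filter, T, mem_product, mem_univ, mem_erase, true_and, and_true, mem_filter,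
          Set.mem_ofPred_eq, m] at hp hq
        obtain ⟨z, hz, u, hu, i, e⟩ := D.ti (q.1⁻¹ * p.1) _ p.2.2.2 (fun k => hp.1 (Subtype.ext k)) _ q.2.2.2 (by
          convert Z.mul_mem (Z.inv_mem p.2.1.2) q.2.1.2 using 1
          rw [eq_inv_mul_iff_mul_eq, ← mul_left_inj (q.2.2 : H), ← mul_right_inj q.1, ← mul_left_inj q.1⁻¹,
            hq.2, ← hp.2]
          calc _ = q.1 * p.2.1 * q.1⁻¹ * p.1 * p.2.2 * p.1⁻¹ := by group
            _ = _ := by rw [← D.cen _ p.2.1.2, mul_inv_cancel_right, D.cen _ p.2.1.2 p.1, mul_assoc p.1])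
        refine mem_coe.2 (mem_image.2 ⟨(⟨z, hz⟩, ⟨i % 11, Nat.mod_lt _ (by norm_num)⟩, ⟨u, hu⟩), mem_univ _, ?_⟩)
        simp only [e, ← pow_eq_pow_mod i D.pow7]
      · have e1 : p.1 = p'.1 := mul_left_cancel e
        have e2 := (mem_filter.1 hp).2.trans (mem_filter.1 hp').2.symm
        simp only [m] at e2
        rw [e1, mul_left_inj, mul_right_inj] at e2
        have e3 : ((p.2.2 * p'.2.2⁻¹ : S) : H) ∈ Z := by
          convert Z.mul_mem (Z.inv_mem p.2.1.2) p'.2.1.2 using 1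
          rw [Subgroup.coe_mul, Subgroup.coe_inv, mul_inv_eq_iff_eq_mul, mul_assoc, ← e2, inv_mul_cancel_left]
        have e4 : p.2.2 = p'.2.2 := mul_inv_eq_one.1 (Subtype.ext (D.inf (Subtype.prop _) e3))
        rw [e4, mul_left_inj] at e2
        exact Prod.ext e1 (Prod.ext (Subtype.ext e2) e4)
    have k := this.trans card_image_le
    rw [card_univ, Fintype.card_prod, Fintype.card_prod, Fintype.card_fin, ← Nat.card_eq_fintype_card,
      ← Nat.card_eq_fintype_card, D.card] at k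
    exact_mod_cast k
  have e3 : ∑ p ∈ T, f (m p) ≤ ∑ y, Nat.card Z * (11 * h) * f y := by
    rw [← sum_fiberwise T m]
    refine sum_le_sum fun y _ => ?_
    rw [sum_congr rfl fun p hp => by rw [(mem_filter.1 hp).2], sum_const, nsmul_eq_mul]
    exact mul_le_mul_of_nonneg_right (e2 y) (h0 y)
  rw [← mul_sum, mul_assoc] at e3
  exact le_of_mul_le_mul_left (e1.trans e3) hZ

/-- `bound` with `‖f‖²` (`classInner_self_eq_sum_normSq`) -/
theorem TZ.ti_bound [Fintype S] (D : TZ Z S σ h) {f c : H → ℂ} (hf : IsClassFunction H f)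
    (hc : Cen Z c f) : ∑ s : S, ‖f s‖ ^ 2 - ‖f 1‖ ^ 2 ≤ 11 * h * (classInner f f).re := by
  classical
  have hH : (0 : ℝ) < Nat.card H := by exact_mod_cast Nat.card_pos
  have e := D.bound (f := fun x => ‖f x‖ ^ 2) (g := fun s => ‖f s‖ ^ 2) (fun _ => by positivity)
    (fun x y => by rw [hf]) fun z hz s _ => by rw [(hc z hz).2, norm_mul, (hc z hz).1, one_mul]
  rw [sum_erase_eq_sub (mem_univ _)] at e
  rw [classInner_self_eq_sum_normSq, Complex.ofReal_re, mul_left_comm, ← div_eq_inv_mul,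
    le_div_iff₀' hH]
  exact e

/-- Schur: `Z` is central (`exists_scalar_of_commute`; or use a landed lemma on central
characters) -/
theorem TZ.exists_cen (D : TZ Z S σ h) {χ : H → ℂ} (hχ : IsIrrCharacter H χ) : ∃ c, Cen Z c χ := by
  classical
  choose c hc using fun z : Z => (isCharacter_norm_eq_iff hχ.isCharacter z).1
    (norm_eq_of_mem_center hχ (Subgroup.mem_center_iff.2 fun g => (D.cen _ z.2 g).symm))
  exact ⟨fun z => if k : z ∈ Z then c ⟨z, k⟩ else 1, fun z hz => by simpa only [dif_pos hz] using hc ⟨z, hz⟩⟩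

/-- constituents have the same central character: with `Cen Z c' χ`,
`⟨f, χ⟩ = c z conj (c' z) ⟨f, χ⟩` (substitute `g ↦ z g`) -/
theorem TZ.cen_const (D : TZ Z S σ h) {f c χ : H → ℂ} (hc : Cen Z c f) (hχ : IsIrrCharacter H χ)
    (hi : classInner f χ ≠ 0) : Cen Z c χ := by
  obtain ⟨c', hc'⟩ := D.exists_cen hχ
  intro z hz
  have e : classInner f χ = c z * conj (c' z) * classInner f χ := by
    rw [classInner_def, mul_left_comm, mul_sum _ _ (c z * _), ← Equiv.sum_comp (Equiv.mulLeft z)]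
    simp only [Equiv.coe_mulLeft, (hc z hz).2, (hc' z hz).2, map_mul]
    congr 2
    funext g
    ring
  have e1 : c z * conj (c' z) = 1 := mul_right_cancel₀ hi (by rw [← e, one_mul])
  have e2 : c z = c' z := by
    rw [← mul_one (c z), ← (show conj (c' z) * c' z = 1 by rw [Complex.conj_mul', (hc' z hz).1]; simp),
      ← mul_assoc, e1, one_mul]
  rw [e2]
  exact hc' z hz

/-- `s ↦ σ s σ⁻¹ s⁻¹` is an injective (`fpf 1`) hence bijective endomorphism of `S`, so
`S ≤ ⁅H, H⁆`, a normal subgroup -/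
theorem TZ.perfect (D : TZ Z S σ h) (hS : Subgroup.normalClosure (S : Set H) = ⊤) :
    commutator H = ⊤ := by
  refine eq_top_iff.2 (hS ▸ Subgroup.normalClosure_le_normal fun s hs => ?_)
  obtain ⟨u, hu⟩ := D.surj 1 one_pos (by norm_num) ⟨s, hs⟩
  rw [show s = ⁅σ ^ 1, (u : H)⁆ from (congrArg Subtype.val hu).symm]
  exact Subgroup.commutator_mem_commutator (Subgroup.mem_top _) (Subgroup.mem_top _)

/-- a character constant on `S` has `S`, hence `H`, in its kernel -/
theorem TZ.triv (hS : Subgroup.normalClosure (S : Set H) = ⊤) {χ : H → ℂ}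
    (hχ : IsIrrCharacter H χ) (h1 : ∀ s ∈ S, χ s = χ 1) : χ = 1 := by
  have := charKer_normal hχ.isClassFunction
  exact eq_one_of_charKer_eq_top hχ (eq_top_iff.2 (hS ▸ Subgroup.normalClosure_le_normal
    fun s hs => (mem_charKer_iff hχ.isCharacter).2 (h1 s hs)))

/-- linear characters are trivial (`perfect`) -/
theorem TZ.lin (D : TZ Z S σ h) (hS : Subgroup.normalClosure (S : Set H) = ⊤) {χ : H → ℂ}
    (hχ : IsIrrCharacter H χ) (h1 : χ 1 = 1) : χ = 1 := by
  refine eq_one_of_charKer_eq_top hχ (eq_top_iff.2 ?_)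
  rw [← D.perfect hS]
  exact commutator_le_charKer_of_one hχ.isCharacter h1

/-- Port of `TId.cj`, `TId.O`, `mu_O`, `card_O`: conjugation by `σ` permutes the linear
characters of `S`; the orbit of `l ≠ 1` has exactly `11` elements, none trivial. -/
theorem TZ.orbit [Fintype S] (D : TZ Z S σ h) (l : IrrCharacter S) (hl : l ≠ irrOne S) :
    ∃ O : Finset (IrrCharacter S), l ∈ O ∧ O.card = 11 ∧ irrOne S ∉ O ∧
      ∀ f : H → ℂ, IsClassFunction H f → ∀ l' ∈ O,
        classInner (fun s : S => f s) (l' : S → ℂ) = classInner (fun s : S => f s) (l : S → ℂ) := by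
  classical
  obtain ⟨lam, hlam⟩ := l.2.exists_linear_of_comm fun a b => Subtype.ext (D.comm _ a.2 _ b.2)
  have key : ∀ i j, i < j → j < 11 → inflateIrr _ (D.cj_surj i) l ≠ inflateIrr _ (D.cj_surj j) l :=
    fun i j h1 h2 e => hl (Subtype.ext (funext fun s => ?_))
  · refine ⟨(range 11).image fun i => inflateIrr _ (D.cj_surj i) l, mem_image.2 ⟨0, by simp,
      Subtype.ext (funext fun s => by simp [TZ.cj])⟩, ?_, fun k => ?_, fun f hf l' hl' => ?_⟩
    · rw [card_image_of_injOn, card_range]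
      intro i hi j hj e
      rcases lt_trichotomy i j with k | k | k
      · exact absurd e (key i j k (mem_range.1 hj))
      · exact k
      · exact absurd e.symm (key j i k (mem_range.1 hi))
    · obtain ⟨i, -, e⟩ := mem_image.1 k
      refine hl (Subtype.ext (funext fun s => ?_))
      obtain ⟨v, rfl⟩ := D.cj_surj i s
      exact congrFun (congrArg Subtype.val e) v
    · obtain ⟨i, -, rfl⟩ := mem_image.1 hl'
      have := classInner_comp_surjective _ (D.cj_surj i) (fun s : S => f s) l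
      rwa [show (fun x : S => f (D.cj i x)) = fun s : S => f s from funext fun s => hf _ _] at this
  obtain ⟨u, rfl⟩ := D.surj (j - i) (by omega) (by omega) s
  obtain ⟨v, rfl⟩ := D.cj_surj i u
  have e1 := congrFun (congrArg Subtype.val e) v
  have e2 : D.cj (j - i) (D.cj i v) = D.cj j v := Subtype.ext (by
    simp only [TZ.cj, MonoidHom.coe_mk, OneHom.coe_mk]
    rw [show σ ^ j = σ ^ (j - i) * σ ^ i by rw [← pow_add, Nat.sub_add_cancel h1.le]]; group)
  simp only [inflateIrr_apply, hlam, Units.val_inj] at e1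
  simp [hlam, e2, e1]

/-- Port of `TId.ineq`. -/
theorem TZ.ineq [Fintype S] (D : TZ Z S σ h) {f c : H → ℂ} {m : IrrCharacter S → ℤ}
    (k : Sing.Mu S f m) (hf : IsGeneralizedCharacter H f) (hc : Cen Z c f) {n : ℕ}
    (hn : classInner f f = n) : (h : ℤ) * ∑ l, m l ^ 2 - (∑ l, m l) ^ 2 ≤ n * 11 * h := by
  have e := D.ti_bound hf.isClassFunction hc
  have e1 := (hf.restrict S).inner_self_eq_sum_sq k
  have e2 : f 1 = (∑ l, m l : ℤ) := by simpa [D.l1] using k.apply hf.isClassFunction 1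
  rw [classInner_self_eq_sum_normSq, ← Complex.ofReal_intCast, Complex.ofReal_inj, D.card,
    inv_mul_eq_iff_eq_mul₀ (by rw [← D.card]; exact_mod_cast Nat.card_pos.ne')] at e1
  rw [e1, hn, e2, Complex.norm_intCast, sq_abs, Complex.natCast_re] at e
  have : ((h * ∑ l, m l ^ 2 - (∑ l, m l) ^ 2 : ℤ) : ℝ) ≤ (n * 11 * h : ℤ) := by push_cast at e ⊢; linarith
  exact_mod_cast this

theorem TZ.cI (D : TZ Z S σ h) : Fintype.card (IrrCharacter S) = h := by
  have := Fintype.ofFinite S
  have := sum_irr_one_sq (G := S)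
  rw [D.card] at this
  simpa [D.l1] using this

theorem TZ.deg [Fintype S] (D : TZ Z S σ h) {f : H → ℂ} {m : IrrCharacter S → ℤ}
    (k : Sing.Mu S f m) (hf : IsClassFunction H f) : f 1 = (∑ l, m l : ℤ) := by
  simpa [D.l1] using k.apply hf 1

end Cfsg.Agent.U11
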