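import Cfsg.Agent.U11.TA

/-!
# Shape of the irreducible characters on the torus
-/

set_option autoImplicit false
set_option linter.unusedSectionVars false

namespace Cfsg.Agent.U11

open Cfsg.Agent.Class.U Cfsg.Agent.Char Finset
open scoped ComplexConjugate

variable {H : Type*} [Group H] [Fintype H] {Z S : Subgroup H} {σ : H} {h : ℕ}

/-- shape of `χ|_S`: `a · reg + b · 1` (non-exceptional) -/
def NE (S : Subgroup H) (h : ℕ) (χ : H → ℂ) (a : ℕ) (b : ℤ) : Prop :=
  b ^ 2 ≤ 11 ∧ χ 1 = (a * h + b : ℤ) ∧ ∀ s ∈ S, s ≠ 1 → χ s = b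

/-- shape of `χ|_S`: `a · reg + ε ∑_{l ∈ O} l` (exceptional) -/
def EX (S : Subgroup H) [Fintype S] (χ : H → ℂ) (a : ℕ) (ε : ℤ) (O : Finset (IrrCharacter S)) : Prop :=
  ε ^ 2 = 1 ∧ O.card = 11 ∧ irrOne S ∉ O ∧ ∀ l : IrrCharacter S,
    classInner (fun s : S => χ s) (l : S → ℂ) = (a + (open Classical in if l ∈ O then ε else 0) : ℤ)

/-- Port of `TId.exists_sh`, `Sh.val`: `TZ.ineq` with `n = 1` and `Sing.exists_shift`
(`4 · 7² < h`) give `a` with `∑ (m l - a)² ≤ 11`; `a ≥ 0` since `m ≥ 0` and at most `11 < h` values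
differ from `a`.  If `m l₀ ≠ a` for some `l₀ ≠ 1`, the orbit `O` (`TZ.orbit`) uses up all of the
bound.  Otherwise `χ|_S = a · reg + b · 1`. -/
theorem TZ.shape [Fintype S] (D : TZ Z S σ h) (hb : 484 < h) {χ : H → ℂ} (hχ : IsIrrCharacter H χ) :
    ∃ a : ℕ, (∃ b, NE S h χ a b) ∨ ∃ ε O, EX S χ a ε O := by
  classical
  obtain ⟨m, k⟩ := Sing.exists_mu (S := S) hχ.isGen
  obtain ⟨c, hc⟩ := D.exists_cen hχ
  obtain ⟨a, ha⟩ := Sing.exists_shift m 11
    (by simpa [D.cI] using D.ineq k hχ.isGen hc (n := 1) (by simpa using hχ.inner_self)) (by rw [D.cI]; omega)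
  have nn : ∀ l, 0 ≤ m l := fun l => by
    obtain ⟨c, hc⟩ := (hχ.isCharacter.restrict S).exists_nat_inner l.2.isCharacter
    rw [k l] at hc
    have : m l = c := by exact_mod_cast hc
    omega
  have cd : #{l | m l ≠ a} ≤ 11 := by
    have : ∑ l ∈ {l | m l ≠ a}, (1 : ℤ) ≤ (11 : ℕ) :=
      ((sum_le_sum fun l hl => (one_le_sq_iff_one_le_abs _).2 (Int.one_le_abs (sub_ne_zero.2
        (mem_filter.1 hl).2))).trans (sum_le_univ_sum_of_nonneg fun l => sq_nonneg _)).trans ha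
    rw [sum_const, nsmul_one] at this
    exact_mod_cast this
  have a0 : 0 ≤ a := by
    by_contra h0
    rw [filter_true_of_mem fun l _ => by have := nn l; omega, card_univ, D.cI] at cd
    omega
  lift a to ℕ using a0
  refine ⟨a, ?_⟩
  by_cases h0 : ∀ l, l ≠ irrOne S → m l = a
  · have hm : ∀ l, m l = a + if l = irrOne S then m (irrOne S) - a else 0 := fun l => by
      split_ifs with e
      · rw [e, add_sub_cancel]
      · rw [h0 l e, add_zero]
    refine .inl ⟨m (irrOne S) - a, (single_le_sum (f := fun l => (m l - a) ^ 2) (fun _ _ => sq_nonneg _)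
      (mem_univ (irrOne S))).trans ha, ?_, fun s hs h1 => ?_⟩
    · rw [D.deg k hχ.isClassFunction, sum_congr rfl fun l _ => hm l, sum_add_distrib, sum_ite_eq', if_pos (mem_univ _),
        sum_const, card_univ, D.cI, nsmul_eq_mul, mul_comm]
    have e := sum_irr_one_mul (G := S) (g := ⟨s, hs⟩) fun e => h1 (congrArg Subtype.val e)
    simp only [fun l : IrrCharacter S => l.2.one_eq_one_of_comm fun a b => Subtype.ext (D.comm _ a.2 _ b.2),
      one_mul] at e
    rw [k.apply hχ.isClassFunction ⟨s, hs⟩, sum_congr rfl fun l _ => by rw [hm l]]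
    simp [add_mul, sum_add_distrib, ← mul_sum, e]
  push Not at h0
  obtain ⟨l₀, h1, h2⟩ := h0
  obtain ⟨O, -, o7, o1, hO⟩ := D.orbit l₀ h1
  have mO : ∀ l ∈ O, m l = m l₀ := fun l hl => by
    exact_mod_cast (k l).symm.trans ((hO χ hχ.isClassFunction l hl).trans (k l₀))
  have e : ∑ l ∈ O, (m l - a) ^ 2 = 11 * (m l₀ - a) ^ 2 := by
    rw [sum_congr rfl fun l hl => by rw [mO l hl], sum_const, o7, nsmul_eq_mul, Nat.cast_ofNat]
  rw [← sum_add_sum_compl O, e, Nat.cast_ofNat] at ha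
  have p1 : 1 ≤ (m l₀ - a) ^ 2 := (one_le_sq_iff_one_le_abs _).2 (Int.one_le_abs (sub_ne_zero.2 h2))
  have p2 : 0 ≤ ∑ l ∈ Oᶜ, (m l - a) ^ 2 := sum_nonneg fun _ _ => sq_nonneg _
  refine .inr ⟨m l₀ - a, O, by omega, o7, o1, fun l => (k l).trans (congrArg _ ?_)⟩
  split_ifs with hl
  · rw [mO l hl, add_sub_cancel]
  · rw [add_zero]
    exact sub_eq_zero.1 (pow_eq_zero_iff two_ne_zero |>.1 ((sum_eq_zero_iff_of_nonneg fun _ _ => sq_nonneg _).1
      (le_antisymm (by omega) p2) l (mem_compl.2 hl)))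

/-- an exceptional character has degree `a h + 11 ε` (`TZ.deg`, `TZ.cI`) -/
theorem TZ.ex_deg [Fintype S] (D : TZ Z S σ h) {χ : H → ℂ} (hχ : IsClassFunction H χ) {a : ℕ}
    {ε : ℤ} {O : Finset (IrrCharacter S)} (k : EX S χ a ε O) : χ 1 = (a * h + 11 * ε : ℤ) := by
  classical
  rw [D.deg (m := _) k.2.2.2 hχ, sum_add_distrib, sum_ite_mem, univ_inter, sum_const, sum_const, k.2.1, card_univ, D.cI,
    nsmul_eq_mul, nsmul_eq_mul, mul_comm, Nat.cast_ofNat]

/-- `a = 0`: `χ` is constant on `S` (`TZ.triv`) -/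
theorem TZ.ne_zero (hS : Subgroup.normalClosure (S : Set H) = ⊤) {χ : H → ℂ}
    (hχ : IsIrrCharacter H χ) {b : ℤ} (k : NE S h χ 0 b) : χ = 1 ∧ b = 1 := by
  have e : χ 1 = b := by simpa using k.2.1
  have e' := TZ.triv hS hχ fun s hs => by
    by_cases h1 : s = 1
    · rw [h1]
    · rw [k.2.2 s hs h1, e]
  rw [e', Pi.one_apply] at e
  exact ⟨e', by exact_mod_cast e.symm⟩

theorem TZ.deg_or [Fintype S] (D : TZ Z S σ h) (hb : 484 < h)
    (hS : Subgroup.normalClosure (S : Set H) = ⊤) {χ : H → ℂ} (hχ : IsIrrCharacter H χ)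
    (hne : χ ≠ 1) {d : ℕ} (hd : χ 1 = d) : h ≤ d + 11 ∨ d = 11 := by
  obtain ⟨a, ⟨b, k⟩ | ⟨ε, O, k⟩⟩ := D.shape hb hχ
  · rcases a with _ | a
    · exact absurd (TZ.ne_zero hS hχ k).1 hne
    have e : (d : ℤ) = (a + 1 : ℕ) * h + b := by exact_mod_cast hd.symm.trans k.2.1
    have : (h : ℤ) ≤ d + 11 := by
      push_cast at e
      nlinarith [k.1, mul_nonneg (Int.natCast_nonneg a) (Int.natCast_nonneg h)]
    exact .inl (by exact_mod_cast this)
  have e : (d : ℤ) = a * h + 11 * ε := by exact_mod_cast hd.symm.trans (D.ex_deg hχ.isClassFunction k)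
  have k1 := sq_eq_one_iff.1 k.1
  rcases a with _ | a
  · omega
  · push_cast at e
    rw [add_mul] at e
    have := mul_nonneg (Int.natCast_nonneg a) (Int.natCast_nonneg h)
    omega

/-- Port of `TId.deg_or`, `TId.deg_ge`.  By `shape`, a non-trivial irreducible character has
degree `≥ h - 11` or is exceptional with `a = 0`, `ε = 1`, of degree `11`.  In the last case
`ψ = χ · conj χ` has degree `121 < h - 11`, contains `1_H` exactly once, and its other constituents
are exceptional with `a = 0`, so do not contain `1_S`; but `⟨ψ|_S, 1_S⟩ = ⟨χ|_S, χ|_S⟩ = 11`. -/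
theorem TZ.deg_ge [Fintype S] (D : TZ Z S σ h) (hb : 484 < h)
    (hS : Subgroup.normalClosure (S : Set H) = ⊤) {χ : H → ℂ} (hχ : IsIrrCharacter H χ)
    (hne : χ ≠ 1) {d : ℕ} (hd : χ 1 = d) : h ≤ d + 11 := by
  classical
  refine (D.deg_or hb hS hχ hne hd).elim id fun e => ?_
  subst e
  obtain ⟨c, e, h1, h2, -, h3⟩ := Sing.exists_deg (hχ.isCharacter.mul hχ.isCharacter.conj)
  have c1 : c (irrOne H) = 1 := by
    have := h1 (irrOne H)
    rw [classInner_mul_left] at this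
    simp only [irrOne_apply, Complex.conj_conj, mul_one, hχ.inner_self] at this
    exact_mod_cast this.symm
  have d1 : e (irrOne H) = 1 := by simpa using (h2 (irrOne H)).symm
  have h4 : 11 * 11 = ∑ χ, c χ * e χ := by
    simp only [Pi.mul_apply, hd, map_natCast] at h3
    exact_mod_cast h3
  have h5 : 11 ∣ ∑ ψ ∈ univ.erase (irrOne H), c ψ * e ψ := dvd_sum fun ψ hψ => by
    rcases Nat.eq_zero_or_pos (c ψ) with k | k
    · simp [k]
    have k1 : c ψ * e ψ ≤ 11 * 11 := h4 ▸ single_le_sum (f := fun χ => c χ * e χ) (by simp) (mem_univ ψ)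
    rcases D.deg_or hb hS ψ.2 (fun e => ne_of_mem_erase hψ (Subtype.ext e)) (h2 ψ) with k3 | k3
    · nlinarith
    · rw [k3]
      exact dvd_mul_left _ _
  rw [← add_sum_erase _ _ (mem_univ (irrOne H)), c1, d1] at h4
  omega

end Cfsg.Agent.U11
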