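import Cfsg.Agent.U11.Bas

/-!
# Calculus of the Heisenberg operators
-/

set_option autoImplicit false
set_option linter.unusedSectionVars false

namespace Cfsg.Agent.U11

open Cfsg.Agent.Class.U Cfsg.Agent.Char
open scoped ComplexConjugate

variable {F : Type*} [Field F] [Fintype F] {q : ℕ} [UF F q] {ψ : AddChar F ℂ} {e : (Fin 11 → F) → MM q}

theorem He.w0_mul (h : He ψ e) (v w : Fin 11 → F) :
    e v * ei ψ e w = ψ (-hermForm 11 F q (v - w) w) • e (v - w) := by
  rw [ei, Matrix.mul_smul, h.mul, smul_smul, ← AddChar.map_add_eq_mul, herm_neg_right, herm_sub_left, sub_eq_add_neg v]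
  congr 2
  ring

theorem w0_q (_ : He ψ e) : (q : ℂ) ≠ 0 := Nat.cast_ne_zero.2 (by have := two_le_q F q; omega)

theorem w0_card : Fintype.card (Fin 11 → F) = q ^ 11 * q ^ 11 := by
  rw [Fintype.card_fun, Fintype.card_fin, ← Nat.card_eq_fintype_card, UF.card_eq (q := q)]
  ring

theorem He.mul_ei (h : He ψ e) (v : Fin 11 → F) : e v * ei ψ e v = 1 := by
  rw [h.w0_mul, sub_self, herm_zero_left, neg_zero, AddChar.map_zero_eq_one, one_smul, h.zero]

theorem He.ei_mul (h : He ψ e) (v : Fin 11 → F) : ei ψ e v * e v = 1 :=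
  mul_eq_one_comm.1 (h.mul_ei v)

theorem He.mul_ei' (h : He ψ e) (v w : Fin 11 → F) :
    e v * ei ψ e w = ψ (-hermForm 11 F q (v - w) w) • e (v - w) :=
  h.w0_mul v w

theorem He.conj (h : He ψ e) (v w : Fin 11 → F) :
    e w * e v * ei ψ e w = ψ (hermForm 11 F q w v - hermForm 11 F q v w) • e v := by
  rw [h.mul, Matrix.smul_mul, h.mul_ei', add_sub_cancel_left, smul_smul, ← AddChar.map_add_eq_mul, sub_eq_add_neg]

open Classical in
theorem He.tr_mul_ei (h : He ψ e) (v w : Fin 11 → F) :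
    (e v * ei ψ e w).trace = if v = w then (q : ℂ) ^ 11 else 0 := by
  split_ifs with c
  · rw [c, h.mul_ei, Matrix.trace_one, Fintype.card_fin, Nat.cast_pow]
  · rw [h.mul_ei', Matrix.trace_smul, h.tr _ (sub_ne_zero.2 c), smul_zero]

/-- the `q^22` matrices `e v` are linearly independent (`tr_mul_ei`), hence a basis of the matrix
algebra (dimension `q^11 · q^11`); the coefficients are read off with `tr_mul_ei`. -/
theorem He.expand (h : He ψ e) (A : MM q) :
    A = ((q : ℂ) ^ 11)⁻¹ • ∑ v : Fin 11 → F, (A * ei ψ e v).trace • e v := by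
  classical
  have k : ∀ (c : (Fin 11 → F) → ℂ) w, ((∑ v, c v • e v) * ei ψ e w).trace = c w * (q : ℂ) ^ 11 := fun c w => by
    simp only [Finset.sum_mul, Matrix.smul_mul, Matrix.trace_sum, Matrix.trace_smul, h.tr_mul_ei, smul_eq_mul, mul_ite,
      mul_zero, Finset.sum_ite_eq', Finset.mem_univ, if_true]
  have q0 := pow_ne_zero 11 (w0_q h)
  have li : LinearIndependent ℂ e := Fintype.linearIndependent_iff.2 fun c hc w => by
    have := k c w
    rw [hc, zero_mul, Matrix.trace_zero] at this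
    exact (mul_eq_zero.1 this.symm).resolve_right q0
  have sp := li.span_eq_top_of_card_eq_finrank' (by
    rw [w0_card (q := q), Module.finrank_matrix, Fintype.card_fin, Module.finrank_self, mul_one])
  obtain ⟨c, rfl⟩ := (Submodule.mem_span_range_iff_exists_fun ℂ).1 (sp.ge (Submodule.mem_top (x := A)))
  simp only [k]
  rw [Finset.smul_sum]
  exact Finset.sum_congr rfl fun v _ => by rw [smul_smul, mul_comm (c v), inv_mul_cancel_left₀ q0]

/-- Parseval: expand `B`. -/
theorem He.parseval (h : He ψ e) (A B : MM q) :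
    ∑ v : Fin 11 → F, (A * e v).trace * (B * ei ψ e v).trace = (q : ℂ) ^ 11 * (A * B).trace := by
  conv_rhs => rw [h.expand B]
  rw [Matrix.mul_smul, Matrix.trace_smul, smul_eq_mul, mul_inv_cancel_left₀ (pow_ne_zero 11 (w0_q h)),
    Finset.mul_sum, Matrix.trace_sum]
  exact Finset.sum_congr rfl fun v _ => by rw [Matrix.mul_smul, Matrix.trace_smul, smul_eq_mul, mul_comm]

/-- a matrix commuting with all `e v` is scalar (it is central by `expand`) -/
theorem He.scalar (h : He ψ e) {A : MM q} (hA : ∀ v, A * e v = e v * A) : ∃ c : ℂ, A = c • 1 := by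
  obtain ⟨c, hc⟩ := (Matrix.mem_range_scalar_iff_commute_single' (M := A)).2 fun i j => by
    rw [h.expand (Matrix.single i j 1)]
    exact (Commute.sum_left _ _ _ fun v _ => Commute.smul_left (hA v).symm _).smul_left _
  exact ⟨c, by rw [← hc, Matrix.scalar_apply, Matrix.smul_one_eq_diagonal]⟩

/-- an idempotent of trace one has rank one (`LinearMap.IsProj.trace`: trace = rank), so
`P = a bᵀ` (`vecMulVec`) and `P A P = tr (P A) P` -/
theorem rank_one {n : Type*} [Fintype n] [DecidableEq n] {P : Matrix n n ℂ} (h1 : P * P = P)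
    (h2 : P.trace = 1) (A : Matrix n n ℂ) : P * A * P = (P * A).trace • P := by
  have t := ((LinearMap.isProj_range_iff_isIdempotentElem (Matrix.toLin' P)).2 (by
    rw [IsIdempotentElem, Module.End.mul_eq_comp, ← Matrix.toLin'_mul, h1])).trace
  rw [Matrix.trace_toLin'_eq, h2] at t
  obtain ⟨a, -, ha⟩ := finrank_eq_one_iff'.1 (Nat.cast_eq_one.1 t.symm)
  obtain ⟨l, hl⟩ := ha ⟨_, A.mulVec a.1, rfl⟩
  replace hl : l • a.1 = P.mulVec (A.mulVec a.1) := congrArg Subtype.val hl
  have k : P * A * P = l • P := Matrix.ext_iff_mulVec.2 fun x => by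
    obtain ⟨c, hc⟩ := ha ⟨_, x, rfl⟩
    replace hc : c • a.1 = P.mulVec x := congrArg Subtype.val hc
    rw [← Matrix.mulVec_mulVec, ← Matrix.mulVec_mulVec, Matrix.smul_mulVec, ← hc, Matrix.mulVec_smul, Matrix.mulVec_smul,
      ← hl, smul_comm]
  have := congrArg Matrix.trace k
  rw [Matrix.trace_mul_cycle, h1, Matrix.trace_smul, h2, smul_eq_mul, mul_one] at this
  rw [k, this]

/-- substitute `x = v + y`: `e (g(v+y)) = ψ(-𝐡 v y) e (g v) e (g y)`,
`ei (v+y) e v = ψ(𝐡 v y) ei y` -/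
theorem He.rho_e (h : He ψ e) (g : GU 11 F q) (v : Fin 11 → F) :
    rho ψ e g * e v = e (g • v) * rho ψ e g := by
  rw [rho, Matrix.smul_mul, Matrix.mul_smul, Finset.sum_mul, Finset.mul_sum]
  congr 1
  refine (Fintype.sum_equiv (Equiv.addLeft v) _ _ fun y => ?_).symm
  rw [Equiv.coe_addLeft, ← mul_assoc, h.mul, GU_herm, ← smul_add, mul_assoc, ei, ei, Matrix.smul_mul, Matrix.smul_mul, h.mul,
    Matrix.mul_smul, Matrix.mul_smul, Matrix.mul_smul, smul_smul, smul_smul, ← AddChar.map_add_eq_mul,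
    ← AddChar.map_add_eq_mul, show -(v + y) + v = -y by abel]
  congr 2
  simp only [herm_add_left, herm_add_right, herm_neg_left]
  ring

theorem He.rho_ei (h : He ψ e) (g : GU 11 F q) (v : Fin 11 → F) :
    rho ψ e g * ei ψ e v = ei ψ e (g • v) * rho ψ e g := by
  rw [ei, ei, Matrix.mul_smul, Matrix.smul_mul, h.rho_e, smul_neg, GU_herm]

theorem He.rho_one (h : He ψ e) : rho ψ e 1 = 1 := by
  have q0 := w0_q h
  simp only [rho, dd_one, one_smul, h.mul_ei, Finset.sum_const, Finset.card_univ, w0_card (q := q)]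
  rw [← Nat.cast_smul_eq_nsmul ℂ, smul_smul]
  convert one_smul ℂ _ using 2
  push_cast
  field_simp

/-- `tr = (-q)^{-(11+d)} q^11 q^{2d}` (`tr_mul_ei`, `card_fx`) -/
theorem He.tr_rho (h : He ψ e) (g : GU 11 F q) : (rho ψ e g).trace = om g := by
  classical
  have q0 := w0_q h
  have c := card_fx g
  rw [Nat.card_eq_fintype_card, Fintype.card_subtype] at c
  rw [rho, Matrix.trace_smul, Matrix.trace_sum]
  simp only [h.tr_mul_ei]
  rw [← Finset.sum_filter, Finset.sum_const]
  erw [c]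
  have e2 : (q : ℂ) ^ (2 * dd g) = ((-(q : ℂ)) ^ dd g) ^ 2 := by rw [pow_right_comm, neg_sq, pow_mul]
  have := pow_ne_zero (dd g) (neg_ne_zero.2 q0)
  rw [nsmul_eq_mul, Nat.cast_pow, e2, om, smul_eq_mul, pow_add]
  field_simp

/-- for a scalar `z = c ≠ 1`: `dd z = 0`, substitute `v = (c - 1) x` in `mul_ei'`:
`-𝐡((c-1)x, x) = (1 - c^q)⁻¹ 𝐡(v,v)` -/
theorem He.rho_scalar (h : He ψ e) {z : GU 11 F q} {c : F} (hz : ∀ v : Fin 11 → F, z • v = c • v)
    (hc : c ≠ 1) : rho ψ e z =
      -((q : ℂ) ^ 11)⁻¹ • ∑ v : Fin 11 → F, ψ ((1 - c ^ q)⁻¹ * hermForm 11 F q v v) • e v := by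
  have c0 : c - 1 ≠ 0 := sub_ne_zero.2 hc
  have c1 : 1 - c ^ q ≠ 0 := sub_ne_zero.2 fun k => hc (conj_injective (q := q) (k.symm.trans (map_one _).symm))
  have d : dd z = 0 := dd_eq_zero.2 fun v hv => by
    rw [hz, ← sub_eq_zero, ← one_smul F v, smul_smul, mul_one, ← sub_smul] at hv
    exact (smul_eq_zero.1 hv).resolve_left c0
  rw [rho, d, add_zero, Odd.neg_pow (by decide), inv_neg]
  congr 1
  refine Fintype.sum_bijective (fun x => (c - 1) • x) (MulAction.bijective (Units.mk0 _ c0)) _ _ fun x => ?_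
  rw [h.mul_ei', hz, show c • x - x = (c - 1) • x by rw [sub_smul, one_smul], herm_smul_left, herm_smul_left,
    herm_smul_right, map_sub, map_one, conj_apply]
  congr 2
  field_simp
  ring

end Cfsg.Agent.U11
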